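import Cfsg.Agent.INV.G2C.BDef
import Cfsg.Agent.INV.G2C.Ring

/-! # G2C/Act : `N(B)` acts on `B` as `ΓL₁(R)` -/

set_option autoImplicit false
open Subgroup CL.MSS

namespace CL.G2C

open F4

universe u

variable {G : Type u} [Group G] [Finite G]

namespace Bs

variable (Γ : Bs G)

/-- PROOF. `bn a = n * be a.1 a.2 * n⁻¹ ∈ P`.  By `z2` (←) `bn a * be b * (bn a)⁻¹ * (be b)⁻¹ = bb (f a b)`; `B` is central
in `P`, so `f` is biadditive; `h` (`h_n`, `h_be`, `h_bb`), `t` (`t_be`, `t_bb`, `At nA`) and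
`[xb s, xe s'] = y (s s')` (`be_e`, `n_q`, `bb_y`) give the hypotheses of `exists_ring`: `c, p, p'`.
For `g ∈ N(B)`: `g` normalises `C(B)`, Frattini (`SylIn.frattini`) `g = c₀ g'` with `c₀ ∈ C(B)`, `g' ∈ N(P)`; `g'` acts on
`B` like `g`.  `g' (bb r) g'⁻¹ = bb (a₃ r)` (additive, injective), `g' (be b) g'⁻¹ = be (b') * β` (by `z2`, which is
invariant under `g'`), `g' (bn a) g'⁻¹ ∈ P` acts on `be` like `bn a'` (`gen`), so `a₃ (f a b) = f a' b'`; transport along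
the bijections `a ↦ ⟨a.1 + p' a.2, a.2⟩`, `b ↦ ⟨b.1 + p b.2, b.2⟩` and apply `Rg.autotop`. -/
theorem exists_act {P : Subgroup G} (hP : Γ.PS P) : ∃ c : F4, ∀ g ∈ normalizer (Γ.B : Set G),
    ∃ p : Rg c, IsUnit p ∧ ∃ θ : RingAut (Rg c), ∀ r : Rg c,
      g * Γ.bb r.s r.r * g⁻¹ = Γ.bb (p * θ r).s (p * θ r).r := by
  have cP : ∀ x ∈ P, ∀ β ∈ Γ.B, x * β = β * x := fun x hx β hβ => (mem_centralizer_iff.1 (hP.syl.le hx) β hβ).symm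
  have zb : ∀ s r, ∀ x ∈ P, x * Γ.be s r * x⁻¹ * (Γ.be s r)⁻¹ ∈ Γ.B := fun s r =>
    (hP.z2 _ (hP.eP s r)).2 ⟨s, r, 1, one_mem _, (mul_one _).symm⟩
  have ex : ∀ a b : F4 × F4, ∃ r : F4 × F4, Γ.n * Γ.be a.1 a.2 * Γ.n⁻¹ * Γ.be b.1 b.2 * (Γ.n * Γ.be a.1 a.2 * Γ.n⁻¹)⁻¹ *
      (Γ.be b.1 b.2)⁻¹ = Γ.bb r.1 r.2 := fun a b =>
    let ⟨s, r, h⟩ := zb b.1 b.2 _ (hP.nP a.1 a.2); ⟨(s, r), h⟩
  choose f hf using ex
  have inj : ∀ {r r' : F4 × F4}, Γ.bb r.1 r.2 = Γ.bb r'.1 r'.2 → r = r' := fun h =>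
    Prod.ext (Γ.bb_inj h).1 (Γ.bb_inj h).2
  have cj : ∀ k x y : G, k * (x * y * x⁻¹ * y⁻¹) * k⁻¹ =
      k * x * k⁻¹ * (k * y * k⁻¹) * (k * x * k⁻¹)⁻¹ * (k * y * k⁻¹)⁻¹ := fun k x y => by group
  have cn : ∀ {k x : G}, k * Γ.n = Γ.n * k → k * (Γ.n * x * Γ.n⁻¹) * k⁻¹ = Γ.n * (k * x * k⁻¹) * Γ.n⁻¹ := fun {k x} h => by
    calc _ = k * Γ.n * x * (k * Γ.n)⁻¹ := by group
      _ = _ := by rw [h]; group
  obtain ⟨c, p, p', hr⟩ := exists_ring f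
    (fun a a' b => inj (by
      rw [← hf, Prod.fst_add, Prod.snd_add, Prod.fst_add, Prod.snd_add, ← Γ.be_mul, ← conj_mul, ← Γ.bb_mul, Γ.bb_comm,
        ← hf a b]
      generalize hx : Γ.n * Γ.be a.1 a.2 * Γ.n⁻¹ = x
      rw [← mul_assoc (Γ.bb _ _), ← mul_assoc (Γ.bb _ _), ← mul_assoc (Γ.bb _ _), ← cP x (hx ▸ hP.nP ..) _ (Γ.bbB ..),
        ← hf a' b]
      group))
    (fun a b b' => inj (by
      rw [← hf, Prod.fst_add, Prod.snd_add, Prod.fst_add, Prod.snd_add, ← Γ.be_mul, ← Γ.bb_mul, ← hf a b, mul_assoc _ _ (Γ.bb _ _),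
        cP _ (inv_mem (hP.eP ..)) _ (Γ.bbB ..), ← hf a b']
      group))
    (fun a b => inj (by
      rw [← hf]
      simp only [Prod.smul_fst, Prod.smul_snd, smul_eq_mul]
      rw [← Γ.h_bb, ← hf, cj, cn Γ.h_n, Γ.h_be, Γ.h_be]))
    (fun a b => inj (by
      rw [← hf, ← Γ.t_bb, ← hf, cj, cn (Γ.At Γ.nA).symm, Γ.t_be, Γ.t_be]))
    (fun s s' => inj (by
      rw [← hf, Γ.be_e, Γ.be_e, Γ.n_q, Γ.q_conj, Γ.q_inv, Γ.q_mul, Γ.bb_y, Γ.q_eq]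
      simp [aa, mul_comm]))
  refine ⟨c, fun g hg => ?_⟩
  obtain ⟨c₀, h₀, k, hk, rfl⟩ := hP.syl.frattini (x := g) (mem_norm_of fun x hx => mem_centralizer_iff.2 fun β hβ => by
    calc _ = g * (g⁻¹ * β * g * x) * g⁻¹ := by group
      _ = _ := by rw [mem_centralizer_iff.1 hx _ (conj_mem' hg hβ)]; group)
  have kB : k ∈ normalizer (Γ.B : Set G) := (mul_mem_cancel_left (centralizer_le_normalizer _ h₀)).1 hg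
  have e3 : ∀ r : Rg c, ∃ r' : Rg c, k * Γ.bb r.s r.r * k⁻¹ = Γ.bb r'.s r'.r := fun r =>
    let ⟨s, r, h⟩ := conj_mem kB (Γ.bbB r.s r.r); ⟨⟨s, r⟩, h⟩
  have e2 : ∀ b : F4 × F4, ∃ b' : F4 × F4, ∃ β ∈ Γ.B, k * Γ.be b.1 b.2 * k⁻¹ = Γ.be b'.1 b'.2 * β := fun b => by
    obtain ⟨s, r, h⟩ := (hP.z2 _ (conj_mem hk (hP.eP b.1 b.2))).1 fun x hx => by
      have := conj_mem kB (zb b.1 b.2 _ (conj_mem' hk hx))
      convert this using 1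
      group
    exact ⟨(s, r), h⟩
  have e1 : ∀ a : F4 × F4, ∃ a' : F4 × F4, ∀ s r, k * (Γ.n * Γ.be a.1 a.2 * Γ.n⁻¹) * k⁻¹ * Γ.be s r *
      (k * (Γ.n * Γ.be a.1 a.2 * Γ.n⁻¹) * k⁻¹)⁻¹ = Γ.n * Γ.be a'.1 a'.2 * Γ.n⁻¹ * Γ.be s r *
      (Γ.n * Γ.be a'.1 a'.2 * Γ.n⁻¹)⁻¹ := fun a =>
    let ⟨s, r, h⟩ := hP.gen _ (conj_mem hk (hP.nP a.1 a.2)); ⟨(s, r), h⟩
  choose a₃ h₃ using e3
  choose a₂ h₂ using e2
  choose a₁ h₁ using e1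
  have inj' : ∀ {r r' : Rg c}, Γ.bb r.s r.r = Γ.bb r'.s r'.r → r = r' := fun h =>
    Rg.ext (Γ.bb_inj h).1 (Γ.bb_inj h).2
  have key : ∀ a b, a₃ ⟨(f a b).1, (f a b).2⟩ = ⟨(f (a₁ a) (a₂ b)).1, (f (a₁ a) (a₂ b)).2⟩ := fun a b => inj' (by
    obtain ⟨β, hβ, h⟩ := h₂ b
    rw [← h₃, ← hf, ← hf, cj, h, ← h₁]
    generalize hx : k * (Γ.n * Γ.be a.1 a.2 * Γ.n⁻¹) * k⁻¹ = x
    have := cP _ (inv_mem (hx ▸ conj_mem hk (hP.nP a.1 a.2) : x ∈ P)) β hβ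
    rw [← mul_assoc x, mul_assoc _ β, ← this]
    group)
  obtain ⟨u, hu, θ, hθ⟩ := Rg.autotop
    (fun r => ⟨(a₁ (r.s + p' * r.r, r.r)).1 + p' * (a₁ (r.s + p' * r.r, r.r)).2, (a₁ (r.s + p' * r.r, r.r)).2⟩)
    (fun r => ⟨(a₂ (r.s + p * r.r, r.r)).1 + p * (a₂ (r.s + p * r.r, r.r)).2, (a₂ (r.s + p * r.r, r.r)).2⟩) a₃
    (fun r s => inj' (by rw [← h₃, Rg.add_s, Rg.add_r, Rg.add_s, Rg.add_r, ← Γ.bb_mul, ← Γ.bb_mul, ← h₃, ← h₃, conj_mul]))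
    (fun r s h => inj' (mul_left_cancel (mul_right_cancel ((h₃ r).trans (h ▸ (h₃ s).symm)))))
    fun r s => by
      rw [← hr, ← key, hr]
      simp only [add_assoc, aa, add_zero]
  refine ⟨u, hu, θ, fun r => ?_⟩
  rw [← hθ, ← mul_inv_cancel_right (Γ.bb (a₃ r).s (a₃ r).r) c₀, mem_centralizer_iff.1 h₀ _ (Γ.bbB ..), ← h₃]
  group

end Bs

end CL.G2C
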