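import Cfsg.Agent.INV.G2C.Defs

/-! # G2C/Api : Bruhat decomposition of `D`, characterisations of `Q`, `F`, `Y`, conjugates of `t` -/

set_option autoImplicit false
open Subgroup CL.MSS

namespace CL.G2C

open F4

universe u

variable {G : Type u} [Group G]

namespace Su

variable (Γ : Su G)

/-- `F = X_e Y = Z₂(U)` -/
def F : Subgroup G where
  carrier := {g | ∃ e y, g = Γ.q 0 0 0 e y}
  one_mem' := ⟨0, 0, Γ.q_zero.symm⟩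
  mul_mem' := by rintro _ _ ⟨e, y, rfl⟩ ⟨e', y', rfl⟩; exact ⟨e + e', y + y', by simp [Γ.q_mul]⟩
  inv_mem' := by rintro _ ⟨e, y, rfl⟩; exact ⟨e, y, by simp [Γ.q_inv]⟩
theorem mem_F {g : G} : g ∈ Γ.F ↔ ∃ e y, g = Γ.q 0 0 0 e y := Iff.rfl
theorem qF (e y : F4) : Γ.q 0 0 0 e y ∈ Γ.F := ⟨e, y, rfl⟩
theorem F_le_Q : Γ.F ≤ Γ.Q := by rintro _ ⟨e, y, rfl⟩; exact Γ.qQ ..
theorem Y_le_F : Γ.Y ≤ Γ.F := by rintro _ ⟨y, rfl⟩; exact Γ.qF ..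
theorem q_mem_Y {b c d e y : F4} : Γ.q b c d e y ∈ Γ.Y ↔ b = 0 ∧ c = 0 ∧ d = 0 ∧ e = 0 :=
  ⟨fun ⟨_, h⟩ => let ⟨h1, h2, h3, h4, _⟩ := Γ.q_inj h; ⟨h1, h2, h3, h4⟩,
    fun ⟨h1, h2, h3, h4⟩ => ⟨y, by rw [h1, h2, h3, h4]⟩⟩
theorem q_mem_F {b c d e y : F4} : Γ.q b c d e y ∈ Γ.F ↔ b = 0 ∧ c = 0 ∧ d = 0 :=
  ⟨fun ⟨_, _, h⟩ => let ⟨h1, h2, h3, _, _⟩ := Γ.q_inj h; ⟨h1, h2, h3⟩,
    fun ⟨h1, h2, h3⟩ => ⟨e, y, by rw [h1, h2, h3]⟩⟩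
/-- conjugation by a general element of `U` -/
theorem u_conj (b c d e y a b' c' d' e' y' : F4) :
    Γ.q b c d e y * Γ.x a * Γ.q b' c' d' e' y' * (Γ.q b c d e y * Γ.x a)⁻¹ =
    Γ.q b' (c' + a * b') (d' + a ^ 2 * b') (e' + a * d' + a ^ 2 * c' + a ^ 3 * b')
      (y' + a ^ 3 * b' ^ 2 + a * c' ^ 2 + a ^ 2 * b' * c' + e * b' + d * (c' + a * b') +
        (e' + a * d' + a ^ 2 * c' + a ^ 3 * b') * b + (d' + a ^ 2 * b') * c) := by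
  rw [← Γ.q_conj b c d e y, ← Γ.x_q]; group
theorem x_eq_zero {a : F4} (e : Γ.x a ∈ Γ.Q) : a = 0 := by
  obtain ⟨b, c, d, e', y, e⟩ := e
  have h := Γ.x_q a 0 0 1 0 0
  rw [e, q_conj] at h
  simpa using (Γ.q_inj h).2.2.2.1.symm
theorem u_inj {z z' : G} (hz : z ∈ Γ.Q) (hz' : z' ∈ Γ.Q) {a a' : F4} (e : z * Γ.x a = z' * Γ.x a') :
    z = z' ∧ a = a' := by
  have h : Γ.x (a + a') = z⁻¹ * z' := by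
    rw [← Γ.x_mul, ← Γ.x_inv a', eq_inv_mul_iff_mul_eq, ← mul_assoc, e, mul_inv_cancel_right]
  have h2 : a = a' := by
    have := Γ.x_eq_zero (h ▸ mul_mem (inv_mem hz) hz'); linear_combination this - aa a'
  subst h2; exact ⟨mul_right_cancel e, rfl⟩
theorem D_Q {d z : G} (hd : d ∈ Γ.D) (hz : z ∈ Γ.Q) : d * z * d⁻¹ ∈ Γ.Q := by
  have key {g : G} (gi : ∀ z ∈ Γ.Q, g * z * g⁻¹ ∈ Γ.Q) (gg : g⁻¹ = g) : g ∈ normalizer (Γ.Q : Set G) :=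
    mem_normalizer_iff.2 fun z => ⟨gi z, fun h => by
      have := gi _ h; rwa [gg, show g * (g * z * g) * g = g * g * z * (g * g) by group,
        (mul_eq_one_iff_inv_eq.2 gg : g * g = 1), one_mul, mul_one] at this⟩
  refine conj_mem (Γ.D_le (M := normalizer (Γ.Q : Set G)) (fun _ _ _ _ _ => le_normalizer (Γ.qQ ..))
    (fun a => key ?_ (Γ.x_inv a)) (key ?_ Γ.n_inv) hd) hz
  · rintro _ ⟨b, c, d, e, y, rfl⟩; rw [Γ.x_q]; exact Γ.qQ ..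
  · rintro _ ⟨b, c, d, e, y, rfl⟩; rw [Γ.n_q]; exact Γ.qQ ..
theorem kk_U {s : F4} (hs : s ≠ 0) {z : G} (hz : z ∈ Γ.U) : Γ.kk s * z * (Γ.kk s)⁻¹ ∈ Γ.U := by
  obtain ⟨b, c, d, e, y, a, rfl⟩ := hz
  rw [← conj_mul, Γ.kk_q hs, Γ.kk_x hs]; exact mul_mem (Γ.qU ..) (Γ.xU _)
theorem kk_inv {s : F4} (hs : s ≠ 0) : (Γ.kk s)⁻¹ = Γ.kk s⁻¹ := by
  rw [inv_eq_iff_mul_eq_one, Γ.kk_mul hs (inv_ne_zero hs), mul_inv_cancel₀ hs, kk_one]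
theorem h_U {z : G} (hz : z ∈ Γ.U) : Γ.h * z * Γ.h⁻¹ ∈ Γ.U := by
  obtain ⟨b, c, d, e, y, a, rfl⟩ := hz
  rw [← conj_mul, Γ.h_q, Γ.h_x, mul_inv_cancel_right]; exact mul_mem (Γ.qU ..) (Γ.xU _)
theorem h_Q {z : G} (hz : z ∈ Γ.Q) : Γ.h * z * Γ.h⁻¹ ∈ Γ.Q := by
  obtain ⟨b, c, d, e, y, rfl⟩ := hz; rw [Γ.h_q]; exact Γ.qQ ..
theorem h_Y {z : G} (hz : z ∈ Γ.Y) : Γ.h * z * Γ.h⁻¹ ∈ Γ.Y := by
  obtain ⟨y, rfl⟩ := hz; rw [Γ.h_y]; exact Γ.yY _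
theorem h_D {d : G} (hd : d ∈ Γ.D) : Γ.h * d * Γ.h⁻¹ ∈ Γ.D :=
  Γ.mem_D' (mul_mem (mul_mem Γ.hA (Γ.D_le_A hd)) (inv_mem Γ.hA)) (η := v * 1) (by decide) (by
    rw [← Γ.h_y, conj_mul, conj_mul, Γ.D_y hd])
theorem k_ne : Γ.k ∉ Γ.U := fun h => by
  obtain ⟨n, e⟩ := pow_two_of_mem Γ.pU h
  have h1 : Γ.k = 1 := eq_one_of_odd (Odd.of_dvd_nat (by decide) (orderOf_dvd_of_pow_eq_one Γ.k3)) e
  have := Γ.k_q 0 0 1 0 0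
  rw [h1, one_mul, inv_one, mul_one] at this
  exact absurd (Γ.q_inj this).2.2.1 (by decide)

/-- the Borel subgroup `U ⟨k⟩` of `D` -/
def Bo : Subgroup G where
  carrier := {g | ∃ z ∈ Γ.U, ∃ s, s ≠ 0 ∧ g = z * Γ.kk s}
  one_mem' := ⟨1, one_mem _, 1, one_ne_zero, by rw [kk_one, mul_one]⟩
  mul_mem' := by
    rintro _ _ ⟨z, hz, s, hs, rfl⟩ ⟨z', hz', s', hs', rfl⟩
    exact ⟨_, mul_mem hz (Γ.kk_U hs hz'), _, mul_ne_zero hs hs', by rw [← Γ.kk_mul hs hs']; group⟩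
  inv_mem' := by
    rintro _ ⟨z, hz, s, hs, rfl⟩
    exact ⟨_, Γ.kk_U (inv_ne_zero hs) (inv_mem hz), _, inv_ne_zero hs, by rw [← Γ.kk_inv hs]; group⟩
theorem mem_Bo {g : G} : g ∈ Γ.Bo ↔ ∃ z ∈ Γ.U, ∃ s, s ≠ 0 ∧ g = z * Γ.kk s := Iff.rfl
theorem U_le_Bo : Γ.U ≤ Γ.Bo := fun z hz => ⟨z, hz, 1, one_ne_zero, by rw [kk_one, mul_one]⟩
theorem kBo : Γ.k ∈ Γ.Bo := ⟨1, one_mem _, w, by decide, by rw [kk_w, one_mul]⟩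
theorem Bo_U {g z : G} (hg : g ∈ Γ.Bo) (hz : z ∈ Γ.U) : g * z * g⁻¹ ∈ Γ.U := by
  obtain ⟨u, hu, s, hs, rfl⟩ := hg
  have := mul_mem (mul_mem hu (Γ.kk_U hs hz)) (inv_mem hu)
  rwa [show u * (Γ.kk s * z * (Γ.kk s)⁻¹) * u⁻¹ = u * Γ.kk s * z * (u * Γ.kk s)⁻¹ by group] at this
theorem n_k' : Γ.n * Γ.k = Γ.k⁻¹ * Γ.n := by rw [← Γ.n_k, inv_mul_cancel_right]
theorem n_x_n {a : F4} (ha : a ≠ 0) : ∃ z ∈ Γ.Bo, ∃ a', Γ.n * Γ.x a * Γ.n = z * Γ.n * Γ.x a' := by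
  have k1 : Γ.n * Γ.k * Γ.n = Γ.k⁻¹ := by rw [← Γ.n_k, n_inv]
  have k2 : Γ.n * Γ.k⁻¹ * Γ.n = Γ.k := by
    rw [← k1, show Γ.n * (Γ.n * Γ.k * Γ.n) * Γ.n = (Γ.n * Γ.n) * Γ.k * (Γ.n * Γ.n) by group, Γ.nn]; simp
  have step {a a' : F4} {z : G} (hz : z ∈ Γ.Bo) (e : Γ.n * Γ.x a * Γ.n = z * Γ.n * Γ.x a') :
      ∃ z ∈ Γ.Bo, ∃ a', Γ.n * Γ.x (v * a) * Γ.n = z * Γ.n * Γ.x a' := by
    refine ⟨Γ.k⁻¹ * z * Γ.k⁻¹, mul_mem (mul_mem (inv_mem Γ.kBo) hz) (inv_mem Γ.kBo), w * a', ?_⟩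
    have e2 : Γ.x a' = Γ.k * Γ.x (w * a') * Γ.k⁻¹ := by
      rw [Γ.k_x, ← mul_assoc, (by decide : v * w = 1), one_mul]
    calc Γ.n * Γ.x (v * a) * Γ.n = (Γ.n * Γ.k * Γ.n) * (Γ.n⁻¹ * Γ.x a * Γ.n⁻¹) * (Γ.n * Γ.k⁻¹ * Γ.n) := by
          rw [← Γ.k_x]; group
      _ = Γ.k⁻¹ * (z * (Γ.n * Γ.k) * Γ.x (w * a') * Γ.k⁻¹) * Γ.k := by rw [k1, k2, n_inv, e, e2]; group
      _ = _ := by rw [n_k']; group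
  have h1 : ∃ z ∈ Γ.Bo, ∃ a', Γ.n * Γ.x 1 * Γ.n = z * Γ.n * Γ.x a' := ⟨_, Γ.U_le_Bo (Γ.xU 1), 1, Γ.nxn⟩
  obtain ⟨z1, hz1, a1, e1⟩ := h1
  obtain ⟨z2, hz2, a2, e2⟩ := step hz1 e1
  rcases f4cases a with rfl | rfl | rfl | rfl
  · exact absurd rfl ha
  · exact ⟨z1, hz1, a1, e1⟩
  · exact step hz2 e2
  · exact ⟨z2, hz2, a2, e2⟩
/-- Bruhat decomposition of `D` -/
theorem bru {d : G} (hd : d ∈ Γ.D) : d ∈ Γ.Bo ∨ ∃ z ∈ Γ.Bo, ∃ a, d = z * Γ.n * Γ.x a := by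
  have hU {g z : G} (hz : z ∈ Γ.U) (h : g ∈ Γ.Bo ∨ ∃ z ∈ Γ.Bo, ∃ a, g = z * Γ.n * Γ.x a) :
      g * z ∈ Γ.Bo ∨ ∃ z' ∈ Γ.Bo, ∃ a, g * z = z' * Γ.n * Γ.x a := by
    rcases h with h | ⟨z', hz', a, rfl⟩
    · exact Or.inl (mul_mem h (Γ.U_le_Bo hz))
    · obtain ⟨b, c, d, e, y, a', rfl⟩ := hz
      refine Or.inr ⟨_, mul_mem hz' (Γ.U_le_Bo (Γ.Q_le_U (Γ.D_Q (mul_mem Γ.nD (Γ.xD a)) (Γ.qQ b c d e y)))),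
        a + a', by rw [← Γ.x_mul]; group⟩
  have hn {g : G} (h : g ∈ Γ.Bo ∨ ∃ z ∈ Γ.Bo, ∃ a, g = z * Γ.n * Γ.x a) :
      g * Γ.n ∈ Γ.Bo ∨ ∃ z' ∈ Γ.Bo, ∃ a, g * Γ.n = z' * Γ.n * Γ.x a := by
    rcases h with h | ⟨z', hz', a, rfl⟩
    · exact Or.inr ⟨g, h, 0, by rw [x_zero, mul_one]⟩
    · by_cases ha : a = 0
      · left; rwa [ha, x_zero, mul_one, mul_assoc, Γ.nn, mul_one]
      · obtain ⟨z, hz, a', e⟩ := Γ.n_x_n ha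
        exact Or.inr ⟨_, mul_mem hz' hz, a', by rw [mul_assoc z' z, mul_assoc z' (z * _), ← e]; group⟩
  have := Γ.cen1 d (Γ.mem_D.1 hd).1 (Γ.mem_D.1 hd).2
  clear hd
  induction this using closure_induction_right with
  | one => exact Or.inl (one_mem _)
  | mul_right g _ s hs ih =>
    rcases hs with ⟨b, c, d, e, y, rfl⟩ | ⟨a, rfl⟩ | rfl
    exacts [hU (Γ.qU ..) ih, hU (Γ.xU _) ih, hn ih]
  | mul_inv_cancel g _ s hs ih =>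
    rcases hs with ⟨b, c, d, e, y, rfl⟩ | ⟨a, rfl⟩ | rfl
    exacts [hU (inv_mem (Γ.qU ..)) ih, hU (inv_mem (Γ.xU _)) ih, Γ.n_inv.symm ▸ hn ih]
theorem bo_conj {z : G} (hz : z ∈ Γ.Bo) (b c d e y : F4) :
    ∃ c' d' e' y', z * Γ.q b c d e y * z⁻¹ = Γ.q b c' d' e' y' := by
  obtain ⟨_, ⟨b', c', d', e', y', a, rfl⟩, s, hs, rfl⟩ := hz
  exact ⟨_, _, _, _, by rw [mul_inv_rev (_ * _), ← mul_assoc, mul_assoc _ (Γ.kk s), mul_assoc _ (_ * _) (Γ.kk s)⁻¹,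
    Γ.kk_q hs, u_conj]⟩
theorem bo_of_e {d : G} (hd : d ∈ Γ.D) {c' d' e' y' : F4} (e : d * Γ.q 0 0 0 1 0 * d⁻¹ = Γ.q 0 c' d' e' y') :
    d ∈ Γ.Bo := by
  refine (Γ.bru hd).resolve_right ?_
  rintro ⟨z, hz, a, rfl⟩
  obtain ⟨_, _, _, _, e1⟩ := Γ.bo_conj hz 1 0 0 0 0
  have e2 : z * Γ.n * Γ.x a * Γ.q 0 0 0 1 0 * (z * Γ.n * Γ.x a)⁻¹ =
      z * (Γ.n * (Γ.x a * Γ.q 0 0 0 1 0 * (Γ.x a)⁻¹) * Γ.n⁻¹) * z⁻¹ := by group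
  rw [e2, Γ.x_q, Γ.n_q] at e
  simp only [mul_zero, add_zero, ne_eq, OfNat.ofNat_ne_zero, not_false_eq_true, zero_pow, zero_mul] at e
  exact absurd (Γ.q_inj (e1.symm.trans e)).1 one_ne_zero
theorem U_of_Bo {g : G} (hg : g ∈ Γ.Bo) {i : ℕ} (e : g ^ 2 ^ i = 1) : g ∈ Γ.U := by
  refine Γ.sylU.le_of_normalizes (R := zpowers g) ?_ ?_ ?_ (mem_zpowers g)
  · rintro ⟨_, m, rfl⟩
    exact ⟨i, Subtype.ext (by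
      simp only [coe_pow, coe_one]; rw [← zpow_natCast, ← zpow_mul, mul_comm, zpow_mul, zpow_natCast, e, one_zpow])⟩
  · obtain ⟨z, hz, s, hs, rfl⟩ := hg
    exact zpowers_le.2 (mul_mem (Γ.U_le_A hz) (Γ.kkA s))
  · exact zpowers_le.2 (mem_normalizer_iff.2 fun z => ⟨Γ.Bo_U hg, fun h => by
      simpa [mul_assoc] using Γ.Bo_U (inv_mem hg) h⟩)
theorem memQ {d : G} (hd : d ∈ Γ.D) (e1 : d * Γ.q 0 0 0 1 0 * d⁻¹ * (Γ.q 0 0 0 1 0)⁻¹ ∈ Γ.Y)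
    (e2 : d * Γ.q 0 0 1 0 0 * d⁻¹ * (Γ.q 0 0 1 0 0)⁻¹ ∈ Γ.Y) : d ∈ Γ.Q := by
  obtain ⟨η, e1⟩ := e1
  obtain ⟨η', e2⟩ := e2
  rw [mul_inv_eq_iff_eq_mul, y_mul_q] at e1 e2
  obtain ⟨_, ⟨b, c, d, e, y, a, rfl⟩, s, hs, rfl⟩ := Γ.bo_of_e hd e1
  rw [mul_inv_rev (_ * _), ← mul_assoc, mul_assoc _ (Γ.kk s), mul_assoc _ (_ * _) (Γ.kk s)⁻¹,
    Γ.kk_q hs, u_conj] at e2
  obtain ⟨-, -, h1, h2, -⟩ := Γ.q_inj e2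
  simp only [mul_one, mul_zero, add_zero, zero_add] at h1 h2
  rw [h1, mul_one] at h2
  rw [h1, h2, kk_one, x_zero, mul_one, mul_one]; exact Γ.qQ ..
theorem memF {d : G} (hd : d ∈ Γ.D) (e : ∀ z ∈ Γ.U, d * z * d⁻¹ * z⁻¹ ∈ Γ.Y) : d ∈ Γ.F := by
  obtain ⟨b, c, d, e', y, rfl⟩ := Γ.memQ hd (e _ (Γ.qU ..)) (e _ (Γ.qU ..))
  have h (a : F4) : a * b = 0 ∧ a * d + a ^ 2 * c + a ^ 3 * b = 0 := by
    have := inv_mem (e _ (Γ.xU a))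
    rw [show (Γ.q b c d e' y * Γ.x a * (Γ.q b c d e' y)⁻¹ * (Γ.x a)⁻¹)⁻¹ =
      Γ.x a * Γ.q b c d e' y * (Γ.x a)⁻¹ * (Γ.q b c d e' y)⁻¹ by group, Γ.x_q, q_inv, Γ.q_mul, q_mem_Y] at this
    exact ⟨by linear_combination this.2.1 - aa c, by linear_combination this.2.2.2 - aa e'⟩
  have h1 := h 1
  have h2 := h w
  rw [q_mem_F]; clear h e hd; revert b c d; decide
theorem memY {d : G} (hd : d ∈ Γ.D) (e : ∀ z ∈ Γ.Q, d * z = z * d) : d ∈ Γ.Y := by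
  have h {z : G} (hz : z ∈ Γ.Q) : d * z * d⁻¹ * z⁻¹ ∈ Γ.Y := by rw [e z hz]; simp
  obtain ⟨b, c, d, e', y, rfl⟩ := Γ.memQ hd (h (Γ.qQ ..)) (h (Γ.qQ ..))
  have h1 := Γ.q_comm_iff.1 (e _ (Γ.qQ 1 0 0 0 0))
  have h2 := Γ.q_comm_iff.1 (e _ (Γ.qQ 0 1 0 0 0))
  have h3 := Γ.q_comm_iff.1 (e _ (Γ.qQ 0 0 1 0 0))
  have h4 := Γ.q_comm_iff.1 (e _ (Γ.qQ 0 0 0 1 0))
  simp only [mul_one, mul_zero, add_zero, zero_add, zero_mul, one_mul] at h1 h2 h3 h4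
  exact Γ.q_mem_Y.2 ⟨h4, h3, h2, h1⟩
theorem cen_xb {z : G} (hz : z ∈ Γ.U) {β : F4} (h0 : β ≠ 0) (e : z * Γ.q β 0 0 0 0 = Γ.q β 0 0 0 0 * z)
    (β' : F4) : z * Γ.q β' 0 0 0 0 = Γ.q β' 0 0 0 0 * z := by
  obtain ⟨b, c, d, e', y, a, rfl⟩ := hz
  rw [← mul_inv_eq_iff_eq_mul, u_conj, q_eq] at e ⊢
  obtain ⟨-, h1, -, -, h2⟩ := e
  obtain rfl : a = 0 := by simpa [h0] using h1
  obtain rfl : e' = 0 := by simpa [h0] using h2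
  simp
theorem U_F {z g : G} (hz : z ∈ Γ.U) (hg : g ∈ Γ.F) : z * g * z⁻¹ * g⁻¹ ∈ Γ.Y := by
  obtain ⟨b, c, d, e, y, a, rfl⟩ := hz
  obtain ⟨e', y', rfl⟩ := hg
  rw [u_conj, q_inv, Γ.q_mul, q_mem_Y]; simp [aa]
theorem normY_of_U [Finite G] {g : G} (hg : g ∈ normalizer (Γ.U : Set G)) : g ∈ normalizer (Γ.Y : Set G) :=
  mem_norm_of (by
    rintro _ ⟨η, rfl⟩
    refine Γ.memY (Γ.U_le_D (conj_mem hg (Γ.qU ..))) fun z hz => ?_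
    have := Γ.D_y (Γ.U_le_D (conj_mem' hg (Γ.Q_le_U hz))) η
    calc _ = g * (Γ.q 0 0 0 0 η * (g⁻¹ * z * g)) * g⁻¹ := by group
      _ = _ := by rw [← this]; group)
theorem normF_of_U [Finite G] {g : G} (hg : g ∈ normalizer (Γ.U : Set G)) : g ∈ normalizer (Γ.F : Set G) :=
  mem_norm_of fun f hf => Γ.memF (Γ.U_le_D (conj_mem hg (Γ.Q_le_U (Γ.F_le_Q hf)))) fun z hz => by
    have := conj_mem (Γ.normY_of_U hg) (inv_mem (Γ.U_F (conj_mem' hg hz) hf))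
    rwa [show g * (g⁻¹ * z * g * f * (g⁻¹ * z * g)⁻¹ * f⁻¹)⁻¹ * g⁻¹ = g * f * g⁻¹ * z * (g * f * g⁻¹)⁻¹ * z⁻¹
      by group] at this
theorem normQ_of_D [Finite G] {g : G} (hD : g ∈ normalizer (Γ.D : Set G)) (hg : g ∈ normalizer (Γ.U : Set G)) :
    g ∈ normalizer (Γ.Q : Set G) := mem_norm_of fun z hz => by
  obtain ⟨b, c, d, e, y, a, h1⟩ := conj_mem hg (Γ.Q_le_U hz)
  have h2 := conj_mem hg (Γ.Q_le_U (Γ.D_Q (conj_mem' hD Γ.nD) hz))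
  rw [show g * (g⁻¹ * Γ.n * g * z * (g⁻¹ * Γ.n * g)⁻¹) * g⁻¹ = Γ.n * (g * z * g⁻¹) * Γ.n⁻¹ by group, h1,
    ← conj_mul, Γ.n_q] at h2
  obtain ⟨_, _, _, _, h3⟩ := Γ.bo_conj (Γ.U_le_Bo ((mul_mem_cancel_left (Γ.qU ..)).1 h2)) 0 0 0 1 0
  have e1 : Γ.n⁻¹ * Γ.q 0 0 0 1 0 * Γ.n = Γ.q 1 0 0 0 0 := by
    have := Γ.n_q 0 0 0 1 0; rw [n_inv] at this ⊢; simpa using this
  rw [show Γ.n * Γ.x a * Γ.n⁻¹ * Γ.q 0 0 0 1 0 * (Γ.n * Γ.x a * Γ.n⁻¹)⁻¹ =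
    Γ.n * (Γ.x a * (Γ.n⁻¹ * Γ.q 0 0 0 1 0 * Γ.n) * (Γ.x a)⁻¹) * Γ.n⁻¹ by group, e1, Γ.x_q, Γ.n_q] at h3
  obtain rfl : a = 0 := by simpa using (Γ.q_inj h3).1
  rw [h1, x_zero, mul_one]; exact Γ.qQ ..
theorem normU_of_F [Finite G] {g : G} (hD : g ∈ normalizer (Γ.D : Set G)) (hg : g ∈ normalizer (Γ.F : Set G)) :
    g ∈ normalizer (Γ.U : Set G) := mem_norm_of fun z hz => by
  obtain ⟨i, hi⟩ := pow_two_of_mem Γ.pU hz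
  have h1 := conj_mem' hg (Γ.qF 1 0)
  obtain ⟨e, y, h2⟩ := conj_mem hg (mul_mem (Γ.Y_le_F (Γ.U_F hz h1)) h1)
  refine Γ.U_of_Bo (Γ.bo_of_e (conj_mem hD (Γ.U_le_D hz)) (Eq.trans (by group) h2)) (i := i) ?_
  rw [conj_pow, hi]; simp

/-! ### conjugates of `t` -/

/-- a four-group with an element of order 3 acting freely lies in `A` -/
theorem l0 {z j : G} (hz : z ∈ Γ.N) (hj : j ∈ Γ.N) (j3 : j ^ 3 = 1) (zz : z * z = 1)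
    (cm : z * (j * z * j⁻¹) = j * z * j⁻¹ * z) (e : z * (j * z * j⁻¹) = j * j * z * (j * j)⁻¹) : z ∈ Γ.A := by
  have cj {g z : G} (hg : g ∈ Γ.N) (h : Γ.In z) : Γ.In (g * z * g⁻¹) := by
    obtain ⟨a, ha, c, hc, rfl⟩ := h
    exact ⟨_, conj_mem hg ha, _, Γ.conj_K hg hc, by group⟩
  have hin : Γ.In z := by
    rcases Γ.two z hz _ (mul_mem (mul_mem hj hz) (inv_mem hj)) with h | h | h
    · exact h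
    · simpa [mul_assoc] using cj (inv_mem hj) h
    · rw [e] at h; simpa [mul_assoc] using cj (inv_mem (mul_mem hj hj)) h
  obtain ⟨a, ha, c, hc, rfl⟩ := hin
  have pr {a a' c c' : G} (ha' : a' ∈ Γ.A) (hc : c ∈ Γ.K) : a * c * (a' * c') = a * a' * (c * c') := by
    rw [mul_assoc a, ← mul_assoc c, ← Γ.cK ha' hc]; group
  have ha1 := conj_mem hj ha
  have hc1 := Γ.conj_K hj hc
  have cc : c * c = 1 := by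
    rw [pr ha hc, ← mul_one 1] at zz
    exact (Γ.ak_eq (mul_mem ha ha) (one_mem _) (mul_mem hc hc) (one_mem _) zz).2
  rw [← conj_mul] at cm e
  rw [pr ha1 hc, pr ha hc1] at cm
  rw [pr ha1 hc, ← conj_mul] at e
  have cm' := (Γ.ak_eq (mul_mem ha ha1) (mul_mem ha1 ha) (mul_mem hc hc1) (mul_mem hc1 hc) cm).2
  have e' := (Γ.ak_eq (mul_mem ha ha1) (conj_mem (mul_mem hj hj) ha) (mul_mem hc hc1)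
    (Γ.conj_K (mul_mem hj hj) hc) e).2
  by_cases c1 : c = 1
  · rwa [c1, mul_one]
  · rw [← Γ.rk c hc _ hc1 cc (by rw [conj_mul, cc]; simp) c1 (by simpa using c1) cm', cc] at e'
    exact absurd (conj_eq_one_iff.1 e'.symm) c1
theorem conj_N {g z : G} (e : z * (g * Γ.t * g⁻¹) = g * Γ.t * g⁻¹ * z) : g⁻¹ * z * g ∈ Γ.N :=
  Γ.cN _ (by calc _ = g⁻¹ * (z * (g * Γ.t * g⁻¹)) * g := by group
    _ = _ := by rw [e]; group)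
/-- `l0` for the conjugate `g A g⁻¹` -/
theorem l0' {g z j : G} (hz : z * (g * Γ.t * g⁻¹) = g * Γ.t * g⁻¹ * z)
    (hj : j * (g * Γ.t * g⁻¹) = g * Γ.t * g⁻¹ * j) (j3 : j ^ 3 = 1) (zz : z * z = 1)
    (cm : z * (j * z * j⁻¹) = j * z * j⁻¹ * z) (e : z * (j * z * j⁻¹) = j * j * z * (j * j)⁻¹) :
    g⁻¹ * z * g ∈ Γ.A := by
  refine Γ.l0 (Γ.conj_N hz) (Γ.conj_N hj) ?_ ?_ ?_ ?_
  · have := conj_pow (i := 3) (a := g⁻¹) (b := j); rw [inv_inv] at this; rw [this, j3]; simp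
  · calc _ = g⁻¹ * (z * z) * g := by group
      _ = 1 := by rw [zz]; simp
  · calc _ = g⁻¹ * (z * (j * z * j⁻¹)) * g := by group
      _ = _ := by rw [cm]; group
  · calc _ = g⁻¹ * (z * (j * z * j⁻¹)) * g := by group
      _ = _ := by rw [e]; group
theorem DA {g : G} (e : ∀ d ∈ Γ.D, d * (g * Γ.t * g⁻¹) = g * Γ.t * g⁻¹ * d) {d : G} (hd : d ∈ Γ.D) :
    g⁻¹ * d * g ∈ Γ.A := by
  have kk2 (z : G) : Γ.k * Γ.k * z * (Γ.k * Γ.k)⁻¹ = Γ.k * (Γ.k * z * Γ.k⁻¹) * Γ.k⁻¹ := by group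
  have hx (a : F4) : Γ.x a * (Γ.k * Γ.x a * Γ.k⁻¹) = Γ.k * Γ.k * Γ.x a * (Γ.k * Γ.k)⁻¹ := by
    rw [kk2, Γ.k_x, Γ.k_x, Γ.x_mul]; congr 1; revert a; decide
  have hx' (a : F4) : Γ.x a * (Γ.k * Γ.x a * Γ.k⁻¹) = Γ.k * Γ.x a * Γ.k⁻¹ * Γ.x a := by
    rw [Γ.k_x, Γ.x_mul, Γ.x_mul, add_comm]
  refine mem_cj.1 (Γ.D_le' (M := g •ᶜ Γ.A) (fun a => mem_cj.2 ?_) (mem_cj.2 ?_) (fun c => mem_cj.2 ?_)
    (fun c => mem_cj.2 ?_) hd)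
  · exact Γ.l0' (e _ (Γ.xD a)) (e _ Γ.kD) Γ.k3 (Γ.x_sq a) (hx' a) (hx a)
  · have n3 : (Γ.n * Γ.k * Γ.n⁻¹) ^ 3 = 1 := by rw [conj_pow, Γ.k3]; simp
    rw [show Γ.n * Γ.x 1 * Γ.n = Γ.n * Γ.x 1 * Γ.n⁻¹ by rw [n_inv]]
    refine Γ.l0' (e _ (mul_mem (mul_mem Γ.nD (Γ.xD 1)) (inv_mem Γ.nD)))
      (e _ (mul_mem (mul_mem Γ.nD Γ.kD) (inv_mem Γ.nD))) n3 (by rw [conj_mul, x_sq]; simp) ?_ ?_
    · calc _ = Γ.n * (Γ.x 1 * (Γ.k * Γ.x 1 * Γ.k⁻¹)) * Γ.n⁻¹ := by group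
        _ = _ := by rw [hx']; group
    · calc _ = Γ.n * (Γ.x 1 * (Γ.k * Γ.x 1 * Γ.k⁻¹)) * Γ.n⁻¹ := by group
        _ = _ := by rw [hx]; group
  · refine Γ.l0' (e _ (Γ.qD ..)) (e _ Γ.kD) Γ.k3 (by simp [q_sq, q_zero]) (by simp [Γ.k_q, q_comm_iff]) ?_
    rw [kk2, Γ.k_q, Γ.k_q, Γ.q_mul, q_eq]; revert c; decide
  · refine Γ.l0' (e _ (Γ.qD ..)) (e _ Γ.kD) Γ.k3 (by simp [q_sq, q_zero]) (by simp [Γ.k_q, q_comm_iff]) ?_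
    rw [kk2, Γ.k_q, Γ.k_q, Γ.q_mul, q_eq]; revert c; decide
theorem normD [Finite G] {g : G} (hY : g ∈ normalizer (Γ.Y : Set G))
    (e : ∀ d ∈ Γ.D, d * (g * Γ.t * g⁻¹) = g * Γ.t * g⁻¹ * d) : g ∈ normalizer (Γ.D : Set G) := by
  refine (inv_mem_iff (x := g)).1 (mem_norm_of fun d hd => ?_)
  rw [inv_inv]
  obtain ⟨η, h⟩ := conj_mem hY (Γ.yY 1)
  refine Γ.mem_D.2 ⟨Γ.DA e hd, ?_⟩
  calc _ = g⁻¹ * (d * (g * Γ.q 0 0 0 0 1 * g⁻¹)) * g := by group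
    _ = _ := by rw [h, Γ.D_y hd, ← h]; group
theorem D_ty {d : G} (hd : d ∈ Γ.D) (η : F4) : d * (Γ.t * Γ.q 0 0 0 0 η) = Γ.t * Γ.q 0 0 0 0 η * d := by
  rw [← mul_assoc, Γ.At (Γ.D_le_A hd), mul_assoc, Γ.D_y hd, mul_assoc]
theorem normD' [Finite G] {g : G} (hY : g ∈ normalizer (Γ.Y : Set G)) {η : F4}
    (e : g * Γ.t * g⁻¹ = Γ.t * Γ.q 0 0 0 0 η) : g ∈ normalizer (Γ.D : Set G) :=
  Γ.normD hY fun _ hd => e ▸ Γ.D_ty hd η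
/-- a conjugate of `t` centralised by `D` is conjugate under `N(U) ∩ N(Y) ∩ N(D)` -/
theorem cd [Finite G] {g : G} (e : ∀ d ∈ Γ.D, d * (g * Γ.t * g⁻¹) = g * Γ.t * g⁻¹ * d) :
    ∃ g', g' * Γ.t * g'⁻¹ = g * Γ.t * g⁻¹ ∧ g' ∈ normalizer (Γ.U : Set G) ∧
      g' ∈ normalizer (Γ.Y : Set G) ∧ g' ∈ normalizer (Γ.D : Set G) := by
  obtain ⟨a, ha, h⟩ := Γ.sylU.exists_conj_le (R := g⁻¹ •ᶜ Γ.U) (Γ.pU.map _) (by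
    rintro _ ⟨z, hz, rfl⟩; simpa using Γ.DA e (Γ.U_le_D hz))
  have e1 : g * a⁻¹ * Γ.t * (g * a⁻¹)⁻¹ = g * Γ.t * g⁻¹ := by
    rw [mul_assoc g, Γ.At (inv_mem ha)]; group
  have hU : g * a⁻¹ ∈ normalizer (Γ.U : Set G) := (inv_mem_iff).1 (mem_norm_of fun z hz => by
    have := h (conj_mem_cj (g := a) (conj_mem_cj (g := g⁻¹) hz))
    rwa [show a * (g⁻¹ * z * g⁻¹⁻¹) * a⁻¹ = (g * a⁻¹)⁻¹ * z * (g * a⁻¹)⁻¹⁻¹ by group] at this)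
  exact ⟨_, e1, hU, Γ.normY_of_U hU, Γ.normD (Γ.normY_of_U hU) (e1 ▸ e)⟩
/-- `C(t) ∩ C(Y) = D C_K(t)` -/
theorem cenY {c : G} (ht : c * Γ.t = Γ.t * c) (hy : ∀ η, c * Γ.q 0 0 0 0 η = Γ.q 0 0 0 0 η * c) :
    ∃ d ∈ Γ.D, ∃ κ ∈ Γ.K, κ * Γ.t = Γ.t * κ ∧ c = d * κ := by
  obtain ⟨a, ha, κ, hκ, rfl⟩ := Γ.out c (Γ.cN c ht) hy
  refine ⟨a, Γ.mem_D.2 ⟨ha, mul_right_cancel (b := κ) ?_⟩, κ, hκ, mul_left_cancel (a := a) ?_, rfl⟩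
  · rw [mul_assoc, Γ.cK (Γ.qA ..) hκ, ← mul_assoc, hy, mul_assoc]
  · rw [← mul_assoc, ht, ← mul_assoc, ← mul_assoc, Γ.At ha]
/-- `C(t) ∩ C(D) = Y C_K(t)` -/
theorem cenD {c : G} (ht : c * Γ.t = Γ.t * c) (hd : ∀ d ∈ Γ.D, d * c = c * d) :
    ∃ η, ∃ κ ∈ Γ.K, κ * Γ.t = Γ.t * κ ∧ c = Γ.q 0 0 0 0 η * κ := by
  obtain ⟨d, hd', κ, hκ, h, rfl⟩ := Γ.cenY ht fun η => (hd _ (Γ.qD ..)).symm
  obtain ⟨η, rfl⟩ := Γ.memY hd' fun z hz => mul_right_cancel (b := κ) (by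
    rw [mul_assoc, Γ.cK (Γ.D_le_A (Γ.Q_le_D hz)) hκ, ← mul_assoc, ← hd z (Γ.Q_le_D hz), mul_assoc])
  exact ⟨η, κ, hκ, h, rfl⟩
theorem K_inv {κ : G} (hκ : κ ∈ Γ.K) (ht : κ * Γ.t = Γ.t * κ) (e : κ * κ = 1) : κ = 1 ∨ κ = Γ.t :=
  (em _).imp_right fun h => Γ.rk _ hκ _ Γ.tK e Γ.tt h Γ.t1 ht
/-- an inner involution of `C(t)` is `a` or `t a` -/
theorem in_inv {z : G} (h : Γ.In z) (ht : z * Γ.t = Γ.t * z) (e : z * z = 1) : z ∈ Γ.A ∨ Γ.t * z ∈ Γ.A := by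
  obtain ⟨a, ha, c, hc, rfl⟩ := h
  have c1 : c * Γ.t = Γ.t * c := mul_left_cancel (a := a) (by
    rw [← mul_assoc, ht, ← mul_assoc, ← mul_assoc, Γ.At ha])
  have c2 : a * a * (c * c) = 1 * 1 := by
    rw [mul_one, ← e, mul_assoc a a, ← mul_assoc a c c, mul_assoc a c (a * c), ← mul_assoc c a c, Γ.cK ha hc]
  rcases Γ.K_inv hc c1 (Γ.ak_eq (mul_mem ha ha) (one_mem _) (mul_mem hc hc) (one_mem _) c2).2 with h | h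
  · left; rwa [h, mul_one]
  · right; rwa [h, Γ.At ha, ← mul_assoc, Γ.tt, one_mul]

end Su

end CL.G2C
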