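import Cfsg.Agent.INV.G2C.Api

/-!
# G2C/BDef : the elementary abelian group `B = {y s * b r}` of order 16 over `Y`, and the statement of `Q*`
-/

set_option autoImplicit false
open Subgroup CL.MSS

namespace CL.G2C

open F4

universe u

/-- `C_K(t) = ⟨t⟩ × Θ`; `b r` conjugates `t` to `t y(r)` -/
structure Bs (G : Type u) [Group G] extends Su G where
  Θ : Subgroup G
  ΘK : Θ ≤ centralizer (A : Set G)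
  Θt : ∀ θ ∈ Θ, θ * t = t * θ
  Θodd : ∀ θ ∈ Θ, Odd (orderOf θ)
  Θcov : ∀ c ∈ centralizer (A : Set G), c * t = t * c → c ∈ Θ ∨ t * c ∈ Θ
  b : F4 → G
  b_mul : ∀ r r', b r * b r' = b (r + r')
  b_t : ∀ r, b r * t * (b r)⁻¹ = t * q 0 0 0 0 r
  bD : ∀ d ∈ toSu.D, ∀ r, d * b r = b r * d
  bΘ : ∀ θ ∈ Θ, ∀ r, θ * b r = b r * θ
  h_b : ∀ r, h * b r * h⁻¹ = b (v * r)
  be_b : ∀ r r', m * b r * m⁻¹ * b r' = b r' * (m * b r * m⁻¹)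
  be_xb : ∀ r β, ∃ η, m * b r * m⁻¹ * q β 0 0 0 0 * (m * b r * m⁻¹)⁻¹ = q β 0 0 0 η * b (r * β)

variable {G : Type u} [Group G]

namespace Bs

variable (Γ : Bs G)

/-- `bb s r = y s * b r` -/
def bb (s r : F4) : G := Γ.q 0 0 0 0 s * Γ.b r
/-- the elements of `B_e = m B m⁻¹` -/
def be (s r : F4) : G := Γ.m * Γ.bb s r * Γ.m⁻¹
theorem b_zero : Γ.b 0 = 1 := by simpa using Γ.b_mul 0 0
theorem bb_y (s : F4) : Γ.bb s 0 = Γ.q 0 0 0 0 s := by rw [bb, b_zero, mul_one]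
theorem bb_b (r : F4) : Γ.bb 0 r = Γ.b r := by rw [bb, Γ.q_zero, one_mul]
theorem bb_zero : Γ.bb 0 0 = 1 := by rw [bb_y, Γ.q_zero]
theorem bbD {d : G} (hd : d ∈ Γ.D) (s r : F4) : d * Γ.bb s r = Γ.bb s r * d := by
  rw [bb, ← mul_assoc, Γ.D_y hd, mul_assoc, Γ.bD d hd, mul_assoc]
theorem bbΘ {θ : G} (hθ : θ ∈ Γ.Θ) (s r : F4) : θ * Γ.bb s r = Γ.bb s r * θ := by
  rw [bb, ← mul_assoc, ← Γ.cK (Γ.qA ..) (Γ.ΘK hθ), mul_assoc, Γ.bΘ θ hθ, mul_assoc]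
theorem bb_mul (s r s' r' : F4) : Γ.bb s r * Γ.bb s' r' = Γ.bb (s + s') (r + r') := by
  rw [bb, bb, bb, mul_assoc, ← mul_assoc (Γ.b r), ← Γ.bD _ (Γ.qD ..), ← Γ.y_mul, ← Γ.b_mul]; group
theorem bb_sq (s r : F4) : Γ.bb s r * Γ.bb s r = 1 := by rw [bb_mul, aa, aa, bb_zero]
theorem bb_inv (s r : F4) : (Γ.bb s r)⁻¹ = Γ.bb s r := inv_eq_of_mul_eq_one_right (Γ.bb_sq s r)
theorem bb_comm (s r s' r' : F4) : Γ.bb s r * Γ.bb s' r' = Γ.bb s' r' * Γ.bb s r := by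
  rw [bb_mul, bb_mul, add_comm s, add_comm r]
theorem bb_t (s r : F4) : Γ.bb s r * Γ.t * (Γ.bb s r)⁻¹ = Γ.t * Γ.q 0 0 0 0 r := by
  rw [bb, show Γ.q 0 0 0 0 s * Γ.b r * Γ.t * (Γ.q 0 0 0 0 s * Γ.b r)⁻¹ =
    Γ.q 0 0 0 0 s * (Γ.b r * Γ.t * (Γ.b r)⁻¹) * (Γ.q 0 0 0 0 s)⁻¹ by group, Γ.b_t, Γ.D_ty (Γ.qD ..),
    mul_inv_cancel_right]
theorem t_bb (s r : F4) : Γ.t * Γ.bb s r * Γ.t⁻¹ = Γ.bb (s + r) r := by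
  have h := Γ.bb_t s r
  rw [mul_inv_eq_iff_eq_mul, ← Γ.bb_y, mul_assoc, bb_mul, zero_add, add_comm r] at h
  rw [mul_inv_eq_iff_eq_mul, ← mul_right_inj Γ.t, ← mul_assoc, Γ.tt, one_mul, ← mul_assoc, ← h, mul_assoc,
    Γ.tt, mul_one]
theorem h_bb (s r : F4) : Γ.h * Γ.bb s r * Γ.h⁻¹ = Γ.bb (v * s) (v * r) := by
  rw [bb, ← conj_mul, Γ.h_y, Γ.h_b, bb]
theorem bb_inj {s r s' r' : F4} (e : Γ.bb s r = Γ.bb s' r') : s = s' ∧ r = r' := by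
  have h := Γ.bb_t s r
  rw [e, bb_t] at h
  obtain rfl := Γ.y_inj (mul_left_cancel h)
  exact ⟨Γ.y_inj (mul_right_cancel e), rfl⟩
theorem bb_eq_one {s r : F4} : Γ.bb s r = 1 ↔ s = 0 ∧ r = 0 :=
  ⟨fun e => Γ.bb_inj (e.trans Γ.bb_zero.symm), fun ⟨h, h'⟩ => by rw [h, h', bb_zero]⟩
theorem bb_t_comm {s r : F4} (e : Γ.bb s r * Γ.t = Γ.t * Γ.bb s r) : r = 0 := by
  have h := Γ.bb_t s r
  rw [e, mul_inv_cancel_right, eq_comm, mul_eq_left] at h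
  exact Γ.y_eq_one.1 h
theorem bb_A {s r : F4} (e : Γ.bb s r ∈ Γ.A) : r = 0 := Γ.bb_t_comm (Γ.At e)

/-- the elementary abelian group of order 16 -/
def B : Subgroup G where
  carrier := {g | ∃ s r, g = Γ.bb s r}
  one_mem' := ⟨0, 0, Γ.bb_zero.symm⟩
  mul_mem' := by rintro _ _ ⟨s, r, rfl⟩ ⟨s', r', rfl⟩; exact ⟨_, _, Γ.bb_mul ..⟩
  inv_mem' := by rintro _ ⟨s, r, rfl⟩; exact ⟨_, _, Γ.bb_inv ..⟩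
theorem mem_B {g : G} : g ∈ Γ.B ↔ ∃ s r, g = Γ.bb s r := Iff.rfl
theorem bbB (s r : F4) : Γ.bb s r ∈ Γ.B := ⟨s, r, rfl⟩
theorem Y_le_B : Γ.Y ≤ Γ.B := by rintro _ ⟨s, rfl⟩; exact ⟨s, 0, (Γ.bb_y s).symm⟩
theorem B_sq {g : G} (hg : g ∈ Γ.B) : g * g = 1 := by obtain ⟨s, r, rfl⟩ := hg; exact Γ.bb_sq s r
theorem B_comm {g g' : G} (hg : g ∈ Γ.B) (hg' : g' ∈ Γ.B) : g * g' = g' * g := by
  obtain ⟨s, r, rfl⟩ := hg; obtain ⟨s', r', rfl⟩ := hg'; exact Γ.bb_comm ..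
theorem BD {d g : G} (hd : d ∈ Γ.D) (hg : g ∈ Γ.B) : d * g = g * d := by
  obtain ⟨s, r, rfl⟩ := hg; exact Γ.bbD hd s r
theorem BΘ {θ g : G} (hθ : θ ∈ Γ.Θ) (hg : g ∈ Γ.B) : θ * g = g * θ := by
  obtain ⟨s, r, rfl⟩ := hg; exact Γ.bbΘ hθ s r
theorem pB : IsPGroup 2 Γ.B := pg_of_pow 1 fun g hg => by simpa [pow_two] using Γ.B_sq hg
theorem t_B {g : G} (hg : g ∈ Γ.B) : Γ.t * g * Γ.t⁻¹ ∈ Γ.B := by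
  obtain ⟨s, r, rfl⟩ := hg; rw [t_bb]; exact Γ.bbB ..
theorem h_B {g : G} (hg : g ∈ Γ.B) : Γ.h * g * Γ.h⁻¹ ∈ Γ.B := by
  obtain ⟨s, r, rfl⟩ := hg; rw [h_bb]; exact Γ.bbB ..
theorem Y_of_B {g : G} (hg : g ∈ Γ.B) (e : g * Γ.t = Γ.t * g) : g ∈ Γ.Y := by
  obtain ⟨s, r, rfl⟩ := hg; rw [Γ.bb_t_comm e, bb_y]; exact Γ.yY s
theorem Y_of_BA {g : G} (hg : g ∈ Γ.B) (e : g ∈ Γ.A) : g ∈ Γ.Y := Γ.Y_of_B hg (Γ.At e)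
theorem t_nC : Γ.t ∉ centralizer (Γ.B : Set G) := fun e =>
  absurd (Γ.bb_t_comm (mem_centralizer_iff.1 e _ (Γ.bbB 0 1))) one_ne_zero
/-- involutions of `t B` -/
theorem tB_inv {g : G} (hg : g ∈ Γ.B) (e : Γ.t * g * (Γ.t * g) = 1) : g ∈ Γ.Y := Γ.Y_of_B hg (by
  rw [← mul_right_inj Γ.t, ← mul_left_inj g, ← mul_assoc, ← mul_assoc, Γ.tt, one_mul, Γ.B_sq hg, ← e]; group)
theorem B_free {g : G} (hg : g ∈ Γ.B) (e : Γ.t * g * (Γ.t * g) = 1) : ∃ z ∈ Γ.B, Γ.t * g = z * Γ.t * z⁻¹ := by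
  obtain ⟨η, rfl⟩ := Γ.tB_inv hg e; exact ⟨_, Γ.bbB 0 η, (Γ.bb_t ..).symm⟩
/-- `C(t) ∩ C(B) = D Θ` -/
theorem cenB {c : G} (ht : c * Γ.t = Γ.t * c) (hb : ∀ s r, c * Γ.bb s r = Γ.bb s r * c) :
    ∃ d ∈ Γ.D, ∃ θ ∈ Γ.Θ, c = d * θ := by
  obtain ⟨d, hd, κ, hκ, h, rfl⟩ := Γ.cenY ht fun η => Γ.bb_y η ▸ hb η 0
  rcases Γ.Θcov κ hκ h with h1 | h1
  · exact ⟨d, hd, κ, h1, rfl⟩
  · refine absurd (Γ.bb_t_comm (s := 0) (r := 1) ?_) one_ne_zero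
    have h2 : κ * Γ.bb 0 1 = Γ.bb 0 1 * κ := mul_left_cancel (a := d) (by
      rw [← mul_assoc, hb, ← mul_assoc, ← mul_assoc, Γ.bbD hd])
    have h3 := Γ.bbΘ h1 0 1
    rw [mul_assoc, h2, ← mul_assoc, ← mul_assoc] at h3
    exact (mul_right_cancel h3).symm
/-- a 2-element `d θ` has `θ = 1` -/
theorem Θ_eq_one {d θ : G} (hd : d ∈ Γ.A) (hθ : θ ∈ Γ.Θ) {i : ℕ} (e : (d * θ) ^ 2 ^ i = 1) : θ = 1 := by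
  rw [(show Commute d θ from Γ.cK hd (Γ.ΘK hθ)).mul_pow, ← mul_one 1] at e
  exact eq_one_of_odd (Γ.Θodd θ hθ)
    (Γ.ak_eq (pow_mem hd _) (one_mem _) (pow_mem (Γ.ΘK hθ) _) (one_mem _) e).2
theorem be_mul (s r s' r' : F4) : Γ.be s r * Γ.be s' r' = Γ.be (s + s') (r + r') := by
  rw [be, be, be, conj_mul, bb_mul]
theorem be_sq (s r : F4) : Γ.be s r * Γ.be s r = 1 := by rw [be, conj_mul, bb_sq]; simp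
theorem be_inv (s r : F4) : (Γ.be s r)⁻¹ = Γ.be s r := inv_eq_of_mul_eq_one_right (Γ.be_sq s r)
theorem be_e (s : F4) : Γ.be s 0 = Γ.q 0 0 0 s 0 := by rw [be, bb_y, Γ.m_y]
theorem be_t (s r : F4) : Γ.be s r * Γ.t * (Γ.be s r)⁻¹ = Γ.t * Γ.q 0 0 0 r 0 := by
  rw [← Γ.m_y]
  calc _ = Γ.m * (Γ.bb s r * (Γ.m⁻¹ * Γ.t * Γ.m⁻¹⁻¹) * (Γ.bb s r)⁻¹) * Γ.m⁻¹ := by rw [be]; group
    _ = _ := by rw [Γ.conj_t (inv_mem Γ.mA), bb_t, ← conj_mul, Γ.conj_t Γ.mA]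
theorem t_be (s r : F4) : Γ.t * Γ.be s r * Γ.t⁻¹ = Γ.be (s + r) r := by
  rw [be, be, ← t_bb]
  calc _ = (Γ.t * Γ.m) * Γ.bb s r * (Γ.t * Γ.m)⁻¹ := by group
    _ = _ := by rw [← Γ.At Γ.mA]; group
theorem m_be (s r : F4) : Γ.m * Γ.be s r * Γ.m⁻¹ = Γ.bb s r := by
  rw [be, Γ.m_inv]
  calc _ = (Γ.m * Γ.m) * Γ.bb s r * (Γ.m * Γ.m) := by group
    _ = _ := by rw [Γ.mm]; simp
theorem be_comm {d : G} (hd : Γ.m * d * Γ.m⁻¹ ∈ Γ.D) (s r : F4) : d * Γ.be s r = Γ.be s r * d := by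
  have := Γ.bbD hd s r
  rw [← m_be, conj_mul, conj_mul] at this
  simpa using this
theorem x_be (a s r : F4) : Γ.x a * Γ.be s r = Γ.be s r * Γ.x a := Γ.be_comm (Γ.m_x a ▸ Γ.qD ..) s r
theorem q_be (c d e y s r : F4) : Γ.q 0 c d e y * Γ.be s r = Γ.be s r * Γ.q 0 c d e y := by
  refine Γ.be_comm ?_ s r
  rw [show Γ.q 0 c d e y = Γ.q 0 c 0 0 0 * Γ.q 0 0 d 0 0 * Γ.q 0 0 0 e 0 * Γ.q 0 0 0 0 y by simp [Γ.q_mul],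
    ← conj_mul, ← conj_mul, ← conj_mul, Γ.m_c, Γ.m_d, Γ.m_e, Γ.m_y]
  exact mul_mem (mul_mem (mul_mem (Γ.xD _) (Γ.qD ..)) (Γ.qD ..)) (Γ.qD ..)
theorem k_be (s r : F4) : Γ.k * Γ.be s r = Γ.be s r * Γ.k :=
  Γ.be_comm (by rw [Γ.m_k, mul_inv_cancel_right]; exact Γ.kD) s r
theorem beΘ {θ : G} (hθ : θ ∈ Γ.Θ) (s r : F4) : θ * Γ.be s r = Γ.be s r * θ := by
  have h := Γ.cK Γ.mA (Γ.ΘK hθ)
  have h' := Γ.cK (inv_mem Γ.mA) (Γ.ΘK hθ)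
  rw [be, ← mul_assoc, ← mul_assoc, ← h, mul_assoc Γ.m, Γ.bbΘ hθ, mul_assoc, mul_assoc, ← h']; group
theorem be_bb (s r s' r' : F4) : Γ.be s r * Γ.bb s' r' = Γ.bb s' r' * Γ.be s r := by
  have e : Γ.be s r = Γ.q 0 0 0 s 0 * (Γ.m * Γ.b r * Γ.m⁻¹) := by rw [be, bb, ← conj_mul, Γ.m_y]
  have h1 : Commute (Γ.be s r) (Γ.q 0 0 0 0 s') := (Γ.q_be ..).symm
  have h2 : Commute (Γ.be s r) (Γ.b r') := by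
    rw [e]; exact Commute.mul_left (Γ.bD _ (Γ.qD ..) r') (Γ.be_b r r')
  exact h1.mul_right h2
theorem h_be (s r : F4) : Γ.h * Γ.be s r * Γ.h⁻¹ = Γ.be (w * s) (w * r) := by
  have e : Γ.h = Γ.m * (Γ.h * Γ.h * Γ.k * Γ.k) * Γ.m⁻¹ := by
    rw [← Γ.m_h, Γ.m_inv]
    calc _ = (Γ.m * Γ.m) * Γ.h * (Γ.m * Γ.m) := by rw [Γ.mm]; simp
      _ = _ := by group
  have e2 : Γ.h * Γ.h * Γ.k * Γ.k * Γ.bb s r * (Γ.h * Γ.h * Γ.k * Γ.k)⁻¹ = Γ.bb (w * s) (w * r) := by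
    calc _ = Γ.h * (Γ.h * (Γ.k * Γ.k * Γ.bb s r * (Γ.k * Γ.k)⁻¹) * Γ.h⁻¹) * Γ.h⁻¹ := by group
      _ = _ := by
        rw [Γ.bbD (mul_mem Γ.kD Γ.kD), mul_inv_cancel_right, h_bb, h_bb, ← mul_assoc, ← mul_assoc,
          (by decide : v * v = w)]
  rw [be, be, ← e2]; nth_rewrite 1 [e]; nth_rewrite 3 [e]; group
theorem be_q (s r b c d e y : F4) :
    ∃ η, Γ.be s r * Γ.q b c d e y * (Γ.be s r)⁻¹ = Γ.q b c d e y * Γ.bb η (r * b) := by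
  obtain ⟨η, h⟩ := Γ.be_xb r b
  have e0 : Γ.be s r = Γ.q 0 0 0 s 0 * (Γ.m * Γ.b r * Γ.m⁻¹) := by rw [be, bb, ← conj_mul, Γ.m_y]
  have e1 : Γ.be s r * Γ.q b 0 0 0 0 * (Γ.be s r)⁻¹ = Γ.q b 0 0 0 0 * Γ.bb (η + s * b) (r * b) := by
    calc _ = Γ.q 0 0 0 s 0 * (Γ.m * Γ.b r * Γ.m⁻¹ * Γ.q b 0 0 0 0 * (Γ.m * Γ.b r * Γ.m⁻¹)⁻¹) *
          (Γ.q 0 0 0 s 0)⁻¹ := by rw [e0]; group
      _ = _ := by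
        rw [h, ← conj_mul, Γ.bD _ (Γ.qD ..), mul_inv_cancel_right, Γ.q_conj, bb, ← mul_assoc, Γ.q_mul_y]; simp
  refine ⟨η + s * b, ?_⟩
  rw [show Γ.q b c d e y = Γ.q b 0 0 0 0 * Γ.q 0 c d e y by simp [Γ.q_mul], ← conj_mul, e1, ← q_be,
    mul_inv_cancel_right, mul_assoc, ← Γ.bbD (Γ.qD ..), mul_assoc]

/-- the group `Q*` of order `2²⁰` -/
structure QS (W : Subgroup G) : Prop where
  pW : IsPGroup 2 W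
  cB : ∀ g ∈ W, ∀ z ∈ Γ.B, g * z = z * g
  cΘ : ∀ g ∈ W, ∀ θ ∈ Γ.Θ, θ * g = g * θ
  BW : Γ.B ≤ W
  QW : Γ.Q ≤ W
  eW : ∀ s r, Γ.be s r ∈ W
  nD : ∀ d ∈ Γ.D, ∀ g ∈ W, d * g * d⁻¹ ∈ W
  nh : ∀ g ∈ W, Γ.h * g * Γ.h⁻¹ ∈ W
  nt : ∀ g ∈ W, Γ.t * g * Γ.t⁻¹ ∈ W
  wt : ∀ g ∈ W, ∃ z ∈ Γ.Q, ∃ β ∈ Γ.B, g * Γ.t * g⁻¹ = Γ.t * z * β
  surj : ∀ z ∈ Γ.Q, ∃ g ∈ W, ∃ β ∈ Γ.B, g * Γ.t * g⁻¹ = Γ.t * z * β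
  ker : ∀ g ∈ W, ∀ β ∈ Γ.B, g * Γ.t * g⁻¹ = Γ.t * β → ∃ z ∈ Γ.Q, ∃ β' ∈ Γ.B, g = z * β'
  comm : ∀ g ∈ W, ∀ g' ∈ W, g * g' * g⁻¹ * g'⁻¹ ∈ Γ.B
  sq : ∀ g ∈ W, g * g ∈ Γ.B

/-- a Sylow 2-subgroup `P` of `C(B)` with its second centre `B_e B` -/
structure PS (P : Subgroup G) : Prop where
  syl : SylIn 2 P (centralizer (Γ.B : Set G))
  eP : ∀ s r, Γ.be s r ∈ P
  nP : ∀ s r, Γ.n * Γ.be s r * Γ.n⁻¹ ∈ P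
  z2 : ∀ g ∈ P, (∀ p ∈ P, p * g * p⁻¹ * g⁻¹ ∈ Γ.B) ↔ ∃ s r, ∃ β ∈ Γ.B, g = Γ.be s r * β
  gen : ∀ g ∈ P, ∃ s r, ∀ s' r', g * Γ.be s' r' * g⁻¹ =
    Γ.n * Γ.be s r * Γ.n⁻¹ * Γ.be s' r' * (Γ.n * Γ.be s r * Γ.n⁻¹)⁻¹

end Bs

end CL.G2C
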