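import Cfsg.Agent.SPOR.F4
import Cfsg.Agent.TECH.ExtTransfer

/-!
# A standard subgroup `A ≅ G₂(4)` whose centraliser has 2-rank one: definitions and basic API

Roots: `a` short simple, `b` long simple, `c = a+b`, `d = 2a+b`, `e = 3a+b`, `y = 3a+2b`.
`q β γ δ ε η = x_b(β) x_c(γ) x_d(δ) x_e(ε) x_y(η)`, `x α = x_a(α)`, `n = n_a(1)`, `m = n_b(1)`,
`k = h_a(w)`, `h = h_b(w)² h_a(w)`; `t` an involution of `K = C(A)`.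
-/

set_option autoImplicit false
open Subgroup CL.MSS

namespace CL.G2C

open F4

universe u

theorem aa (a : F4) : a + a = 0 := by revert a; decide
theorem two0 : (2 : F4) = 0 := by decide
theorem f4cases (a : F4) : a = 0 ∨ a = 1 ∨ a = w ∨ a = v := by revert a; decide

/-- a standard subgroup `G₂(4)` with centraliser of 2-rank one in a simple group -/
structure Su (G : Type u) [Group G] where
  A : Subgroup G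
  q : F4 → F4 → F4 → F4 → F4 → G
  x : F4 → G
  n : G
  m : G
  h : G
  k : G
  t : G
  qA : ∀ b c d e y, q b c d e y ∈ A
  xA : ∀ a, x a ∈ A
  nA : n ∈ A
  mA : m ∈ A
  hA : h ∈ A
  kA : k ∈ A
  q_mul : ∀ b c d e y b' c' d' e' y', q b c d e y * q b' c' d' e' y' =
    q (b + b') (c + c') (d + d') (e + e') (y + y' + e * b' + d * c')
  q_inj : ∀ {b c d e y b' c' d' e' y'}, q b c d e y = q b' c' d' e' y' →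
    b = b' ∧ c = c' ∧ d = d' ∧ e = e' ∧ y = y'
  x_mul : ∀ a a', x a * x a' = x (a + a')
  x_q : ∀ a b c d e y, x a * q b c d e y * (x a)⁻¹ = q b (c + a * b) (d + a ^ 2 * b)
    (e + a * d + a ^ 2 * c + a ^ 3 * b) (y + a ^ 3 * b ^ 2 + a * c ^ 2 + a ^ 2 * b * c)
  nn : n * n = 1
  n_q : ∀ b c d e y, n * q b c d e y * n⁻¹ = q e d c b (y + b * e + c * d)
  nxn : n * x 1 * n = x 1 * n * x 1
  mm : m * m = 1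
  m_x : ∀ a, m * x a * m⁻¹ = q 0 a 0 0 0
  m_d : ∀ d, m * q 0 0 d 0 0 * m⁻¹ = q 0 0 d 0 0
  m_e : ∀ e, m * q 0 0 0 e 0 * m⁻¹ = q 0 0 0 0 e
  h3 : h ^ 3 = 1
  k3 : k ^ 3 = 1
  hk : h * k = k * h
  h_q : ∀ b c d e y, h * q b c d e y * h⁻¹ = q (w * b) (w * c) (w * d) (w * e) (v * y)
  h_x : ∀ a, h * x a = x a * h
  h_n : h * n = n * h
  k_q : ∀ b c d e y, k * q b c d e y * k⁻¹ = q b (v * c) (w * d) e y
  k_x : ∀ a, k * x a * k⁻¹ = x (v * a)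
  n_k : n * k * n⁻¹ = k⁻¹
  m_k : m * k = k * m
  m_h : m * h * m⁻¹ = h * h * k * k
  cen1 : ∀ g ∈ A, g * q 0 0 0 0 1 = q 0 0 0 0 1 * g →
    g ∈ closure {s | (∃ b c d e y, s = q b c d e y) ∨ (∃ a, s = x a) ∨ s = n}
  cen2 : ∀ g ∈ A, g * q 0 0 1 0 0 = q 0 0 1 0 0 * g → ∃ d, g * q 0 0 d 0 0 * k = k * (g * q 0 0 d 0 0)
  inv : ∀ g ∈ A, g * g = 1 → g ≠ 1 → ∃ a ∈ A, a * g * a⁻¹ = q 0 0 0 0 1 ∨ a * g * a⁻¹ = q 0 0 1 0 0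
  syl : ∀ P ≤ A, IsPGroup 2 P → (∀ b c d e y, q b c d e y ∈ P) → (∀ a, x a ∈ P) →
    ∀ g ∈ P, ∃ b c d e y a, g = q b c d e y * x a
  AK : ∀ g ∈ A, g ∈ centralizer (A : Set G) → g = 1
  two : ∀ g₁ ∈ normalizer (A : Set G), ∀ g₂ ∈ normalizer (A : Set G),
    (∃ a ∈ A, ∃ c ∈ centralizer (A : Set G), g₁ = a * c) ∨
    (∃ a ∈ A, ∃ c ∈ centralizer (A : Set G), g₂ = a * c) ∨
    (∃ a ∈ A, ∃ c ∈ centralizer (A : Set G), g₁ * g₂ = a * c)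
  out : ∀ g ∈ normalizer (A : Set G), (∀ y, g * q 0 0 0 0 y = q 0 0 0 0 y * g) →
    ∃ a ∈ A, ∃ c ∈ centralizer (A : Set G), g = a * c
  tK : t ∈ centralizer (A : Set G)
  tt : t * t = 1
  t1 : t ≠ 1
  cN : ∀ g, g * t = t * g → g ∈ normalizer (A : Set G)
  rk : ∀ c ∈ centralizer (A : Set G), ∀ c' ∈ centralizer (A : Set G), c * c = 1 → c' * c' = 1 →
    c ≠ 1 → c' ≠ 1 → c * c' = c' * c → c = c'
  zs : ∃ g, g * t * g⁻¹ ≠ t ∧ g * t * g⁻¹ * t = t * (g * t * g⁻¹)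
  res : t ∈ Cfsg.pResidual 2 G

variable {G : Type u} [Group G]

theorem pg_of_pow {X : Subgroup G} (n : ℕ) (e : ∀ x ∈ X, x ^ 2 ^ n = 1) : IsPGroup 2 X := fun x =>
  ⟨n, Subtype.ext (by simpa using e x x.2)⟩

theorem pow_two_of_mem {P : Subgroup G} (hP : IsPGroup 2 P) {g : G} (hg : g ∈ P) :
    ∃ n : ℕ, g ^ 2 ^ n = 1 := (hP ⟨g, hg⟩).imp fun _ e => congrArg Subtype.val e

theorem eq_one_of_odd {g : G} (ho : Odd (orderOf g)) {n : ℕ} (e : g ^ 2 ^ n = 1) : g = 1 := by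
  have := orderOf_dvd_of_pow_eq_one e
  obtain ⟨i, -, hi⟩ := (Nat.dvd_prime_pow Nat.prime_two).1 this
  rcases i with _ | i
  · simpa using hi
  · rw [hi] at ho; exact absurd ho (by simp [Nat.not_odd_iff_even, Nat.even_pow])

theorem mem_norm_of [Finite G] {X : Subgroup G} {g : G} (e : ∀ x ∈ X, g * x * g⁻¹ ∈ X) :
    g ∈ normalizer (X : Set G) := mem_normalizer_fintype (S := (X : Set G)) e

theorem conj_mem {X : Subgroup G} {g x : G} (hg : g ∈ normalizer (X : Set G)) (hx : x ∈ X) :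
    g * x * g⁻¹ ∈ X := (mem_normalizer_iff.1 hg x).1 hx

theorem conj_mem' {X : Subgroup G} {g x : G} (hg : g ∈ normalizer (X : Set G)) (hx : x ∈ X) :
    g⁻¹ * x * g ∈ X := by simpa using conj_mem (inv_mem hg) hx

namespace Su

variable (Γ : Su G)

/-- `C(A)` -/
abbrev K : Subgroup G := centralizer (Γ.A : Set G)
/-- `N(A)` -/
abbrev N : Subgroup G := normalizer (Γ.A : Set G)
/-- inner elements -/
def In (g : G) : Prop := ∃ a ∈ Γ.A, ∃ c ∈ Γ.K, g = a * c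

theorem q_congr {b c d e y b' c' d' e' y' : F4} (h1 : b = b') (h2 : c = c') (h3 : d = d') (h4 : e = e')
    (h5 : y = y') : Γ.q b c d e y = Γ.q b' c' d' e' y' := by rw [h1, h2, h3, h4, h5]
theorem q_eq {b c d e y b' c' d' e' y' : F4} : Γ.q b c d e y = Γ.q b' c' d' e' y' ↔
    b = b' ∧ c = c' ∧ d = d' ∧ e = e' ∧ y = y' :=
  ⟨Γ.q_inj, fun ⟨h1, h2, h3, h4, h5⟩ => Γ.q_congr h1 h2 h3 h4 h5⟩
theorem q_zero : Γ.q 0 0 0 0 0 = 1 := by simpa using Γ.q_mul 0 0 0 0 0 0 0 0 0 0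
theorem q_eq_one {b c d e y : F4} : Γ.q b c d e y = 1 ↔ b = 0 ∧ c = 0 ∧ d = 0 ∧ e = 0 ∧ y = 0 := by
  rw [← Γ.q_zero, q_eq]
theorem q_inv (b c d e y : F4) : (Γ.q b c d e y)⁻¹ = Γ.q b c d e (y + e * b + d * c) := by
  rw [inv_eq_iff_mul_eq_one, Γ.q_mul, q_eq_one]
  exact ⟨aa b, aa c, aa d, aa e, by linear_combination aa y + aa (e * b) + aa (d * c)⟩
theorem q_sq (b c d e y : F4) : Γ.q b c d e y * Γ.q b c d e y = Γ.q 0 0 0 0 (e * b + d * c) := by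
  rw [Γ.q_mul, q_eq]; exact ⟨aa b, aa c, aa d, aa e, by linear_combination aa y⟩
theorem q_conj (b c d e y b' c' d' e' y' : F4) : Γ.q b c d e y * Γ.q b' c' d' e' y' * (Γ.q b c d e y)⁻¹ =
    Γ.q b' c' d' e' (y' + e * b' + d * c' + e' * b + d' * c) := by
  rw [mul_inv_eq_iff_eq_mul, Γ.q_mul, Γ.q_mul, q_eq]
  exact ⟨add_comm _ _, add_comm _ _, add_comm _ _, add_comm _ _,
    by linear_combination -aa (e' * b) - aa (d' * c)⟩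
theorem q_comm_iff {b c d e y b' c' d' e' y' : F4} : Γ.q b c d e y * Γ.q b' c' d' e' y' =
    Γ.q b' c' d' e' y' * Γ.q b c d e y ↔ e * b' + d * c' + e' * b + d' * c = 0 := by
  rw [← mul_inv_eq_iff_eq_mul, q_conj, q_eq]
  exact ⟨fun e => by linear_combination e.2.2.2.2, fun e => ⟨rfl, rfl, rfl, rfl, by linear_combination e⟩⟩
theorem q_mul_y (b c d e y η : F4) : Γ.q b c d e y * Γ.q 0 0 0 0 η = Γ.q b c d e (y + η) := by simp [Γ.q_mul]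
theorem y_mul_q (b c d e y η : F4) : Γ.q 0 0 0 0 η * Γ.q b c d e y = Γ.q b c d e (y + η) := by
  simp [Γ.q_mul, add_comm]
theorem y_mul (η η' : F4) : Γ.q 0 0 0 0 η * Γ.q 0 0 0 0 η' = Γ.q 0 0 0 0 (η + η') := Γ.q_mul_y ..
theorem y_sq (η : F4) : Γ.q 0 0 0 0 η * Γ.q 0 0 0 0 η = 1 := by rw [y_mul, aa, q_zero]
theorem y_inv (η : F4) : (Γ.q 0 0 0 0 η)⁻¹ = Γ.q 0 0 0 0 η := inv_eq_of_mul_eq_one_right (Γ.y_sq η)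
theorem y_inj {η η' : F4} (e : Γ.q 0 0 0 0 η = Γ.q 0 0 0 0 η') : η = η' := (Γ.q_inj e).2.2.2.2
theorem y_eq_one {η : F4} : Γ.q 0 0 0 0 η = 1 ↔ η = 0 := by simp [q_eq_one]
theorem x_zero : Γ.x 0 = 1 := by simpa using Γ.x_mul 0 0
theorem x_sq (a : F4) : Γ.x a * Γ.x a = 1 := by rw [Γ.x_mul, aa, x_zero]
theorem x_inv (a : F4) : (Γ.x a)⁻¹ = Γ.x a := inv_eq_of_mul_eq_one_right (Γ.x_sq a)
theorem n_inv : Γ.n⁻¹ = Γ.n := inv_eq_of_mul_eq_one_right Γ.nn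
theorem m_inv : Γ.m⁻¹ = Γ.m := inv_eq_of_mul_eq_one_right Γ.mm
theorem t_inv : Γ.t⁻¹ = Γ.t := inv_eq_of_mul_eq_one_right Γ.tt
theorem h_inv : Γ.h⁻¹ = Γ.h * Γ.h := inv_eq_of_mul_eq_one_right (by rw [← Γ.h3, pow_three])
theorem k_inv : Γ.k⁻¹ = Γ.k * Γ.k := inv_eq_of_mul_eq_one_right (by rw [← Γ.k3, pow_three])
theorem x_mul_q (a b c d e y : F4) : Γ.x a * Γ.q b c d e y = Γ.q b (c + a * b) (d + a ^ 2 * b)
    (e + a * d + a ^ 2 * c + a ^ 3 * b) (y + a ^ 3 * b ^ 2 + a * c ^ 2 + a ^ 2 * b * c) * Γ.x a := by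
  rw [← Γ.x_q, inv_mul_cancel_right]
theorem m_y (η : F4) : Γ.m * Γ.q 0 0 0 0 η * Γ.m⁻¹ = Γ.q 0 0 0 η 0 := by
  rw [← Γ.m_e, m_inv]; calc _ = (Γ.m * Γ.m) * Γ.q 0 0 0 η 0 * (Γ.m * Γ.m) := by group
    _ = _ := by rw [Γ.mm]; simp
theorem m_c (a : F4) : Γ.m * Γ.q 0 a 0 0 0 * Γ.m⁻¹ = Γ.x a := by
  rw [← Γ.m_x, m_inv]; calc _ = (Γ.m * Γ.m) * Γ.x a * (Γ.m * Γ.m) := by group
    _ = _ := by rw [Γ.mm]; simp
theorem cK {a c : G} (ha : a ∈ Γ.A) (hc : c ∈ Γ.K) : a * c = c * a := mem_centralizer_iff.1 hc a ha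
theorem At {a : G} (ha : a ∈ Γ.A) : a * Γ.t = Γ.t * a := Γ.cK ha Γ.tK
theorem conj_t {a : G} (ha : a ∈ Γ.A) : a * Γ.t * a⁻¹ = Γ.t := by rw [Γ.At ha]; simp
theorem t_conj {a : G} (ha : a ∈ Γ.A) : Γ.t * a * Γ.t⁻¹ = a := by rw [← Γ.At ha]; simp
theorem t_nA : Γ.t ∉ Γ.A := fun e => Γ.t1 (Γ.AK _ e Γ.tK)
theorem A_le_N : Γ.A ≤ Γ.N := le_normalizer
theorem K_le_N : Γ.K ≤ Γ.N := centralizer_le_normalizer _
theorem conj_K {g c : G} (hg : g ∈ Γ.N) (hc : c ∈ Γ.K) : g * c * g⁻¹ ∈ Γ.K :=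
  mem_centralizer_iff.2 fun a ha => by
    have := Γ.cK (conj_mem' hg ha) hc
    calc a * (g * c * g⁻¹) = g * (g⁻¹ * a * g * c) * g⁻¹ := by group
      _ = _ := by rw [this]; group
/-- uniqueness of the decomposition in `A × K` -/
theorem ak_eq {a a' c c' : G} (ha : a ∈ Γ.A) (ha' : a' ∈ Γ.A) (hc : c ∈ Γ.K) (hc' : c' ∈ Γ.K)
    (e : a * c = a' * c') : a = a' ∧ c = c' := by
  have e1 : a'⁻¹ * a = c' * c⁻¹ := by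
    calc a'⁻¹ * a = a'⁻¹ * (a * c) * c⁻¹ := by group
      _ = _ := by rw [e]; group
  have e2 := Γ.AK _ (mul_mem (inv_mem ha') ha) (e1 ▸ mul_mem hc' (inv_mem hc))
  exact ⟨(inv_mul_eq_one.1 e2).symm, (mul_inv_eq_one.1 (e1 ▸ e2)).symm⟩

/-- powers of `k`, indexed by the scalar on `X_d` -/
def kk (s : F4) : G := match s with | .o => 1 | .l => 1 | .w => Γ.k | .v => Γ.k * Γ.k
/-- powers of `h`, indexed by the scalar on `Q / Y` -/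
def hh (s : F4) : G := match s with | .o => 1 | .l => 1 | .w => Γ.h | .v => Γ.h * Γ.h
theorem kk_one : Γ.kk 1 = 1 := rfl
theorem kk_w : Γ.kk w = Γ.k := rfl
theorem kk_v : Γ.kk v = Γ.k * Γ.k := rfl
theorem hh_one : Γ.hh 1 = 1 := rfl
theorem hh_w : Γ.hh w = Γ.h := rfl
theorem hh_v : Γ.hh v = Γ.h * Γ.h := rfl
theorem kkA (s : F4) : Γ.kk s ∈ Γ.A := by
  cases s; exacts [one_mem _, one_mem _, Γ.kA, mul_mem Γ.kA Γ.kA]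
theorem hhA (s : F4) : Γ.hh s ∈ Γ.A := by
  cases s; exacts [one_mem _, one_mem _, Γ.hA, mul_mem Γ.hA Γ.hA]
theorem kk_q {s : F4} (hs : s ≠ 0) (b c d e y : F4) :
    Γ.kk s * Γ.q b c d e y * (Γ.kk s)⁻¹ = Γ.q b (s ^ 2 * c) (s * d) e y := by
  rcases f4cases s with rfl | rfl | rfl | rfl
  · exact absurd rfl hs
  · simp [kk_one]
  · rw [kk_w, Γ.k_q]; rfl
  · rw [kk_v, show Γ.k * Γ.k * Γ.q b c d e y * (Γ.k * Γ.k)⁻¹ = Γ.k * (Γ.k * Γ.q b c d e y * Γ.k⁻¹) * Γ.k⁻¹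
      by group, Γ.k_q, Γ.k_q, q_eq]
    exact ⟨rfl, by revert c; decide, by revert d; decide, rfl, rfl⟩
theorem kk_x {s : F4} (hs : s ≠ 0) (a : F4) : Γ.kk s * Γ.x a * (Γ.kk s)⁻¹ = Γ.x (s ^ 2 * a) := by
  rcases f4cases s with rfl | rfl | rfl | rfl
  · exact absurd rfl hs
  · simp [kk_one]
  · rw [kk_w, Γ.k_x]; rfl
  · rw [kk_v, show Γ.k * Γ.k * Γ.x a * (Γ.k * Γ.k)⁻¹ = Γ.k * (Γ.k * Γ.x a * Γ.k⁻¹) * Γ.k⁻¹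
      by group, Γ.k_x, Γ.k_x]
    congr 1; revert a; decide
theorem kk_mul {s s' : F4} (hs : s ≠ 0) (hs' : s' ≠ 0) : Γ.kk s * Γ.kk s' = Γ.kk (s * s') := by
  have e : Γ.k * (Γ.k * Γ.k) = 1 := by rw [← Γ.k3, pow_three]
  cases s <;> cases s' <;> first | exact absurd rfl hs | exact absurd rfl hs' |
    (change _ = Γ.kk (F4.mul _ _); simp only [kk, F4.mul, mul_assoc, e, one_mul, mul_one])
theorem hh_q {s : F4} (hs : s ≠ 0) (b c d e y : F4) :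
    Γ.hh s * Γ.q b c d e y * (Γ.hh s)⁻¹ = Γ.q (s * b) (s * c) (s * d) (s * e) (s ^ 2 * y) := by
  rcases f4cases s with rfl | rfl | rfl | rfl
  · exact absurd rfl hs
  · simp [hh_one]
  · rw [hh_w, Γ.h_q]; rfl
  · rw [hh_v, show Γ.h * Γ.h * Γ.q b c d e y * (Γ.h * Γ.h)⁻¹ = Γ.h * (Γ.h * Γ.q b c d e y * Γ.h⁻¹) * Γ.h⁻¹
      by group, Γ.h_q, Γ.h_q, q_eq]
    exact ⟨by revert b; decide, by revert c; decide, by revert d; decide, by revert e; decide,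
      by revert y; decide⟩
theorem hh_y {s : F4} (hs : s ≠ 0) (η : F4) : Γ.hh s * Γ.q 0 0 0 0 η * (Γ.hh s)⁻¹ = Γ.q 0 0 0 0 (s ^ 2 * η) := by
  simp [Γ.hh_q hs]
theorem h_y (η : F4) : Γ.h * Γ.q 0 0 0 0 η * Γ.h⁻¹ = Γ.q 0 0 0 0 (v * η) := by simp [Γ.h_q]

/-- the centre of `U` -/
def Y : Subgroup G where
  carrier := {g | ∃ η, g = Γ.q 0 0 0 0 η}
  one_mem' := ⟨0, Γ.q_zero.symm⟩
  mul_mem' := by rintro _ _ ⟨b, rfl⟩ ⟨d, rfl⟩; exact ⟨_, Γ.y_mul b d⟩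
  inv_mem' := by rintro _ ⟨b, rfl⟩; exact ⟨_, Γ.y_inv b⟩
/-- `O₂(D)` -/
def Q : Subgroup G where
  carrier := {g | ∃ b c d e y, g = Γ.q b c d e y}
  one_mem' := ⟨0, 0, 0, 0, 0, Γ.q_zero.symm⟩
  mul_mem' := by rintro _ _ ⟨b, c, d, e, y, rfl⟩ ⟨b, c, d, e, y, rfl⟩; exact ⟨_, _, _, _, _, Γ.q_mul ..⟩
  inv_mem' := by rintro _ ⟨b, c, d, e, y, rfl⟩; exact ⟨_, _, _, _, _, Γ.q_inv ..⟩
theorem qx_mul (b c d e y a b' c' d' e' y' a' : F4) :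
    Γ.q b c d e y * Γ.x a * (Γ.q b' c' d' e' y' * Γ.x a') =
    Γ.q b c d e y * (Γ.x a * Γ.q b' c' d' e' y' * (Γ.x a)⁻¹) * Γ.x (a + a') := by
  rw [← Γ.x_mul]; group
/-- the Sylow 2-subgroup -/
def U : Subgroup G where
  carrier := {g | ∃ b c d e y a, g = Γ.q b c d e y * Γ.x a}
  one_mem' := ⟨0, 0, 0, 0, 0, 0, by rw [Γ.q_zero, Γ.x_zero, mul_one]⟩
  mul_mem' := by
    rintro _ _ ⟨b, c, d, e, y, a, rfl⟩ ⟨b, c, d, e, y, a, rfl⟩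
    exact ⟨_, _, _, _, _, _, by rw [qx_mul, Γ.x_q, Γ.q_mul]⟩
  inv_mem' := by
    rintro _ ⟨b, c, d, e, y, a, rfl⟩
    exact ⟨_, _, _, _, _, _, by rw [mul_inv_rev, x_inv, q_inv, x_mul_q]⟩
/-- `C_A(y 1)` -/
def D : Subgroup G := Γ.A ⊓ centralizer {Γ.q 0 0 0 0 1}

theorem mem_Y {g : G} : g ∈ Γ.Y ↔ ∃ η, g = Γ.q 0 0 0 0 η := Iff.rfl
theorem mem_Q {g : G} : g ∈ Γ.Q ↔ ∃ b c d e y, g = Γ.q b c d e y := Iff.rfl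
theorem mem_U {g : G} : g ∈ Γ.U ↔ ∃ b c d e y a, g = Γ.q b c d e y * Γ.x a := Iff.rfl
theorem mem_D {g : G} : g ∈ Γ.D ↔ g ∈ Γ.A ∧ g * Γ.q 0 0 0 0 1 = Γ.q 0 0 0 0 1 * g := by
  simp [D, mem_centralizer_singleton_iff]
theorem yY (η : F4) : Γ.q 0 0 0 0 η ∈ Γ.Y := ⟨η, rfl⟩
theorem qQ (b c d e y : F4) : Γ.q b c d e y ∈ Γ.Q := ⟨b, c, d, e, y, rfl⟩
theorem qU (b c d e y : F4) : Γ.q b c d e y ∈ Γ.U := ⟨b, c, d, e, y, 0, by rw [x_zero, mul_one]⟩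
theorem xU (a : F4) : Γ.x a ∈ Γ.U := ⟨0, 0, 0, 0, 0, a, by rw [q_zero, one_mul]⟩
theorem Y_le_Q : Γ.Y ≤ Γ.Q := by rintro _ ⟨b, rfl⟩; exact Γ.qQ ..
theorem Q_le_U : Γ.Q ≤ Γ.U := by rintro _ ⟨b, c, d, e, y, rfl⟩; exact Γ.qU ..
theorem U_le_A : Γ.U ≤ Γ.A := by rintro _ ⟨b, c, d, e, y, a, rfl⟩; exact mul_mem (Γ.qA ..) (Γ.xA _)
theorem D_le_A : Γ.D ≤ Γ.A := inf_le_left
theorem q_y (b c d e y η : F4) : Γ.q b c d e y * Γ.q 0 0 0 0 η = Γ.q 0 0 0 0 η * Γ.q b c d e y := by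
  rw [q_mul_y, y_mul_q]
theorem x_y (a η : F4) : Γ.x a * Γ.q 0 0 0 0 η = Γ.q 0 0 0 0 η * Γ.x a := by simp [x_mul_q]
theorem n_y (η : F4) : Γ.n * Γ.q 0 0 0 0 η = Γ.q 0 0 0 0 η * Γ.n := by
  rw [← mul_inv_eq_iff_eq_mul, Γ.n_q]; simp
theorem kk_y {s : F4} (hs : s ≠ 0) (η : F4) : Γ.kk s * Γ.q 0 0 0 0 η = Γ.q 0 0 0 0 η * Γ.kk s := by
  rw [← mul_inv_eq_iff_eq_mul, Γ.kk_q hs]; simp
theorem qD (b c d e y : F4) : Γ.q b c d e y ∈ Γ.D := Γ.mem_D.2 ⟨Γ.qA .., Γ.q_y ..⟩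
theorem xD (a : F4) : Γ.x a ∈ Γ.D := Γ.mem_D.2 ⟨Γ.xA _, Γ.x_y ..⟩
theorem nD : Γ.n ∈ Γ.D := Γ.mem_D.2 ⟨Γ.nA, Γ.n_y _⟩
theorem kkD {s : F4} (hs : s ≠ 0) : Γ.kk s ∈ Γ.D := Γ.mem_D.2 ⟨Γ.kkA _, Γ.kk_y hs _⟩
theorem kD : Γ.k ∈ Γ.D := Γ.kkD (s := w) (by decide)
theorem U_le_D : Γ.U ≤ Γ.D := by rintro _ ⟨b, c, d, e, y, a, rfl⟩; exact mul_mem (Γ.qD ..) (Γ.xD _)
theorem Q_le_D : Γ.Q ≤ Γ.D := Γ.Q_le_U.trans Γ.U_le_D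
/-- `D` is generated by `Q`, `X_a` and `n` -/
theorem D_le {M : Subgroup G} (hq : ∀ b c d e y, Γ.q b c d e y ∈ M) (hx : ∀ a, Γ.x a ∈ M) (hn : Γ.n ∈ M) :
    Γ.D ≤ M := fun g hg => by
  refine (closure_le M).2 ?_ (Γ.cen1 g (Γ.mem_D.1 hg).1 (Γ.mem_D.1 hg).2)
  rintro _ (⟨b, c, d, e, y, rfl⟩ | ⟨a, rfl⟩ | rfl)
  exacts [hq .., hx _, hn]
/-- `D` is generated by `X_a`, `n X_a n` and `X_c`, `X_d` -/
theorem D_le' {M : Subgroup G} (hx : ∀ a, Γ.x a ∈ M) (hn : Γ.n * Γ.x 1 * Γ.n ∈ M)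
    (hc : ∀ c, Γ.q 0 c 0 0 0 ∈ M) (hd : ∀ d, Γ.q 0 0 d 0 0 ∈ M) : Γ.D ≤ M := by
  have hn' : Γ.n ∈ M := by
    have := mul_mem (mul_mem (inv_mem (hx 1)) hn) (inv_mem (hx 1))
    rwa [Γ.nxn, show (Γ.x 1)⁻¹ * (Γ.x 1 * Γ.n * Γ.x 1) * (Γ.x 1)⁻¹ = Γ.n by group] at this
  have he (e : F4) : Γ.q 0 0 0 e 0 ∈ M := by
    have := mul_mem (mul_mem (mul_mem (hx 1) (hd e)) (inv_mem (hx 1))) (hd e)
    rw [Γ.x_q, Γ.q_mul] at this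
    simpa [aa] using this
  have hb (b : F4) : Γ.q b 0 0 0 0 ∈ M := by
    have := mul_mem (mul_mem hn' (he b)) (inv_mem hn')
    rw [Γ.n_q] at this
    simpa using this
  have hy (η : F4) : Γ.q 0 0 0 0 η ∈ M := by
    have := mul_mem (mul_mem (mul_mem (hb 1) (he η)) (inv_mem (hb 1))) (he η)
    rw [q_conj, Γ.q_mul] at this
    simpa [aa] using this
  refine Γ.D_le (fun b c d e y => ?_) hx hn'
  have := mul_mem (mul_mem (mul_mem (mul_mem (hb b) (hc c)) (hd d)) (he e)) (hy y)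
  simpa [Γ.q_mul] using this
theorem D_y {g : G} (hg : g ∈ Γ.D) (η : F4) : g * Γ.q 0 0 0 0 η = Γ.q 0 0 0 0 η * g :=
  mem_centralizer_singleton_iff.1 (Γ.D_le (M := centralizer {Γ.q 0 0 0 0 η})
    (fun _ _ _ _ _ => mem_centralizer_singleton_iff.2 (Γ.q_y ..))
    (fun _ => mem_centralizer_singleton_iff.2 (Γ.x_y ..)) (mem_centralizer_singleton_iff.2 (Γ.n_y _)) hg)
theorem mem_D' {g : G} (hg : g ∈ Γ.A) {η : F4} (h0 : η ≠ 0) (e : g * Γ.q 0 0 0 0 η = Γ.q 0 0 0 0 η * g) : g ∈ Γ.D := by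
  have hs : η⁻¹ ^ 2 ≠ 0 := pow_ne_zero _ (inv_ne_zero h0)
  have e1 := Γ.hh_y hs η
  rw [(by decide : ∀ η : F4, η ≠ 0 → (η⁻¹ ^ 2) ^ 2 * η = 1) η h0] at e1
  have h1 : Γ.hh (η⁻¹ ^ 2) * g * (Γ.hh (η⁻¹ ^ 2))⁻¹ ∈ Γ.D :=
    Γ.mem_D.2 ⟨mul_mem (mul_mem (Γ.hhA _) hg) (inv_mem (Γ.hhA _)), by
      rw [← e1]; calc _ = Γ.hh (η⁻¹ ^ 2) * (g * Γ.q 0 0 0 0 η) * (Γ.hh (η⁻¹ ^ 2))⁻¹ := by group
        _ = _ := by rw [e]; group⟩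
  refine Γ.mem_D.2 ⟨hg, ?_⟩
  have := Γ.D_y h1 ((η⁻¹ ^ 2) ^ 2 * 1)
  rw [← Γ.hh_y hs] at this
  calc g * Γ.q 0 0 0 0 1 = (Γ.hh (η⁻¹ ^ 2))⁻¹ * (Γ.hh (η⁻¹ ^ 2) * g * (Γ.hh (η⁻¹ ^ 2))⁻¹ *
        (Γ.hh (η⁻¹ ^ 2) * Γ.q 0 0 0 0 1 * (Γ.hh (η⁻¹ ^ 2))⁻¹)) * Γ.hh (η⁻¹ ^ 2) := by group
    _ = _ := by rw [this]; group
theorem pU : IsPGroup 2 Γ.U := pg_of_pow 3 (by
  rintro _ ⟨b, c, d, e, y, a, rfl⟩
  have e1 : ∃ b' c' d' e' y', (Γ.q b c d e y * Γ.x a) ^ 2 = Γ.q b' c' d' e' y' :=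
    ⟨_, _, _, _, _, by rw [pow_two, qx_mul, Γ.x_q, Γ.q_mul, aa a, x_zero, mul_one]⟩
  obtain ⟨b', c', d', e', y', e1⟩ := e1
  rw [show 2 ^ 3 = 2 * (2 * 2) from rfl, pow_mul, e1, pow_mul, pow_two, pow_two, q_sq, y_sq])
theorem sylU : SylIn 2 Γ.U Γ.A := ⟨Γ.U_le_A, Γ.pU, fun P hP h1 h2 =>
  le_antisymm (fun g hg => Γ.syl P h2 hP (fun _ _ _ _ _ => h1 (Γ.qU ..)) (fun _ => h1 (Γ.xU _)) g hg) h1⟩
theorem sylUD : SylIn 2 Γ.U Γ.D := Γ.sylU.of_le Γ.U_le_D Γ.D_le_A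

end Su

end CL.G2C
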