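import Cfsg.Agent.INV.G2C.Fin1

/-! # G2C/Fin : weak closure of `B` and transfer -/

set_option autoImplicit false
open Subgroup CL.MSS

namespace CL.G2C

open F4

universe u

variable {G : Type u} [Group G] [Finite G]

namespace Bs

variable (Γ : Bs G)

theorem final {W : Subgroup G} (hW : Γ.QS W) {c : F4} (act : ∀ g ∈ normalizer (Γ.B : Set G),
    ∃ p : Rg c, IsUnit p ∧ ∃ θ : RingAut (Rg c), ∀ r : Rg c,
      g * Γ.bb r.s r.r * g⁻¹ = Γ.bb (p * θ r).s (p * θ r).r) : False := by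
  classical
  let β : Rg c → G := fun r => Γ.bb r.s r.r
  have βi : Function.Injective β := fun r r' e => Rg.ext (Γ.bb_inj e).1 (Γ.bb_inj e).2
  have βa (r r' : Rg c) : β (r + r') = β r * β r' := (Γ.bb_mul ..).symm
  choose! p hp θ hθ using act
  have hθ' {g : G} (hg : g ∈ normalizer (Γ.B : Set G)) (r : Rg c) : g * β r * g⁻¹ = β (p g * θ g r) := hθ g hg r
  have uq {g : G} (hg : g ∈ normalizer (Γ.B : Set G)) {p' : Rg c} {θ' : RingAut (Rg c)}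
      (e : ∀ r, g * β r * g⁻¹ = β (p' * θ' r)) : θ g = θ' := by
    have h (r : Rg c) : p g * θ g r = p' * θ' r := βi ((hθ' hg r).symm.trans (e r))
    have h1 : p g = p' := by simpa using h 1
    exact RingEquiv.ext fun r => (hp g hg).mul_left_cancel (by rw [h r, h1])
  let φ : normalizer (Γ.B : Set G) →* RingAut (Rg c) := MonoidHom.mk' (fun g => θ g) fun g g' =>
    uq (mul_mem g.2 g'.2) (p' := p g * θ g (p g')) fun r => by
      calc _ = g * (g' * β r * (g' : G)⁻¹) * (g : G)⁻¹ := by group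
        _ = _ := by rw [hθ' g'.2, hθ' g.2, map_mul, RingAut.mul_apply, mul_assoc]
  have tnB : Γ.t ∈ normalizer (Γ.B : Set G) := mem_norm_of fun _ => Γ.t_B
  have φt : θ Γ.t = Rg.sg c := uq tnB (p' := 1) fun r => by rw [one_mul]; exact Γ.t_bb ..
  have tU : zpowers Γ.t ≤ normalizer (Γ.U : Set G) := zpowers_le.2 (mem_norm_of fun z hz => by
    rwa [Γ.t_conj (Γ.U_le_A hz)])
  have pT : IsPGroup 2 (Γ.U ⊔ zpowers Γ.t : Subgroup G) :=
    isPGroup_sup_of_normalizes' Γ.pU (isPGroup_zpowers (k := 1) (by simpa [pow_two] using Γ.tt)) tU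
  obtain ⟨S, hS, TS⟩ := exists_sylIn_ge pT (H := normalizer (Γ.B : Set G)) (sup_le (fun z hz => mem_norm_of
    fun b hb => by rwa [Γ.BD (Γ.U_le_D hz) hb, mul_inv_cancel_right]) (zpowers_le.2 tnB))
  have tS : Γ.t ∈ S := TS (mem_sup_right (mem_zpowers _))
  have BS : Γ.B ≤ S := hS.le_of_normalized Γ.pB le_normalizer hS.le
  obtain ⟨μ, μ0, hμ⟩ : ∃ μ : F4, μ ≠ 0 ∧ ∀ s ∈ S, s * β ⟨μ, 0⟩ = β ⟨μ, 0⟩ * s := by
    obtain ⟨⟨z, hz, hz'⟩, z1⟩ := ne_bot_iff_exists_ne_one.1 (inf_centralizer_ne_bot hS.pgroup Γ.pB hS.le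
      (ne_bot_iff_exists_ne_one.2 ⟨⟨_, Γ.bbB 0 1⟩, fun h => one_ne_zero (Γ.bb_eq_one.1 (congrArg Subtype.val h)).2⟩))
    obtain ⟨μ, rfl⟩ := Γ.Y_of_B hz (mem_centralizer_iff.1 hz' _ tS).symm
    exact ⟨μ, fun h => z1 (Subtype.ext (Γ.y_eq_one.2 h)), fun s hs => by
      simpa only [β, bb_y] using mem_centralizer_iff.1 hz' s hs⟩
  have hγ {s : G} (hs : s ∈ S) (r : Rg c) : s * β (⟨μ, 0⟩ * r) * s⁻¹ = β (⟨μ, 0⟩ * θ s r) := by
    have h : p s * θ s ⟨μ, 0⟩ = ⟨μ, 0⟩ := βi (by rw [← hθ' (hS.le hs), hμ s hs, mul_inv_cancel_right])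
    rw [hθ' (hS.le hs), map_mul, ← mul_assoc, h]
  have wc {g : G} (hg : g •ᶜ (Γ.U ⊔ zpowers Γ.t) ≤ S) : g ∈ normalizer (Γ.B : Set G) := by
    have h := hW.wc (δ := fun r => g⁻¹ * β (⟨μ, 0⟩ * r) * g) (fun r r' => by rw [mul_add, βa]; group)
      (fun r r' e => (Rg.isUnit_mk μ0).mul_left_cancel (βi (by simpa using e)))
      (fun r x e => Γ.not_conj (g := g * x) (by
        have : g * x * Γ.t * (g * x)⁻¹ = β (⟨μ, 0⟩ * r) := by
          calc _ = g * (x * Γ.t * x⁻¹) * g⁻¹ := by group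
            _ = _ := by rw [← e]; group
        rw [this]; exact Γ.bbB ..))
      (S := g⁻¹ •ᶜ S) (hS.pgroup.map _) (le_sup_left.trans (cj_le_iff.1 hg))
      (fun r => by simpa using conj_mem_cj (g := g⁻¹) (BS (Γ.bbB ..))) (fun z => θ (g * z * g⁻¹))
      (fun z hz r => by
        rw [← hγ (hg (conj_mem_cj (hz.elim mem_sup_left fun h => h ▸ mem_sup_right (mem_zpowers _))))]; group)
    refine (inv_mem_iff).1 (mem_norm_of ?_)
    rintro _ ⟨s, r, rfl⟩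
    obtain ⟨u, hu⟩ := Rg.isUnit_mk (c := c) μ0
    have := h (↑u⁻¹ * ⟨s, r⟩)
    rwa [← hu, Units.mul_inv_cancel_left, ← inv_inv g, inv_inv g⁻¹] at this
  have hS' : SylIn 2 S ⊤ := hS.of_normalizer_le le_top fun g hg => wc (by
    rintro _ ⟨z, hz, rfl⟩; exact conj_mem hg.2 (TS hz))
  obtain ⟨χ, hχ⟩ := Rg.chi c
  let ϕ : S →* Multiplicative (ZMod 4) := χ.comp (φ.comp (inclusion hS.le))
  have ϕt : ϕ ⟨Γ.t, tS⟩ ≠ 1 := by change χ (θ Γ.t) ≠ 1; rwa [φt]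
  have sq {z : G} (hz : z ∈ S) (e : z * z = 1) : ϕ ⟨z, hz⟩ * ϕ ⟨z, hz⟩ = 1 := by
    rw [← map_mul, ← map_one ϕ]; congr 1; exact Subtype.ext e
  obtain ⟨g, h, e, hg⟩ := extremal_transfer (S := S) (by
      have := hS'.not_dvd_relIndex
      rwa [relIndex_top_right, ← even_iff_two_dvd, Nat.not_even_iff_odd] at this)
    (fun a => ⟨2, by revert a; decide⟩) ϕ Γ.res Γ.tt tS ϕt (fun g h =>
      (by decide : ∀ a b : Multiplicative (ZMod 4), a * a = 1 → b * b = 1 → b ≠ 1 → a = 1 ∨ a = b) _ _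
        (sq h (by rw [conj_mul, Γ.tt]; simp)) (sq tS Γ.tt) ϕt) pT
    (sup_le (fun z hz => mem_centralizer_singleton_iff.2 (Γ.At (Γ.U_le_A hz)))
      (zpowers_le.2 (mem_centralizer_singleton_iff.2 rfl)))
  apply ϕt
  rw [← e]
  change χ (φ ⟨Γ.t, tnB⟩) = χ (φ (⟨g, wc hg⟩ * ⟨Γ.t, tnB⟩ * ⟨g, wc hg⟩⁻¹))
  rw [map_mul, map_mul, map_mul, map_mul, map_inv, map_inv, mul_inv_cancel_comm]

end Bs

end CL.G2C
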