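import Cfsg.Agent.INV.G2C.MkP1
import Cfsg.Agent.INV.G2C.Ring

/-! # G2C/Fin1 : a conjugate of `B` normalised by `U ⟨t⟩` inside a 2-group is `B` -/

set_option autoImplicit false
open Subgroup CL.MSS

namespace CL.G2C

open F4

universe u

variable {G : Type u} [Group G] [Finite G]

namespace Su

variable (Γ : Su G)

theorem in_of_F {z : G} (hN : z ∈ Γ.N) (hU : z ∈ normalizer (Γ.U : Set G))
    (e : ∀ ε, z * Γ.q 0 0 0 ε 0 * z⁻¹ * (Γ.q 0 0 0 ε 0)⁻¹ ∈ Γ.Y) : Γ.In z := by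
  obtain ⟨b, c, d, e', y, a, h⟩ := conj_mem hU (Γ.qU 1 0 0 0 0)
  have h1 (ε : F4) : z * Γ.q 0 0 0 0 ε * z⁻¹ = Γ.q 0 0 0 0 (ε * b) := by
    obtain ⟨η, h2⟩ := e ε
    rw [mul_inv_eq_iff_eq_mul, y_mul_q] at h2
    have h3 : z * Γ.q 0 0 0 ε 0 * z⁻¹ * (z * Γ.q 0 0 0 0 ε * z⁻¹) =
        z * Γ.q 1 0 0 0 0 * z⁻¹ * (z * Γ.q 0 0 0 ε 0 * z⁻¹) * (z * Γ.q 1 0 0 0 0 * z⁻¹)⁻¹ := by
      calc _ = z * (Γ.q 1 0 0 0 0 * Γ.q 0 0 0 ε 0 * (Γ.q 1 0 0 0 0)⁻¹) * z⁻¹ := by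
            rw [conj_mul, q_conj, q_mul_y]; simp
        _ = _ := by group
    rw [h, h2, u_conj] at h3
    apply mul_left_cancel (a := Γ.q 0 0 0 ε (0 + η))
    rw [h3, q_mul_y]; simp
  have b0 : b ≠ 0 := by
    rintro rfl
    have := h1 1
    rw [mul_zero, q_zero, conj_eq_one_iff, y_eq_one] at this
    exact one_ne_zero this
  obtain ⟨a, ha, c, hc, h2⟩ := Γ.out (Γ.hh b * z) (mul_mem (Γ.A_le_N (Γ.hhA b)) hN) fun η => by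
    rw [← mul_inv_eq_iff_eq_mul, mul_inv_rev, ← mul_assoc, mul_assoc _ z, mul_assoc _ (z * _), h1, Γ.hh_y b0,
      (by decide : ∀ b η : F4, b ≠ 0 → b ^ 2 * (η * b) = η) b η b0]
  exact ⟨_, mul_mem (inv_mem (Γ.hhA b)) ha, c, hc, by rw [mul_assoc, ← h2, inv_mul_cancel_left]⟩

omit [Finite G] in
/-- a `U`-invariant subgroup meeting `U` outside `Y` meets `F` outside `Y` -/
theorem descend {M : Subgroup G} (hM : ∀ z ∈ Γ.U, ∀ g ∈ M, z * g * z⁻¹ ∈ M) {g : G} (hg : g ∈ M) (hU : g ∈ Γ.U)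
    (hY : g ∉ Γ.Y) : ∃ ε η, ε ≠ 0 ∧ Γ.q 0 0 0 ε η ∈ M := by
  have cm {z g : G} (hz : z ∈ Γ.U) (hg : g ∈ M) : z * g * z⁻¹ * g⁻¹ ∈ M := mul_mem (hM z hz g hg) (inv_mem hg)
  have s1 {c d e y : F4} (h : Γ.q 0 c d e y ∈ M) (h0 : c ≠ 0 ∨ d ≠ 0) : ∃ ε η, ε ≠ 0 ∧ Γ.q 0 0 0 ε η ∈ M := by
    obtain ⟨a, ha⟩ := (by decide : ∀ c d : F4, c ≠ 0 ∨ d ≠ 0 → ∃ a, a * d + a ^ 2 * c ≠ 0) c d h0
    have := cm (Γ.xU a) h
    rw [Γ.x_q, q_inv, Γ.q_mul] at this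
    simp only [mul_zero, add_zero, aa] at this
    exact ⟨_, _, fun h => ha (by linear_combination h - aa e), this⟩
  obtain ⟨b, c, d, e, y, a, rfl⟩ := hU
  by_cases ha : a = 0
  · subst ha
    rw [x_zero, mul_one] at hg hY
    by_cases hb : b = 0
    · subst hb
      by_cases h0 : c ≠ 0 ∨ d ≠ 0
      · exact s1 hg h0
      · push Not at h0
        obtain ⟨rfl, rfl⟩ := h0
        exact ⟨e, y, fun h => hY (Γ.q_mem_Y.2 ⟨rfl, rfl, rfl, h⟩), hg⟩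
    · have := cm (Γ.xU 1) hg
      rw [Γ.x_q, q_inv, Γ.q_mul, aa] at this
      exact s1 this (Or.inl fun h => hb (by linear_combination h - aa c))
  · have := inv_mem (cm (Γ.qU 0 0 1 0 0) hg)
    rw [show ∀ z g : G, (z * g * z⁻¹ * g⁻¹)⁻¹ = g * z * g⁻¹ * z⁻¹ by intros; group, u_conj, q_inv, Γ.q_mul] at this
    simp only [mul_zero, add_zero, zero_add, mul_one, aa] at this
    exact ⟨a, _, ha, this⟩

end Su

namespace Bs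

variable {Γ : Bs G} {W : Subgroup G}

omit [Finite G] in
theorem QS.ta (hW : Γ.QS W) {a : G} (ha : a ∈ Γ.A) (e : a * a = 1) : ∃ g, g * Γ.t * g⁻¹ = Γ.t * a := by
  by_cases a1 : a = 1
  · exact ⟨1, by simp [a1]⟩
  obtain ⟨c, hc, h⟩ := Γ.inv a ha e a1
  obtain ⟨g, hg⟩ : ∃ g, g * Γ.t * g⁻¹ = Γ.t * (c * a * c⁻¹) := by
    rcases h with h | h <;> rw [h]
    · exact ⟨_, Γ.b_t 1⟩
    · obtain ⟨g, -, -, h⟩ : ∃ g ∈ W, True ∧ g * Γ.t * g⁻¹ = Γ.t * Γ.q 0 0 1 0 0 := by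
        obtain ⟨g, hg, e⟩ := hW.fr _ (hW.QW (Γ.qQ 0 0 1 0 0)) (by
          rw [mul_assoc, ← mul_assoc (Γ.q ..), Γ.At (Γ.qA ..), mul_assoc, Γ.q_sq]; simp [Γ.q_zero, Γ.tt])
        exact ⟨g, hg, trivial, e.symm⟩
      exact ⟨g, h⟩
  refine ⟨c⁻¹ * g, ?_⟩
  calc _ = c⁻¹ * (g * Γ.t * g⁻¹) * c := by group
    _ = (c⁻¹ * Γ.t * c⁻¹⁻¹) * a := by rw [hg]; group
    _ = _ := by rw [Γ.conj_t (inv_mem hc)]

variable (Γ)

theorem not_conj {g : G} (h : g * Γ.t * g⁻¹ ∈ Γ.B) : False := by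
  obtain ⟨g', e, -, hY, hD⟩ := Γ.cd (g := g) fun d hd => Γ.BD hd h
  have key {r : F4} (hr : r ≠ 0) : ∃ η, g'⁻¹ * Γ.bb 0 r * g' = Γ.q 0 0 0 0 η * Γ.t := by
    obtain ⟨η, κ, hκ, ht, e1⟩ := Γ.cenD (c := g'⁻¹ * Γ.bb 0 r * g') (by
      calc _ = g'⁻¹ * (Γ.bb 0 r * (g' * Γ.t * g'⁻¹)) * g' := by group
        _ = _ := by rw [e, Γ.B_comm (Γ.bbB 0 r) h, ← e]; group) fun d hd => by
      calc _ = g'⁻¹ * (g' * d * g'⁻¹ * Γ.bb 0 r) * g' := by group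
        _ = _ := by rw [Γ.bbD (conj_mem hD hd)]; group
    have e2 : κ * κ = 1 := by
      have : Γ.q 0 0 0 0 η * κ * (Γ.q 0 0 0 0 η * κ) = 1 := by
        rw [← e1]
        calc _ = g'⁻¹ * (Γ.bb 0 r * Γ.bb 0 r) * g' := by group
          _ = 1 := by rw [bb_sq]; simp
      rwa [mul_assoc, ← mul_assoc κ, ← Γ.cK (Γ.qA ..) hκ, mul_assoc, ← mul_assoc, Γ.y_sq, one_mul] at this
    rcases Γ.K_inv hκ ht e2 with rfl | rfl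
    · have := conj_mem hY (Γ.yY η)
      rw [← mul_one (Γ.q ..), ← e1, show g' * (g'⁻¹ * Γ.bb 0 r * g') * g'⁻¹ = Γ.bb 0 r by group] at this
      exact absurd (Γ.bb_A (Γ.U_le_A (Γ.Q_le_U (Γ.Y_le_Q this)))) hr
    · exact ⟨η, e1⟩
  obtain ⟨η, e1⟩ := key (r := 1) one_ne_zero
  obtain ⟨η', e2⟩ := key (r := w) (by decide)
  have e3 : g' * Γ.q 0 0 0 0 (η + η') * g'⁻¹ = Γ.bb (0 + 0) (1 + w) := by
    rw [← bb_mul, ← Γ.y_mul]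
    calc _ = g' * (Γ.q 0 0 0 0 η * (Γ.t * Γ.q 0 0 0 0 η' * Γ.t⁻¹)) * g'⁻¹ := by rw [Γ.t_conj (Γ.qA ..)]
      _ = g' * ((Γ.q 0 0 0 0 η * Γ.t) * (Γ.q 0 0 0 0 η' * Γ.t)) * g'⁻¹ := by rw [Γ.t_inv]; group
      _ = _ := by rw [← e1, ← e2]; group
  exact absurd (Γ.bb_A (Γ.U_le_A (Γ.Q_le_U (Γ.Y_le_Q (e3 ▸ conj_mem hY (Γ.yY _)))))) (by decide)

variable {Γ}

theorem QS.wc (hW : Γ.QS W) {c : F4} {δ : Rg c → G} (add : ∀ r r', δ (r + r') = δ r * δ r')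
    (inj : Function.Injective δ) (nc : ∀ r g, δ r ≠ g * Γ.t * g⁻¹) {S : Subgroup G} (pS : IsPGroup 2 S)
    (US : Γ.U ≤ S) (δS : ∀ r, δ r ∈ S) (ρ : G → RingAut (Rg c))
    (hρ : ∀ z, z ∈ Γ.U ∨ z = Γ.t → ∀ r, z * δ r * z⁻¹ = δ (ρ z r)) (r : Rg c) : δ r ∈ Γ.B := by
  have d0 : δ 0 = 1 := by simpa using add 0 0
  have sq (r : Rg c) : δ r * δ r = 1 := by rw [← add, Rg.add_self, d0]
  have iv (r : Rg c) : (δ r)⁻¹ = δ r := inv_eq_of_mul_eq_one_right (sq r)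
  have cm (r r' : Rg c) : δ r * δ r' = δ r' * δ r := by rw [← add, ← add, add_comm]
  let M : Subgroup G :=
    { carrier := Set.range δ
      one_mem' := ⟨0, d0⟩
      mul_mem' := by rintro _ _ ⟨r, rfl⟩ ⟨r', rfl⟩; exact ⟨_, add r r'⟩
      inv_mem' := by rintro _ ⟨r, rfl⟩; exact ⟨r, (iv r).symm⟩ }
  have hM : ∀ z ∈ Γ.U, ∀ g ∈ M, z * g * z⁻¹ ∈ M := by rintro z hz _ ⟨r, rfl⟩; exact ⟨_, (hρ z (Or.inl hz) r).symm⟩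
  have fx {z : G} (hz : z ∈ Γ.U ∨ z = Γ.t) (r : Rg c) : ρ z r = r ↔ z * δ r = δ r * z := by
    rw [← mul_inv_eq_iff_eq_mul, hρ z hz, inj.eq_iff]
  have mu {z z' z'' : G} (hz : z ∈ Γ.U ∨ z = Γ.t) (hz' : z' ∈ Γ.U ∨ z' = Γ.t) (hz'' : z'' ∈ Γ.U ∨ z'' = Γ.t)
      (e : z * z' = z'') : ρ z * ρ z' = ρ z'' := RingEquiv.ext fun r => inj (by
    rw [← hρ _ hz'', ← e, RingAut.mul_apply, ← hρ _ hz, ← hρ _ hz']; group)
  have r1 : ρ 1 = 1 := RingEquiv.ext fun r => (fx (Or.inl (one_mem _)) r).2 (by simp)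
  have co {z z' : G} (hz : z ∈ Γ.U ∨ z = Γ.t) (hz' : z' ∈ Γ.U ∨ z' = Γ.t) (e : z * z' = z' * z) :
      ρ z * ρ z' = ρ z' * ρ z := RingEquiv.ext fun r => inj (by
    rw [RingAut.mul_apply, RingAut.mul_apply, ← hρ _ hz, ← hρ _ hz', ← hρ _ hz', ← hρ _ hz]
    calc _ = (z * z') * δ r * (z * z')⁻¹ := by group
      _ = _ := by rw [e]; group)
  have YM {ε η : F4} (h0 : ε ≠ 0) (h : Γ.q 0 0 0 ε η ∈ M) (s : F4) : Γ.q 0 0 0 0 s ∈ M := by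
    have := mul_mem (hM _ (Γ.qU (s / ε) 0 0 0 0) _ h) h
    rw [Γ.q_conj, Γ.q_mul] at this
    simpa [aa, mul_div_cancel₀ _ h0, add_right_comm η s] using this
  have xb (β : F4) : Γ.q β 0 0 0 0 ∈ Γ.U ∨ Γ.q β 0 0 0 0 = Γ.t := Or.inl (Γ.qU ..)
  have tt : ρ Γ.t * ρ Γ.t = 1 := (mu (Or.inr rfl) (Or.inr rfl) (Or.inl (one_mem _)) Γ.tt).trans r1
  have bb (β : F4) : ρ (Γ.q β 0 0 0 0) * ρ (Γ.q β 0 0 0 0) = 1 :=
    (mu (xb β) (xb β) (Or.inl (one_mem _)) (by simp [Γ.q_sq, Γ.q_zero])).trans r1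
  have b3 : ρ (Γ.q 1 0 0 0 0) * ρ (Γ.q w 0 0 0 0) = ρ (Γ.q v 0 0 0 0) :=
    mu (xb 1) (xb w) (xb v) (by simp [Γ.q_mul]; rfl)
  have inU {r : Rg c} (e : δ r * Γ.t = Γ.t * δ r) : δ r ∈ Γ.U := by
    have hN := Γ.cN _ e
    have hR : S ⊓ Γ.A = Γ.U := Γ.sylU.max _ (pS.to_inf_left) (le_inf US Γ.U_le_A) inf_le_right
    by_cases hi : Γ.In (δ r)
    · rcases Γ.in_inv hi e (sq r) with h | h
      · exact hR ▸ ⟨δS r, h⟩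
      · obtain ⟨g, hg⟩ := hW.ta h (by rw [mul_assoc, ← mul_assoc (δ r), e, mul_assoc, sq, mul_one, Γ.tt])
        exact absurd (by rw [hg, ← mul_assoc, Γ.tt, one_mul]) (nc r g)
    · have hU : δ r ∈ normalizer (Γ.U : Set G) := mem_norm_of fun z hz => hR ▸
        mem_inf.2 ⟨mul_mem (mul_mem (δS r) (US hz)) (inv_mem (δS r)), conj_mem hN (Γ.U_le_A hz)⟩
      refine absurd (Γ.out _ hN fun s => ?_) hi
      obtain ⟨ε, hε⟩ := not_forall.1 fun h => hi (Γ.in_of_F hN hU h)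
      obtain ⟨ε', η, h1⟩ := mul_mem (conj_mem (Γ.normF_of_U hU) (Γ.qF ε 0)) (inv_mem (Γ.qF ε 0))
      have h2 : δ r * Γ.q 0 0 0 ε 0 * (δ r)⁻¹ * (Γ.q 0 0 0 ε 0)⁻¹ ∈ M := by
        have := mul_mem (⟨r, rfl⟩ : δ r ∈ M) (hM _ (Γ.qU 0 0 0 ε 0) _ (inv_mem ⟨r, rfl⟩))
        rwa [← mul_assoc, ← mul_assoc] at this
      rw [h1] at hε h2
      obtain ⟨r', h3⟩ := YM (fun h => hε (Γ.q_mem_Y.2 ⟨rfl, rfl, rfl, h⟩)) h2 s
      rw [← h3, cm]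
  have inY {r : Rg c} (e : δ r * Γ.t = Γ.t * δ r) : δ r ∈ Γ.Y := by
    by_contra hY
    obtain ⟨ε, η, h0, r₁, h1⟩ := Γ.descend hM ⟨r, rfl⟩ (inU e) hY
    have mv {β : F4} (hβ : β ≠ 0) : ρ (Γ.q β 0 0 0 0) r₁ ≠ r₁ := fun h => by
      have := (fx (xb β) r₁).1 h
      rw [h1, Γ.q_comm_iff] at this
      simp [hβ, h0] at this
    by_cases h : ρ Γ.t = 1
    · have hU (r : Rg c) : δ r ∈ Γ.U := inU ((fx (Or.inr rfl) r).1 (by rw [h]; rfl)).symm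
      have := Rg.gal _ _ (bb 1) (bb w) (fun h => mv one_ne_zero (by rw [h]; rfl)) fun r => by
        rw [fx (xb 1), fx (xb w)]
        exact ⟨fun h => (Γ.cen_xb (hU r) one_ne_zero h.symm w).symm,
          fun h => (Γ.cen_xb (hU r) (by decide) h.symm 1).symm⟩
      rw [← this, bb] at b3
      exact mv (β := v) (by decide) (by rw [← b3]; rfl)
    · exact Rg.e4 _ _ _ tt (bb 1) (bb w) h (co (Or.inr rfl) (xb 1) (Γ.At (Γ.qA ..)).symm)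
        (co (Or.inr rfl) (xb w) (Γ.At (Γ.qA ..)).symm) (co (xb 1) (xb w) (by simp [Γ.q_comm_iff]))
        ⟨r₁, (fx (Or.inr rfl) r₁).2 (h1 ▸ (Γ.At (Γ.qA ..)).symm), mv one_ne_zero, mv (by decide),
          by rw [← RingAut.mul_apply, b3]; exact mv (by decide)⟩
  have fY {r : Rg c} (e : ρ Γ.t r = r) : δ r ∈ Γ.Y := inY ((fx (Or.inr rfl) r).1 e).symm
  have f2 (r : Rg c) : ρ Γ.t (ρ Γ.t r + r) = ρ Γ.t r + r := by
    rw [map_add, ← RingAut.mul_apply, tt, add_comm]; rfl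
  have cY (r : Rg c) (s : F4) : δ r * Γ.q 0 0 0 0 s = Γ.q 0 0 0 0 s * δ r := by
    obtain ⟨a, a0, a1, ha⟩ : ∃ a : Rg c, a ≠ 0 ∧ a ≠ 1 ∧ ρ Γ.t a = a := by
      by_contra! H
      have h (a : Rg c) (h0 : a ≠ 0) (h1 : a ≠ 1) : ρ Γ.t a + a = 1 := by
        by_contra h
        exact H _ (fun h => H a h0 h1 (by linear_combination h - Rg.add_self a)) h (f2 a)
      have h1 := h ⟨w, 0⟩ (fun h => absurd (congrArg Rg.s h) (by decide : w ≠ 0)) (fun h => absurd (congrArg Rg.s h) (by decide : w ≠ 1))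
      have h2 := h ⟨0, 1⟩ (by simp [Rg.ext_iff]) (by simp [Rg.ext_iff])
      exact H (⟨w, 0⟩ + ⟨0, 1⟩) (by simp [Rg.ext_iff]) (by simp [Rg.ext_iff]) (by
        rw [map_add]; linear_combination h1 + h2 + Rg.add_self 1 - Rg.add_self ⟨w, 0⟩ - Rg.add_self ⟨0, 1⟩)
    obtain ⟨η, h1⟩ := fY (map_one (ρ Γ.t))
    obtain ⟨η', h2⟩ := fY ha
    have n0 {a : Rg c} {η : F4} (h : δ a = Γ.q 0 0 0 0 η) (a0 : a ≠ 0) : η ≠ 0 := by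
      rintro rfl; exact a0 (inj (by rw [h, d0, Γ.q_zero]))
    rcases (by decide : ∀ η η' s : F4, η ≠ 0 → η' ≠ 0 → η ≠ η' → s = 0 ∨ s = η ∨ s = η' ∨ s = η + η') η η' s
      (n0 h1 (by simp [Rg.ext_iff])) (n0 h2 a0) (fun h => a1 (inj (by rw [h1, h2, h]))) with rfl | rfl | rfl | rfl
    · simp [Γ.q_zero]
    · rw [← h1, cm]
    · rw [← h2, cm]
    · rw [← Γ.y_mul, ← h1, ← h2, ← add, cm]
  have dec (r : Rg c) : ∃ η ε η', ∃ κ ∈ Γ.K, κ * Γ.t = Γ.t * κ ∧ δ r = Γ.bb 0 η * (Γ.q 0 0 0 ε η' * κ) := by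
    obtain ⟨η, h⟩ := fY (f2 r)
    have h1 : δ r * Γ.t * (δ r)⁻¹ = Γ.t * Γ.q 0 0 0 0 η := by
      rw [← h, add, ← hρ _ (Or.inr rfl), iv, ← mul_assoc, ← mul_assoc, ← mul_assoc, Γ.tt, one_mul, Γ.t_inv]
    obtain ⟨d, hd, κ, hκ, ht, e⟩ := Γ.cenY (c := (Γ.bb 0 η)⁻¹ * δ r) (by
      calc _ = (Γ.bb 0 η)⁻¹ * (δ r * Γ.t * (δ r)⁻¹) * δ r := by group
        _ = _ := by rw [h1, ← Γ.bb_t 0 η]; group) fun s =>
          Commute.mul_left (show Commute _ _ from Γ.bbD (Γ.qD ..) 0 η).symm.inv_left (cY r s)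
    rw [inv_mul_eq_iff_eq_mul] at e
    obtain ⟨ε, η', rfl⟩ := Γ.memF hd fun z hz => by
      obtain ⟨r', h2⟩ := mul_mem (⟨r, rfl⟩ : δ r ∈ M) (hM z hz _ (inv_mem ⟨r, rfl⟩))
      have hz' := Γ.U_le_D hz
      have h3 := mul_mem (mul_mem (mul_mem hd hz') (inv_mem hd)) (inv_mem hz')
      have h4 : δ r' = d * z * d⁻¹ * z⁻¹ := by
        calc _ = Γ.bb 0 η * (d * (κ * z) * κ⁻¹ * d⁻¹) * ((Γ.bb 0 η)⁻¹ * z⁻¹) := by rw [h2, e]; group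
          _ = Γ.bb 0 η * (d * z * d⁻¹ * z⁻¹) * (Γ.bb 0 η)⁻¹ := by
            rw [← Γ.cK (Γ.D_le_A hz') hκ, bb_inv, ← Γ.bbD (inv_mem hz')]; group
          _ = _ := by rw [← Γ.bbD h3, mul_inv_cancel_right]
      exact h4 ▸ inY (h4 ▸ Γ.At (Γ.D_le_A h3))
    exact ⟨η, ε, η', κ, hκ, ht, e⟩
  have fb {β : F4} {r : Rg c} {η ε η' : F4} {κ : G} (hκ : κ ∈ Γ.K) (e : δ r = Γ.bb 0 η * (Γ.q 0 0 0 ε η' * κ)) :
      ρ (Γ.q β 0 0 0 0) r = r ↔ ε * β = 0 := by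
    rw [fx (xb β), e, ← mul_assoc, Γ.bbD (Γ.qD ..), mul_assoc, mul_assoc, mul_right_inj, mul_assoc,
      ← Γ.cK (Γ.qA ..) hκ, ← mul_assoc, ← mul_assoc, mul_left_inj, Γ.q_comm_iff]
    simp
  have h1 : ρ (Γ.q 1 0 0 0 0) = 1 := by
    by_contra h
    have := Rg.gal _ _ (bb 1) (bb w) h fun r => by
      obtain ⟨η, ε, η', κ, hκ, -, e⟩ := dec r
      rw [fb hκ e, fb hκ e]; clear e; revert ε; decide
    rw [← this, bb] at b3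
    refine h (RingEquiv.ext fun r => ?_)
    obtain ⟨η, ε, η', κ, hκ, -, e⟩ := dec r
    have := (fb (β := v) hκ e).1 (by rw [← b3]; rfl)
    exact (fb hκ e).2 (by clear e; revert ε; decide)
  obtain ⟨η, ε, η', κ, hκ, ht, e⟩ := dec r
  obtain rfl : ε = 0 := by simpa using (fb (β := 1) hκ e).1 (by rw [h1]; rfl)
  rw [← mul_assoc, ← bb_y, bb_mul] at e
  have h2 := sq r
  rcases Γ.Θcov κ hκ ht with h | h
  · rw [e, mul_assoc, ← mul_assoc κ, Γ.bbΘ h, mul_assoc, ← mul_assoc, bb_sq, one_mul] at h2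
    rw [e, eq_one_of_odd (Γ.Θodd κ h) (n := 1) (by simpa [pow_two] using h2), mul_one]; exact Γ.bbB ..
  · exfalso
    obtain ⟨θ, rfl⟩ : ∃ θ, κ = Γ.t * θ := ⟨Γ.t * κ, by rw [← mul_assoc, Γ.tt, one_mul]⟩
    rw [← mul_assoc, Γ.tt, one_mul] at h
    have h3 : Commute (Γ.bb (0 + η') (η + 0) * Γ.t) θ := Commute.mul_left (Γ.bbΘ h ..).symm (Γ.Θt θ h).symm
    have h4 : (Γ.bb (0 + η') (η + 0) * Γ.t) ^ 2 = Γ.bb (η + 0) 0 := by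
      have := Γ.t_bb (0 + η') (η + 0)
      rw [Γ.t_inv] at this
      rw [pow_two, mul_assoc, ← mul_assoc Γ.t, this, bb_mul, aa, ← add_assoc, aa, zero_add]
    rw [e, ← pow_two, ← mul_assoc, h3.mul_pow] at h2
    have h5 : θ = 1 := eq_one_of_odd (Γ.Θodd θ h) (n := 2) (by
      rw [show 2 ^ 2 = 2 * 2 from rfl, pow_mul, ← inv_eq_of_mul_eq_one_right h2, h4, bb_inv, pow_two, bb_sq])
    rw [h5, one_pow, mul_one, h4, bb_eq_one] at h2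
    refine nc r (Γ.b (0 + η')) ?_
    rw [e, h5, mul_one, h2.1, bb_y, Γ.b_t, Γ.At (Γ.qA ..)]

end Bs

end CL.G2C
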