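import Cfsg.Agent.TECH.SylIn
import Mathlib.GroupTheory.SchurZassenhaus

/-!
# G2C/Gen : four general lemmas on finite groups (for S1751)
-/

set_option autoImplicit false
open Subgroup CL.MSS

namespace CL.G2C

variable {G : Type*} [Group G] [Finite G]

omit [Finite G] in
theorem Gen.zp2 {t z : G} (tt : t * t = 1) (h : z ∈ zpowers t) : z = 1 ∨ z = t := by
  obtain ⟨i, rfl⟩ := h
  have e : ∀ k : ℤ, t ^ (2 * k) = 1 := fun k => by rw [zpow_mul, zpow_two, tt, one_zpow]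
  rcases Int.even_or_odd' i with ⟨k, rfl | rfl⟩
  · exact .inl (e k)
  · exact .inr (by simp only [zpow_add_one, e, one_mul])

omit [Finite G] in
theorem Gen.mem2 {A : Subgroup G} {t g : G} (tt : t * t = 1) (nA : t ∈ normalizer (A : Set G)) :
    g ∈ A ⊔ zpowers t ↔ g ∈ A ∨ t * g ∈ A := by
  refine ⟨fun h => ?_, fun h => h.elim mem_sup_left fun h =>
    (mul_mem_cancel_left (mem_sup_right (mem_zpowers t))).1 (mem_sup_left h)⟩
  obtain ⟨a, ha, z, hz, rfl⟩ := (mem_sup_of_normalizes_left (zpowers_le.2 nA)).1 h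
  rcases Gen.zp2 tt hz with rfl | rfl
  · exact .inl (by rwa [mul_one])
  · exact .inr (by simpa only [inv_eq_of_mul_eq_one_left tt, mul_assoc] using (mem_normalizer_iff.1 nA a).1 ha)

/-- **FU lemma.** `t ∉ X` an involution normalising `X` and the 2-subgroup `V ≤ X`, every involution of the
coset `tV` is `V`-conjugate to `t`, and `C_V(t)` lies in no bigger 2-subgroup of `C_X(t)`.
PROOF. Put `V' = V ⊔ zpowers t` (elements `v`, `t v`), `X' = X ⊔ zpowers t` (elements `x`, `t x`).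
(1) `SylIn 2 V' X'`: by `SylIn.of_normalizer` it suffices to take a 2-subgroup `P` with `V' ≤ P ≤ X' ⊓ N(V')`
and `g ∈ P`; replacing `g` by `t g` assume `g ∈ X`. `g t g⁻¹ ∈ V'`; it is not in `V` (else
`t = (g t g⁻¹ t⁻¹)⁻¹ g t g⁻¹ ∈ X`), so it is an involution `t v = w t w⁻¹`, `w⁻¹ g ∈ R := P ⊓ X ⊓ C(t)`,
`R ≤ V` by `hc`, so `g ∈ V`. (2) `SylIn.inf_normal_of_le` and `V' ⊓ X = V` give `SylIn 2 V X`.
(3) `R ⊔ zpowers t` is a 2-subgroup of `X'`, so `x •ᶜ (R ⊔ zpowers t) ≤ V'` with `x ∈ X'`, wlog `x ∈ X`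
(`t` normalises `R ⊔ zpowers t`); `x t x⁻¹ ∈ V' \ V` equals `w t w⁻¹`; `c = w⁻¹ x`, `c •ᶜ R ≤ V' ⊓ X = V`. -/
theorem fix_syl {X V : Subgroup G} {t : G} (tt : t * t = 1) (tX : t ∉ X)
    (nX : t ∈ normalizer (X : Set G)) (VX : V ≤ X) (pV : IsPGroup 2 V) (nV : t ∈ normalizer (V : Set G))
    (fr : ∀ v ∈ V, t * v * (t * v) = 1 → ∃ w ∈ V, t * v = w * t * w⁻¹)
    (hc : ∀ R : Subgroup G, R ≤ X → IsPGroup 2 R → (∀ r ∈ R, r * t = t * r) →
      (∀ v ∈ V, v * t = t * v → v ∈ R) → R ≤ V) :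
    SylIn 2 V X ∧ ∀ R : Subgroup G, R ≤ X → IsPGroup 2 R → t ∈ normalizer (R : Set G) →
      ∃ c ∈ X, c * t = t * c ∧ ∀ r ∈ R, c * r * c⁻¹ ∈ V := by
  have : Fact (Nat.Prime 2) := ⟨Nat.prime_two⟩
  have pt : IsPGroup 2 (zpowers t) := isPGroup_zpowers (k := 1) (by rw [pow_one, pow_two, tt])
  have fus : ∀ g ∈ X, g * t * g⁻¹ ∈ V ⊔ zpowers t → ∃ w ∈ V, w⁻¹ * g * t = t * (w⁻¹ * g) := fun g hg m => by
    have e : t * (t * (g * t * g⁻¹)) = g * t * g⁻¹ := by rw [← mul_assoc, tt, one_mul]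
    obtain ⟨w, hw, e1⟩ := fr _ (((Gen.mem2 tt nV).1 m).resolve_left fun m => tX (by
      simpa [mul_assoc] using mul_mem (mul_mem (inv_mem hg) (VX m)) hg)) (by rw [e, conj_mul, tt]; simp)
    refine ⟨w, hw, ?_⟩
    calc _ = w⁻¹ * (g * t * g⁻¹) * g := by group
      _ = _ := by rw [← e, e1]; group
  have VI : (V ⊔ zpowers t) ⊓ X = V := le_antisymm (fun g hg => ((Gen.mem2 tt nV).1 hg.1).resolve_right
    fun m => tX ((mul_mem_cancel_right hg.2).1 (VX m))) (le_inf le_sup_left VX)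
  have S : SylIn 2 (V ⊔ zpowers t) (X ⊔ zpowers t) := by
    refine SylIn.of_normalizer ⟨le_inf (sup_le_sup_right VX _) le_normalizer,
      isPGroup_sup_of_normalizes' pV pt (zpowers_le.2 nV), fun Q hQ h1 h2 => le_antisymm (fun g hg => ?_) h1⟩
    have k : ∀ g ∈ Q, g ∈ X → g ∈ V := fun g hg m => by
      obtain ⟨w, hw, e⟩ := fus g m ((mem_normalizer_iff.1 (h2 hg).2 t).1 (mem_sup_right (mem_zpowers t)))
      exact (mul_mem_cancel_left (inv_mem hw)).1 (hc (Q ⊓ X ⊓ centralizer {t}) (inf_le_left.trans inf_le_right)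
        (hQ.to_le (inf_le_left.trans inf_le_left)) (fun r hr => mem_centralizer_singleton_iff.1 hr.2)
        (fun v hv e => ⟨⟨h1 (mem_sup_left hv), VX hv⟩, mem_centralizer_singleton_iff.2 e⟩)
        ⟨⟨Q.mul_mem (inv_mem (h1 (mem_sup_left hw))) hg, X.mul_mem (inv_mem (VX hw)) m⟩,
          mem_centralizer_singleton_iff.2 e⟩)
    exact (Gen.mem2 tt nV).2 (((Gen.mem2 tt nX).1 (h2 hg).1).imp (k g hg)
      (k _ (mul_mem (h1 (mem_sup_right (mem_zpowers t))) hg)))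
  refine ⟨VI ▸ S.inf_normal_of_le (sup_le le_normalizer (zpowers_le.2 nX)) le_sup_left, fun R RX pR nR => ?_⟩
  obtain ⟨x, hx, e⟩ : ∃ x ∈ X, x •ᶜ (R ⊔ zpowers t) ≤ V ⊔ zpowers t := by
    obtain ⟨x, hx, e⟩ := S.exists_conj_le (isPGroup_sup_of_normalizes' pR pt (zpowers_le.2 nR))
      (sup_le_sup_right RX _)
    rcases (Gen.mem2 tt nX).1 hx with m | m
    · exact ⟨x, m, e⟩
    · exact ⟨_, m, cj_mul t x _ ▸ cj_le_of_mem e (mem_sup_right (mem_zpowers t))⟩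
  obtain ⟨w, hw, e1⟩ := fus x hx (e (conj_mem_cj (mem_sup_right (mem_zpowers t))))
  refine ⟨_, mul_mem (inv_mem (VX hw)) hx, e1, fun r hr => ?_⟩
  have := VI.le ⟨e (conj_mem_cj (mem_sup_left hr)), X.mul_mem (mul_mem hx (RX hr)) (inv_mem hx)⟩
  simpa [mul_assoc] using mul_mem (mul_mem (inv_mem hw) this) hw

/-- an element of order dividing 3 in the coset `P j` (`P` a 2-group normalised by `j`, `j³ = 1`) is
`P`-conjugate to `j`.  PROOF. In `H = P ⊔ zpowers j` (elements `p j^i`) the group `zpowers j` is Sylow 3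
(`r = p j^i` in a 3-subgroup `R ∋ j` gives `p ∈ R ⊓ P = ⊥`); so `x (p₀ j) x⁻¹ = j^k` with `x = j^i p`, i.e.
`p (p₀ j) p⁻¹ = j^k`, and `j^k j⁻¹ ∈ P` has order dividing 3, so `j^k = j`. -/
theorem conj3 {P : Subgroup G} (hP : IsPGroup 2 P) {j p₀ : G} (j3 : j ^ 3 = 1)
    (nP : j ∈ normalizer (P : Set G)) (hp : p₀ ∈ P) (h3 : (p₀ * j) ^ 3 = 1) :
    ∃ p ∈ P, p₀ * j = p * j * p⁻¹ := by
  have : Fact (Nat.Prime 2) := ⟨Nat.prime_two⟩
  have : Fact (Nat.Prime 3) := ⟨Nat.prime_three⟩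
  have co : ∀ R : Subgroup G, IsPGroup 3 R → ∀ a ∈ P, a ∈ R → a = 1 := fun R hR a =>
    disjoint_def.1 (IsPGroup.disjoint_of_ne 2 3 (by norm_num) P R hP hR)
  have pj : IsPGroup 3 (zpowers j) := isPGroup_zpowers (k := 1) (by rwa [pow_one])
  have S : SylIn 3 (zpowers j) (zpowers j ⊔ P) := ⟨le_sup_left, pj, fun R hR h1 h2 => le_antisymm (fun r hr => by
    obtain ⟨k, hk, p, hp, rfl⟩ := (mem_sup_of_normalizes_right (zpowers_le.2 nP)).1 (h2 hr)
    rwa [co R hR p hp ((mul_mem_cancel_left (h1 hk)).1 hr), mul_one]) h1⟩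
  obtain ⟨x, hx, e⟩ := S.exists_conj_le (isPGroup_zpowers (x := p₀ * j) (k := 1) (by rwa [pow_one]))
    (zpowers_le.2 (mul_mem (mem_sup_right hp) (mem_sup_left (mem_zpowers j))))
  obtain ⟨k, hk, p, hp', rfl⟩ := (mem_sup_of_normalizes_right (zpowers_le.2 nP)).1 hx
  have e1 := co _ pj (p * (p₀ * j) * p⁻¹ * j⁻¹)
    (by simpa [mul_assoc] using mul_mem (mul_mem hp' hp) ((mem_normalizer_iff.1 nP _).1 (inv_mem hp')))
    (mul_mem (by simpa [mul_assoc] using mul_mem (mul_mem (inv_mem hk) (e (conj_mem_cj (mem_zpowers _)))) hk)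
      (inv_mem (mem_zpowers j)))
  refine ⟨p⁻¹, inv_mem hp', ?_⟩
  rw [mul_inv_eq_one] at e1
  nth_rewrite 2 [← e1]; group

/-- a `j`-invariant coset `g P` contains a fixed point of `j`.
PROOF. `p₀ = g⁻¹ (j g j⁻¹)`, `p₀ j = g⁻¹ j g` has cube 1, `conj3`: `g⁻¹ j g = p j p⁻¹`. -/
theorem fix3 {P : Subgroup G} (hP : IsPGroup 2 P) {j g : G} (j3 : j ^ 3 = 1)
    (nP : j ∈ normalizer (P : Set G)) (hg : g⁻¹ * (j * g * j⁻¹) ∈ P) :
    ∃ p ∈ P, j * (g * p) = g * p * j := by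
  obtain ⟨p, hp, e⟩ := conj3 hP j3 nP hg (by
    rw [show g⁻¹ * (j * g * j⁻¹) * j = g⁻¹ * j * g⁻¹⁻¹ by group, conj_pow, j3]; simp)
  refine ⟨p, hp, ?_⟩
  calc _ = g * (g⁻¹ * (j * g * j⁻¹) * j) * p := by group
    _ = _ := by rw [e]; group

/-- `X = W × Z` when `Z` is central of odd order and `X / Z` is a 2-group.
PROOF. `W` Sylow 2 in `X`; `W ⊔ Z` has elements `w z`. For `x ∈ X` with `x^2^k ∈ Z` of odd order `o`:
Bezout gives `x = x^(o a) * x^(2^k b)`, a 2-element times an element of `Z`; a 2-element of `X` is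
`X`-conjugate into `W`. So every element of `X` is `X`-conjugate into `W ⊔ Z`; alternatively
`(W ⊔ Z).relIndex X` is odd and (Cauchy in `X / Z`) a power of 2. Hence `X = W Z`, `W` is normal in `X`
and contains every 2-element (`SylIn.le_of_normalizes` for `zpowers x`). -/
theorem two_part {X Z : Subgroup G} (ZX : Z ≤ X) (cZ : ∀ z ∈ Z, ∀ x ∈ X, z * x = x * z)
    (oZ : ∀ z ∈ Z, Odd (orderOf z)) (hX : ∀ x ∈ X, ∃ k : ℕ, x ^ 2 ^ k ∈ Z) :
    ∃ W : Subgroup G, W ≤ X ∧ IsPGroup 2 W ∧ (∀ x ∈ X, ∀ k : ℕ, x ^ 2 ^ k = 1 → x ∈ W) ∧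
      ∀ x ∈ X, ∃ w ∈ W, ∃ z ∈ Z, x = w * z := by
  have : Fact (Nat.Prime 2) := ⟨Nat.prime_two⟩
  have : (Z.subgroupOf X).Normal := ⟨fun z hz x => show (x : G) * z * (x : G)⁻¹ ∈ Z by
    rwa [← cZ z hz x x.2, mul_inv_cancel_right]⟩
  obtain ⟨T⟩ : Nonempty (Sylow 2 X) := inferInstance
  have e := ((sylIn_top T).map (QuotientGroup.mk' (Z.subgroupOf X))).eq_of_isPGroup (isPGroup_iff_forall_mem.2 (by
    rintro _ ⟨x, -, rfl⟩
    obtain ⟨k, hk⟩ := hX x x.2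
    exact ⟨k, by rw [← map_pow]; exact (QuotientGroup.eq_one_iff _).2 hk⟩))
  have S := sylIn_map_subtype T
  have d : ∀ x ∈ X, ∃ w ∈ (T : Subgroup X).map X.subtype, ∃ z ∈ Z, x = w * z := fun x hx => by
    obtain ⟨w, hw, e1⟩ := e.ge ⟨⟨x, hx⟩, mem_top _, rfl⟩
    exact ⟨w, ⟨w, hw, rfl⟩, _, (QuotientGroup.eq (s := Z.subgroupOf X)).1 e1, (mul_inv_cancel_left _ _).symm⟩
  refine ⟨_, S.le, S.2, fun x hx k hk => S.le_of_normalizes (isPGroup_zpowers hk) (zpowers_le.2 hx)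
    (zpowers_le.2 ?_) (mem_zpowers x), d⟩
  obtain ⟨w, hw, z, hz, rfl⟩ := d x hx
  exact mul_mem (le_normalizer hw) (centralizer_le_normalizer _ fun y hy => (cZ z hz y (S.le hy)).symm)

/-- `X = ⟨t⟩ × Θ` when the central involution `t` is the only nontrivial 2-element.
PROOF. `N = (zpowers t).subgroupOf X` is normal in `X` of order 2 and odd index (Cauchy in `X ⧸ N`:
`x² ∈ ⟨t⟩` makes `x` a 2-element); Schur–Zassenhaus `Subgroup.exists_right_complement'_of_coprime`. -/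
theorem odd_part {X : Subgroup G} {t : G} (tX : t ∈ X) (tt : t * t = 1) (t1 : t ≠ 1)
    (ct : ∀ x ∈ X, x * t = t * x) (h2 : ∀ x ∈ X, x ^ 4 = 1 → x = 1 ∨ x = t) :
    ∃ Θ : Subgroup G, Θ ≤ X ∧ (∀ x ∈ Θ, Odd (orderOf x)) ∧ ∀ x ∈ X, x ∈ Θ ∨ t * x ∈ Θ := by
  have : Fact (Nat.Prime 2) := ⟨Nat.prime_two⟩
  have : ((zpowers t).subgroupOf X).Normal := ⟨fun z hz x => show (x : G) * z * (x : G)⁻¹ ∈ zpowers t by
    rcases Gen.zp2 (z := (z : G)) tt hz with e | e <;> rw [e]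
    exacts [by simp, by rw [ct x x.2, mul_inv_cancel_right]; exact mem_zpowers t]⟩
  have o : ¬ 2 ∣ ((zpowers t).subgroupOf X).index := fun h => by
    obtain ⟨y, hy⟩ := exists_prime_orderOf_dvd_card' 2 h
    obtain ⟨x, rfl⟩ := QuotientGroup.mk'_surjective _ y
    have m : (x : G) ^ 2 ∈ zpowers t := (QuotientGroup.eq_one_iff (x ^ 2)).1 (hy ▸ pow_orderOf_eq_one _ :
      QuotientGroup.mk' ((zpowers t).subgroupOf X) x ^ 2 = 1)
    have m1 : (x : G) ∈ zpowers t := by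
      rcases h2 x x.2 (by
        rw [show 4 = 2 * 2 from rfl, pow_mul, pow_two]
        rcases Gen.zp2 tt m with e | e <;> rw [e]
        exacts [mul_one 1, tt]) with e | e <;> rw [e]
      exacts [one_mem _, mem_zpowers t]
    rw [show QuotientGroup.mk' _ x = 1 from (QuotientGroup.eq_one_iff x).2 m1, orderOf_one] at hy
    omega
  obtain ⟨H, hH⟩ := exists_right_complement'_of_coprime (N := (zpowers t).subgroupOf X) (by
    rw [Nat.card_congr (subgroupOfEquivOfLe (zpowers_le.2 tX)).toEquiv, Nat.card_zpowers,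
      orderOf_eq_prime (by rw [pow_two, tt]) t1]
    exact (Nat.Prime.coprime_iff_not_dvd Nat.prime_two).2 o)
  refine ⟨H.map X.subtype, map_subtype_le _, ?_, fun x hx => ?_⟩
  · rintro _ ⟨x, hx, rfl⟩
    refine Nat.not_even_iff_odd.1 fun e => o (e.two_dvd.trans ?_)
    rw [hH.symm.index_eq_card, coe_subtype, orderOf_coe]
    exact H.orderOf_dvd_natCard hx
  · obtain ⟨⟨n, k⟩, e, -⟩ := hH.existsUnique ⟨x, hx⟩
    replace e : (n.1 : G) * k.1 = x := congrArg Subtype.val e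
    rcases Gen.zp2 (z := (n.1 : G)) tt n.2 with e1 | e1 <;> rw [← e, e1]
    exacts [.inl ⟨k, k.2, (one_mul _).symm⟩, .inr ⟨k, k.2, by rw [← mul_assoc, tt, one_mul]; rfl⟩]

end CL.G2C
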