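import Cfsg.Agent.INV.G2C.Api
import Cfsg.Agent.INV.G2C.Gen

/-! # G2C/Lng : a translation of `t Y` centralising `D` -/

set_option autoImplicit false
set_option synthInstance.maxSize 2048
open Subgroup CL.MSS

namespace CL.G2C

open F4

universe u

variable {G : Type u} [Group G] [Finite G]

namespace Su

variable (Γ : Su G)

omit [Finite G] in
theorem Lng.cj_mul (g a b : G) : g * (a * b) * g⁻¹ = g * a * g⁻¹ * (g * b * g⁻¹) := by group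

omit [Finite G] in
theorem Lng.fix {g a : G} : g * a * g⁻¹ = a ↔ g * a = a * g := mul_inv_eq_iff_eq_mul

theorem Lng.normY {g : G} (hy : ∀ s, g * Γ.q 0 0 0 0 s = Γ.q 0 0 0 0 s * g) : g ∈ normalizer (Γ.Y : Set G) :=
  mem_norm_of (by rintro _ ⟨s, rfl⟩; rw [Lng.fix.2 (hy s)]; exact Γ.yY s)

theorem Lng.kkU {s : F4} (hs : s ≠ 0) : Γ.kk s ∈ normalizer (Γ.U : Set G) := mem_norm_of fun _ => Γ.kk_U hs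

theorem Lng.bo {d : G} (hd : d ∈ Γ.D) (hU : d ∈ normalizer (Γ.U : Set G)) : d ∈ Γ.Bo := by
  obtain ⟨e, y, h⟩ := conj_mem (Γ.normF_of_U hU) (Γ.qF 1 0)
  exact Γ.bo_of_e hd h

omit [Finite G] in
theorem Lng.kk_comm {g : G} (hk : g * Γ.k = Γ.k * g) (s : F4) : g * Γ.kk s = Γ.kk s * g := by
  cases s
  · exact (mul_one g).trans (one_mul g).symm
  · exact (mul_one g).trans (one_mul g).symm
  · exact hk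
  · change g * (Γ.k * Γ.k) = Γ.k * Γ.k * g
    rw [← mul_assoc, hk, mul_assoc, hk, mul_assoc]

omit [Finite G] in
theorem Lng.swap {g j : G} (h : g * j = j * g) (z : G) :
    g * (j * z * j⁻¹) * g⁻¹ = j * (g * z * g⁻¹) * j⁻¹ := by
  calc _ = (g * j) * z * (g * j)⁻¹ := by group
    _ = _ := by rw [h]; group

omit [Finite G] in
theorem Lng.free {g z : G} (hk : g * Γ.k = Γ.k * g) (h1 : z * z = 1)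
    (h2 : z * (Γ.kk w * z * (Γ.kk w)⁻¹) = Γ.kk v * z * (Γ.kk v)⁻¹) :
    g * z * g⁻¹ * (g * z * g⁻¹) = 1 ∧
      g * z * g⁻¹ * (Γ.kk w * (g * z * g⁻¹) * (Γ.kk w)⁻¹) = Γ.kk v * (g * z * g⁻¹) * (Γ.kk v)⁻¹ := by
  refine ⟨by rw [← Lng.cj_mul, h1]; group, ?_⟩
  rw [← Lng.swap (Lng.kk_comm Γ hk w), ← Lng.swap (Lng.kk_comm Γ hk v), ← Lng.cj_mul, h2]

/-- PROOF. (a) `cd` (with `D_ty`): `a t a⁻¹ = t y 1`, `a ∈ N(Y)`.  `h₁ = a h a⁻¹` normalises `Y`; its action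
`s : F4 → F4` on `Y` is additive, `s³ = 1`, without nonzero fixed point (as for `h`), so `s = v·` or `w·` (decide on
`s 1, s w`); `n₀ = h₁ * h * h` resp. `h₁ * h` centralises `Y`.  `a⁻¹ t a = t y μ` with `μ ≠ 0` (`a (y μ) a⁻¹ = y 1`), so
`n₀ t n₀⁻¹ = a (t y (v μ)) a⁻¹ = t y 1 * a y(vμ) a⁻¹ = t y λ`, `λ ≠ 0`. -/
theorem exists_tr (hty : ∃ g, g * Γ.t * g⁻¹ = Γ.t * Γ.q 0 0 0 0 1) :
    ∃ g η, η ≠ 0 ∧ (∀ s, g * Γ.q 0 0 0 0 s = Γ.q 0 0 0 0 s * g) ∧ g * Γ.t * g⁻¹ = Γ.t * Γ.q 0 0 0 0 η := by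
  obtain ⟨g, hg⟩ := hty
  obtain ⟨a, ha, -, aY, -⟩ := Γ.cd (g := g) fun d hd => by rw [hg]; exact Γ.D_ty hd 1
  rw [hg] at ha
  choose σ hσ using fun s => conj_mem aY (Γ.yY s)
  choose τ hτ using fun s => conj_mem' aY (Γ.yY s)
  have στ : ∀ s, σ (τ s) = s := fun s => Γ.y_inj (by rw [← hσ, ← hτ]; group)
  have key := (by decide +kernel : ∀ σ : F4 → F4, (∀ a b, σ (a + b) = σ a + σ b) → (∀ a, σ a = 0 → a = 0) →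
    (∀ r, σ (v * r) = v * σ r) ∨ ∀ r, σ (v * r) = w * σ r) σ
    (fun s s' => Γ.y_inj (by rw [← Γ.y_mul, ← hσ, ← hσ, ← hσ, ← Γ.y_mul]; group))
    (fun s e => Γ.y_eq_one.1 (by simpa [e, Γ.q_zero] using hσ s))
  have h1 : ∀ s, a * Γ.h * a⁻¹ * Γ.q 0 0 0 0 s * (a * Γ.h * a⁻¹)⁻¹ = Γ.q 0 0 0 0 (σ (v * τ s)) := fun s => by
    rw [← hσ, ← Γ.h_y, ← hτ]; group
  have h2 : a * Γ.h * a⁻¹ * Γ.t * (a * Γ.h * a⁻¹)⁻¹ = Γ.t * Γ.q 0 0 0 0 (1 + σ (v * τ 1)) := by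
    have e : Γ.t = a * Γ.t * a⁻¹ * Γ.q 0 0 0 0 1 := by rw [ha, mul_assoc, Γ.y_sq, mul_one]
    rw [← Γ.y_mul, ← mul_assoc, ← ha, ← h1]
    conv_lhs => rw [e]
    rw [Lng.cj_mul]; congr 1
    calc _ = a * (Γ.h * Γ.t * Γ.h⁻¹) * a⁻¹ := by group
      _ = _ := by rw [Γ.conj_t Γ.hA]
  have h3 : ∀ g j x : G, g * j * x * (g * j)⁻¹ = g * (j * x * j⁻¹) * g⁻¹ := fun g j x => by group
  rcases key with k | k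
  · refine ⟨a * Γ.h * a⁻¹ * Γ.h * Γ.h, w, by decide, fun s => Lng.fix.1 ?_, ?_⟩
    · rw [h3, h3 _ Γ.h, Γ.h_y, Γ.h_y, h1, k, στ]; congr 1; revert s; decide
    · rw [h3, h3 _ Γ.h, Γ.conj_t Γ.hA, Γ.conj_t Γ.hA, h2, k, στ]; rfl
  · refine ⟨a * Γ.h * a⁻¹ * Γ.h, v, by decide, fun s => Lng.fix.1 ?_, ?_⟩
    · rw [h3, Γ.h_y, h1, k, στ]; congr 1; revert s; decide
    · rw [h3, Γ.conj_t Γ.hA, h2, k, στ]; rfl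

/-- PROOF. `M g := g ∈ C(Y), g t g⁻¹ ∈ t Y, g ∈ N(U), g k g⁻¹ ∈ {k, k⁻¹}`.  `g` normalises `D` (`normD'`); Frattini
(`sylUD.frattini`) makes `d g ∈ N(U)`; `g k g⁻¹ ∈ D` normalises `F`, so (`bo_of_e`) equals `z * kk s`, of order 3,
`s ≠ 1` (`k_ne`), `conj3` with `P = U`: `= p (kk s) p⁻¹`; `p⁻¹ g` satisfies `M` with the same `η` (`D_ty`).
If `M g` and `g t = t g` then `g = d κ` (`cenY`), `d ∈ Bo`, `d k d⁻¹ = z k z⁻¹ ∈ U k`, so it is not `k⁻¹` (`k_ne`).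
If `g` inverts `k` so do `g₁ = h g h⁻¹`, `g₂ = h g₁ h⁻¹` and `g g₁ g₂`, which centralises `t`
(`η + vη + wη = 0`): contradiction. -/
theorem exists_tr_k {g : G} {η : F4} (hy : ∀ s, g * Γ.q 0 0 0 0 s = Γ.q 0 0 0 0 s * g)
    (ht : g * Γ.t * g⁻¹ = Γ.t * Γ.q 0 0 0 0 η) :
    ∃ g', (∀ s, g' * Γ.q 0 0 0 0 s = Γ.q 0 0 0 0 s * g') ∧ g' * Γ.t * g'⁻¹ = Γ.t * Γ.q 0 0 0 0 η ∧
      g' ∈ normalizer (Γ.U : Set G) ∧ g' * Γ.k = Γ.k * g' := by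
  have step : ∀ {g d : G}, d ∈ Γ.D → (∀ s, g * Γ.q 0 0 0 0 s = Γ.q 0 0 0 0 s * g) →
      g * Γ.t * g⁻¹ = Γ.t * Γ.q 0 0 0 0 η → (∀ s, d * g * Γ.q 0 0 0 0 s = Γ.q 0 0 0 0 s * (d * g)) ∧
      d * g * Γ.t * (d * g)⁻¹ = Γ.t * Γ.q 0 0 0 0 η := fun {g d} hd hy ht =>
    ⟨fun s => by rw [mul_assoc, hy, ← mul_assoc, Γ.D_y hd, mul_assoc], by
      rw [← Lng.fix.2 (Γ.D_ty hd η), ← ht]; group⟩
  obtain ⟨d, hd, g1, g1U, e⟩ := Γ.sylUD.frattini (Γ.normD' (Lng.normY Γ hy) ht)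
  obtain ⟨hy1, ht1⟩ := step (inv_mem hd) hy ht
  rw [show d⁻¹ * g = g1 by rw [e]; group] at hy1 ht1
  have kU : Γ.k ∈ normalizer (Γ.U : Set G) := Lng.kkU Γ (s := w) (by decide)
  obtain ⟨z, hz, s, hs, e1⟩ := Lng.bo Γ (conj_mem (Γ.normD' (Lng.normY Γ hy1) ht1) Γ.kD)
    (mul_mem (mul_mem g1U kU) (inv_mem g1U))
  have s3 : Γ.kk s ^ 3 = 1 := by
    rw [pow_three, Γ.kk_mul hs hs, Γ.kk_mul hs (mul_ne_zero hs hs),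
      (by decide : ∀ s : F4, s ≠ 0 → s * (s * s) = 1) s hs]; rfl
  obtain ⟨p, hp, e2⟩ := conj3 Γ.pU s3 (Lng.kkU Γ hs) hz (by rw [← e1, conj_pow, Γ.k3]; group)
  obtain ⟨hy2, ht2⟩ := step (inv_mem (Γ.U_le_D hp)) hy1 ht1
  have gU : p⁻¹ * g1 ∈ normalizer (Γ.U : Set G) := mul_mem (inv_mem (le_normalizer hp)) g1U
  have e3 : p⁻¹ * g1 * Γ.k * (p⁻¹ * g1)⁻¹ = Γ.kk s := by
    calc _ = p⁻¹ * (g1 * Γ.k * g1⁻¹) * p := by group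
      _ = _ := by rw [e1, e2]; group
  generalize p⁻¹ * g1 = g2 at hy2 ht2 gU e3
  rcases f4cases s with rfl | rfl | rfl | rfl
  · exact absurd rfl hs
  · exact absurd (by rw [show Γ.k = 1 by simpa [Γ.kk_one] using e3]; exact one_mem _) Γ.k_ne
  · exact ⟨g2, hy2, ht2, gU, Lng.fix.1 e3⟩
  exfalso
  rw [Γ.kk_v, ← Γ.k_inv] at e3
  have hU : Γ.h ∈ normalizer (Γ.U : Set G) := mem_norm_of fun _ => Γ.h_U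
  have nx : ∀ {g : G} {η : F4}, ((∀ s, g * Γ.q 0 0 0 0 s = Γ.q 0 0 0 0 s * g) ∧
      g * Γ.t * g⁻¹ = Γ.t * Γ.q 0 0 0 0 η ∧ g ∈ normalizer (Γ.U : Set G) ∧ g * Γ.k * g⁻¹ = Γ.k⁻¹) →
      ((∀ s, Γ.h * g * Γ.h⁻¹ * Γ.q 0 0 0 0 s = Γ.q 0 0 0 0 s * (Γ.h * g * Γ.h⁻¹)) ∧
      Γ.h * g * Γ.h⁻¹ * Γ.t * (Γ.h * g * Γ.h⁻¹)⁻¹ = Γ.t * Γ.q 0 0 0 0 (v * η) ∧
      Γ.h * g * Γ.h⁻¹ ∈ normalizer (Γ.U : Set G) ∧ Γ.h * g * Γ.h⁻¹ * Γ.k * (Γ.h * g * Γ.h⁻¹)⁻¹ = Γ.k⁻¹) := by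
    rintro g η ⟨a1, a2, a3, a4⟩
    refine ⟨fun s => ?_, ?_, mul_mem (mul_mem hU a3) (inv_mem hU), ?_⟩
    · rw [(by revert s; decide : s = v * (w * s)), ← Γ.h_y, ← Lng.cj_mul, ← Lng.cj_mul, a1]
    · rw [← Γ.h_y]
      conv_lhs => rw [← Γ.conj_t Γ.hA]
      conv_rhs => rw [← Γ.conj_t Γ.hA, ← Lng.cj_mul, ← a2]
      group
    · have e := Lng.fix.2 Γ.hk
      calc _ = Γ.h * g * Γ.h⁻¹ * (Γ.h * Γ.k * Γ.h⁻¹) * (Γ.h * g * Γ.h⁻¹)⁻¹ := by rw [e]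
        _ = Γ.h * (g * Γ.k * g⁻¹) * Γ.h⁻¹ := by group
        _ = (Γ.h * Γ.k * Γ.h⁻¹)⁻¹ := by rw [a4]; group
        _ = _ := by rw [e]
  obtain ⟨b1, b2, b3, b4⟩ := nx ⟨hy2, ht2, gU, e3⟩
  obtain ⟨c1, c2, c3, c4⟩ := nx ⟨b1, b2, b3, b4⟩
  generalize Γ.h * (Γ.h * g2 * Γ.h⁻¹) * Γ.h⁻¹ = g4 at c1 c2 c3 c4
  generalize Γ.h * g2 * Γ.h⁻¹ = g3 at b1 b2 b3 b4
  have h3 : ∀ x : G, g2 * g3 * g4 * x * (g2 * g3 * g4)⁻¹ = g2 * (g3 * (g4 * x * g4⁻¹) * g3⁻¹) * g2⁻¹ :=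
    fun x => by group
  obtain ⟨d', hd', κ, hκ, -, e4⟩ := Γ.cenY (c := g2 * g3 * g4) (Lng.fix.1 (by
    rw [h3, c2, Lng.cj_mul g3 Γ.t, b2, Lng.fix.2 (b1 _), mul_assoc Γ.t, Γ.y_mul, Lng.cj_mul g2 Γ.t, ht2, Lng.fix.2 (hy2 _),
      mul_assoc Γ.t, Γ.y_mul, (by decide : ∀ η : F4, η + (v * η + v * (v * η)) = 0) η, Γ.q_zero, mul_one]))
    fun s => Lng.fix.1 (by rw [h3, Lng.fix.2 (c1 _), Lng.fix.2 (b1 _), Lng.fix.2 (hy2 _)])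
  have κU : κ ∈ normalizer (Γ.U : Set G) :=
    centralizer_le_normalizer _ (centralizer_le (SetLike.coe_subset_coe.2 Γ.U_le_A) hκ)
  obtain ⟨z', hz', s', hs', e5⟩ := Lng.bo Γ hd' (by
    rw [show d' = g2 * g3 * g4 * κ⁻¹ by rw [e4]; group]
    exact mul_mem (mul_mem (mul_mem gU b3) c3) (inv_mem κU))
  have e6 : g2 * g3 * g4 * Γ.k * (g2 * g3 * g4)⁻¹ = Γ.k⁻¹ := by
    rw [h3, c4, show g3 * Γ.k⁻¹ * g3⁻¹ = (g3 * Γ.k * g3⁻¹)⁻¹ by group, b4, inv_inv, e3]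
  have e7 : z' * Γ.k * z'⁻¹ = Γ.k⁻¹ := by
    rw [← e6, e4, e5]
    calc _ = z' * (Γ.kk s' * (κ * Γ.k * κ⁻¹) * (Γ.kk s')⁻¹) * z'⁻¹ := by
          rw [Lng.fix.2 (Γ.cK Γ.kA hκ).symm, Lng.fix.2 (Lng.kk_comm Γ rfl s').symm]
      _ = _ := by group
  refine Γ.k_ne ?_
  have e8 : Γ.k = z' * (Γ.k * z'⁻¹ * Γ.k⁻¹) := by
    calc Γ.k = Γ.k⁻¹ * Γ.k⁻¹ * Γ.k ^ 3 := by group
      _ = z' * Γ.k * z'⁻¹ * Γ.k⁻¹ := by rw [Γ.k3, e7, mul_one]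
      _ = _ := by group
  rw [e8]; exact mul_mem hz' (conj_mem kU (inv_mem hz'))

/-- PROOF. Call `z` free if `z² = 1` and `z * (k z k⁻¹) = k² z k⁻²`.  In coordinates a free `z = q b c d e y * x a`
with `a ≠ 0` is `xb β * x a * (xb β)⁻¹` (`β = c / a`; `xb β * x a * (xb β)⁻¹ = q 0 (aβ) (a²β) (a³β) (..) * x a`); compute
both equations with `qx_mul`, `x_q`, `k_q`, `k_x`, `q_mul`, `u_inj`, `q_inj` and `decide`.  `g (x 1) g⁻¹ ∈ U` is free and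
not in `Q` (`normQ_of_D`, `x_eq_zero`); conjugate by powers of `k` (`xb β` commutes with `k`). -/
theorem scale_x {g : G} (hD : g ∈ normalizer (Γ.D : Set G)) (hU : g ∈ normalizer (Γ.U : Set G))
    (hk : g * Γ.k = Γ.k * g) : ∃ β μ, μ ≠ 0 ∧ ∀ a,
      Γ.q β 0 0 0 0 * g * Γ.x a * (Γ.q β 0 0 0 0 * g)⁻¹ = Γ.x (μ * a) := by
  have w0 : w ≠ 0 := by decide
  have v0 : v ≠ 0 := by decide
  obtain ⟨b, c, d, e, y, a, hz⟩ := conj_mem hU (Γ.xU 1)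
  have a0 : a ≠ 0 := by
    rintro rfl
    have := conj_mem' (Γ.normQ_of_D hD hU) (Γ.qQ b c d e y)
    rw [Γ.x_zero, mul_one] at hz
    rw [← hz] at this
    exact one_ne_zero (Γ.x_eq_zero (by simpa [mul_assoc] using this))
  obtain ⟨f1, f2⟩ := Lng.free Γ hk (Γ.x_sq 1) (by rw [Γ.kk_x w0, Γ.kk_x v0, Γ.x_mul]; rfl)
  rw [hz] at f1 f2
  rw [Lng.cj_mul, Lng.cj_mul, Γ.kk_q w0, Γ.kk_q v0, Γ.kk_x w0, Γ.kk_x v0, Γ.qx_mul, Γ.x_q, Γ.q_mul] at f2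
  rw [Γ.qx_mul, Γ.x_q, Γ.q_mul, aa a, Γ.x_zero, mul_one, Γ.q_eq_one] at f1
  have f3 := Γ.q_inj (Γ.u_inj (Γ.qQ ..) (Γ.qQ ..) f2).1
  have key : Γ.q (c / a) 0 0 0 0 * g * Γ.x 1 * (Γ.q (c / a) 0 0 0 0 * g)⁻¹ = Γ.x a := by
    calc _ = Γ.q (c / a) 0 0 0 0 * (g * Γ.x 1 * g⁻¹) * (Γ.q (c / a) 0 0 0 0)⁻¹ := by group
      _ = _ := by
        rw [hz, Γ.q_inv, ← mul_assoc, Γ.q_mul, mul_assoc, Γ.x_mul_q, ← mul_assoc, Γ.q_mul, mul_eq_right, Γ.q_eq_one]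
        clear hz f2
        revert b c d e y a; decide +kernel
  have hk' : Γ.q (c / a) 0 0 0 0 * g * Γ.k = Γ.k * (Γ.q (c / a) 0 0 0 0 * g) := by
    rw [mul_assoc, hk, ← mul_assoc, ← mul_assoc, mul_left_inj, eq_comm, ← Lng.fix, Γ.k_q]; simp
  refine ⟨c / a, a, a0, fun a' => ?_⟩
  rcases eq_or_ne a' 0 with rfl | h0
  · simp [Γ.x_zero]
  have h2 := pow_ne_zero 2 h0
  have e1 : Γ.x a' = Γ.kk (a' ^ 2) * Γ.x 1 * (Γ.kk (a' ^ 2))⁻¹ := by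
    rw [Γ.kk_x h2]; congr 1; clear h2 h0; revert a'; decide
  rw [e1, Lng.swap (Lng.kk_comm Γ hk' _), key, Γ.kk_x h2]; congr 1
  exact (by decide : ∀ a a' : F4, (a' ^ 2) ^ 2 * a = a * a') a a'

/-- PROOF. A free element of `Q` is `xc γ` or `xd δ`.  So the images of `xc 1`, `xd 1` (in `Q`, do not commute) are
`xc γ, xd δ` or `xd δ, xc γ`; images of the other elements by conjugation with `k`.  The second case is impossible: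
`[xc 1, xd 1] = y 1` gives `γ δ = 1` and `[xc 1, xd w] = y w` has image `[xd δ, xc (vγ)] = y v`. -/
theorem scale_cd {g : G} (hQ : g ∈ normalizer (Γ.Q : Set G))
    (hy : ∀ s, g * Γ.q 0 0 0 0 s = Γ.q 0 0 0 0 s * g) (hk : g * Γ.k = Γ.k * g) :
    ∃ γ δ, γ ≠ 0 ∧ δ ≠ 0 ∧ (∀ c, g * Γ.q 0 c 0 0 0 * g⁻¹ = Γ.q 0 (γ * c) 0 0 0) ∧
      ∀ d, g * Γ.q 0 0 d 0 0 * g⁻¹ = Γ.q 0 0 (δ * d) 0 0 := by
  have w0 : w ≠ 0 := by decide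
  have v0 : v ≠ 0 := by decide
  have fr : ∀ c d, c * d = 0 → ∃ c' d', c' * d' = 0 ∧ g * Γ.q 0 c d 0 0 * g⁻¹ = Γ.q 0 c' d' 0 0 := fun c d h => by
    obtain ⟨b', c', d', e', y', hz⟩ := conj_mem hQ (Γ.qQ 0 c d 0 0)
    obtain ⟨f1, f2⟩ := Lng.free Γ hk (z := Γ.q 0 c d 0 0) (by rw [Γ.q_sq, Γ.y_eq_one]; simpa [mul_comm] using h)
      (by rw [Γ.kk_q w0, Γ.kk_q v0, Γ.q_mul, Γ.q_eq]; clear hz; revert c d; decide)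
    rw [hz] at f1 f2
    rw [Γ.kk_q w0, Γ.kk_q v0, Γ.q_mul, Γ.q_eq] at f2
    rw [Γ.q_sq, Γ.y_eq_one] at f1
    obtain ⟨rfl, rfl, rfl, h'⟩ : b' = 0 ∧ e' = 0 ∧ y' = 0 ∧ c' * d' = 0 := by
      clear hz; revert b' c' d' e' y'; decide +kernel
    exact ⟨c', d', h', hz⟩
  obtain ⟨c1, d1, h1, e1⟩ := fr 1 0 (by simp)
  obtain ⟨c2, d2, h2, e2⟩ := fr 0 1 (by simp)
  have sc : ∀ s, s ≠ 0 → g * Γ.q 0 (s ^ 2) 0 0 0 * g⁻¹ = Γ.q 0 (s ^ 2 * c1) (s * d1) 0 0 := fun s hs => by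
    rw [← Γ.kk_q hs, ← e1, ← Lng.swap (Lng.kk_comm Γ hk s), Γ.kk_q hs]; simp
  have sd : ∀ s, s ≠ 0 → g * Γ.q 0 0 s 0 0 * g⁻¹ = Γ.q 0 (s ^ 2 * c2) (s * d2) 0 0 := fun s hs => by
    rw [← Γ.kk_q hs, ← e2, ← Lng.swap (Lng.kk_comm Γ hk s), Γ.kk_q hs]; simp
  have cm : ∀ s, s ≠ 0 → d1 * (s ^ 2 * c2) + s * d2 * c1 = s := fun s hs => by
    have e : Γ.q 0 1 0 0 0 * Γ.q 0 0 s 0 0 * (Γ.q 0 1 0 0 0)⁻¹ = Γ.q 0 0 s 0 0 * Γ.q 0 0 0 0 s := by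
      rw [Γ.q_conj, Γ.q_mul_y]; simp
    have e' : g * Γ.q 0 1 0 0 0 * g⁻¹ * (g * Γ.q 0 0 s 0 0 * g⁻¹) * (g * Γ.q 0 1 0 0 0 * g⁻¹)⁻¹ =
        g * Γ.q 0 0 s 0 0 * g⁻¹ * (g * Γ.q 0 0 0 0 s * g⁻¹) := by rw [← Lng.cj_mul g _ (Γ.q 0 0 0 0 s), ← e]; group
    rw [e1, sd s hs, Lng.fix.2 (hy s), Γ.q_conj, Γ.q_mul_y] at e'
    simpa using (Γ.q_inj e').2.2.2.2
  obtain ⟨rfl, rfl, n1, n2⟩ : d1 = 0 ∧ c2 = 0 ∧ c1 ≠ 0 ∧ d2 ≠ 0 := by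
    have k1 := cm 1 one_ne_zero
    have k2 := cm w w0
    clear cm sc sd e1 e2 fr
    revert c1 d1 c2 d2; decide +kernel
  refine ⟨c1, d2, n1, n2, fun c => ?_, fun d => ?_⟩
  · rcases eq_or_ne c 0 with rfl | h0
    · simp [Γ.q_zero]
    · have := sc _ (pow_ne_zero 2 h0)
      rwa [(by decide : ∀ c : F4, (c ^ 2) ^ 2 = c) c, mul_zero, mul_comm c] at this
  · rcases eq_or_ne d 0 with rfl | h0
    · simp [Γ.q_zero]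
    · rw [sd d h0, mul_zero, mul_comm d]

/-- PROOF. `g` from `exists_tr`, `exists_tr_k`; `g₁ = xb β * g` from `scale_x`.  `g₁` normalises `F⁻ = n F n`
(`g₁ (q b 0 0 0 y) g₁⁻¹ ∈ Q` commutes with `k`, so is `q b' 0 0 e' y'`, an involution so `e' b' = 0`, not in `F` if
`b ≠ 0` since `g₁ ∈ N(F)`), hence `n g₁ n⁻¹` normalises `F`, `D`, so `U` (`normU_of_F`), and centralises `k`;
`scale_x`: `g₂ = xe β' * g₁` scales `n (x a) n⁻¹`, and still scales `x a` (`xe` commutes with `x a`); `scale_cd` for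
`g₂`.  `g₂³` centralises `x a`, `n x 1 n`, `xc`, `xd` (`μ³ = 1`), hence `D` (`D_le'`), and `g₂³ t g₂⁻³ = t y η`.
Conjugate by `hh s` (normalises `D`: `h_D`) to make `η = 1`. -/
theorem exists_w (hty : ∃ g, g * Γ.t * g⁻¹ = Γ.t * Γ.q 0 0 0 0 1) :
    ∃ g, (∀ d ∈ Γ.D, d * g = g * d) ∧ g * Γ.t * g⁻¹ = Γ.t * Γ.q 0 0 0 0 1 := by
  obtain ⟨g0, η, η0, y0, t0⟩ := Γ.exists_tr hty
  obtain ⟨g, hy, ht, gU, hk⟩ := Γ.exists_tr_k y0 t0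
  have step : ∀ {g z : G}, z ∈ Γ.Q → z * Γ.k = Γ.k * z → ((∀ s, g * Γ.q 0 0 0 0 s = Γ.q 0 0 0 0 s * g) ∧
      g * Γ.t * g⁻¹ = Γ.t * Γ.q 0 0 0 0 η ∧ g ∈ normalizer (Γ.U : Set G) ∧ g * Γ.k = Γ.k * g) →
      ((∀ s, z * g * Γ.q 0 0 0 0 s = Γ.q 0 0 0 0 s * (z * g)) ∧
      z * g * Γ.t * (z * g)⁻¹ = Γ.t * Γ.q 0 0 0 0 η ∧ z * g ∈ normalizer (Γ.U : Set G) ∧
      z * g * Γ.k = Γ.k * (z * g)) := fun {g z} hz zk ⟨a1, a2, a3, a4⟩ =>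
    ⟨fun s => by rw [mul_assoc, a1, ← mul_assoc, Γ.D_y (Γ.Q_le_D hz), mul_assoc], by
      rw [← Lng.fix.2 (Γ.D_ty (Γ.Q_le_D hz) η), ← a2]; group, mul_mem (le_normalizer (Γ.Q_le_U hz)) a3,
      by rw [mul_assoc, a4, ← mul_assoc, zk, mul_assoc]⟩
  have qk : ∀ b e, Γ.q b 0 0 e 0 * Γ.k = Γ.k * Γ.q b 0 0 e 0 := fun b e => by
    rw [eq_comm, ← Lng.fix, Γ.k_q]; simp
  obtain ⟨β, μ, μ0, hx⟩ := Γ.scale_x (Γ.normD' (Lng.normY Γ hy) ht) gU hk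
  obtain ⟨y1, t1, U1, k1⟩ := step (Γ.qQ β 0 0 0 0) (qk β 0) ⟨hy, ht, gU, hk⟩
  generalize Γ.q β 0 0 0 0 * g = g1 at hx y1 t1 U1 k1
  have D1 := Γ.normD' (Lng.normY Γ y1) t1
  have nD : Γ.n * g1 * Γ.n⁻¹ ∈ normalizer (Γ.D : Set G) :=
    mul_mem (mul_mem (le_normalizer Γ.nD) D1) (inv_mem (le_normalizer Γ.nD))
  have nF : Γ.n * g1 * Γ.n⁻¹ ∈ normalizer (Γ.F : Set G) := mem_norm_of (by
    rintro _ ⟨e, y, rfl⟩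
    have e0 : Γ.q 0 0 0 e y = Γ.n * Γ.q e 0 0 0 y * Γ.n⁻¹ := by rw [Γ.n_q]; simp
    obtain ⟨b', c', d', e', y', hz⟩ := conj_mem (Γ.normQ_of_D D1 U1) (Γ.qQ e 0 0 0 y)
    have f1 : Γ.k * Γ.q b' c' d' e' y' * Γ.k⁻¹ = Γ.q b' c' d' e' y' := by
      rw [← hz, ← Lng.swap k1, Γ.k_q]; simp
    have f2 : Γ.q b' c' d' e' y' * Γ.q b' c' d' e' y' = 1 := by
      rw [← hz, ← Lng.cj_mul, Γ.q_sq]; simp [Γ.q_zero]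
    rw [Γ.k_q, Γ.q_eq] at f1
    rw [Γ.q_sq, Γ.y_eq_one] at f2
    obtain ⟨rfl, rfl, h⟩ : c' = 0 ∧ d' = 0 ∧ (e' = 0 ∨ b' = 0) := by
      clear hz; revert b' c' d' e' y'; decide +kernel
    rw [e0, show Γ.n * g1 * Γ.n⁻¹ * (Γ.n * Γ.q e 0 0 0 y * Γ.n⁻¹) * (Γ.n * g1 * Γ.n⁻¹)⁻¹ =
      Γ.n * (g1 * Γ.q e 0 0 0 y * g1⁻¹) * Γ.n⁻¹ by group]
    rcases h with rfl | rfl
    · rw [hz, Γ.n_q]; exact Γ.qF ..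
    · have := conj_mem' (Γ.normF_of_U U1) (Γ.qF e' y')
      rw [← hz] at this
      obtain rfl : e = 0 := (Γ.q_mem_F.1 (by simpa [mul_assoc] using this)).1
      rw [Lng.fix.2 (y1 y), Lng.fix.2 (Γ.n_y y)]; exact Γ.qF ..)
  have nk : Γ.n * g1 * Γ.n⁻¹ * Γ.k = Γ.k * (Γ.n * g1 * Γ.n⁻¹) := by
    have e : Γ.k = Γ.n * Γ.k⁻¹ * Γ.n⁻¹ := by
      rw [← inv_inj, show (Γ.n * Γ.k⁻¹ * Γ.n⁻¹)⁻¹ = Γ.n * Γ.k * Γ.n⁻¹ by group, Γ.n_k]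
    rw [e, ← Lng.cj_mul, ← Lng.cj_mul, (Commute.inv_right k1).eq]
  obtain ⟨β', μ', μ0', hx'⟩ := Γ.scale_x nD (Γ.normU_of_F nD nF) nk
  obtain ⟨y2, t2, U2, k2⟩ := step (Γ.qQ 0 0 0 β' 0) (qk 0 β') ⟨y1, t1, U1, k1⟩
  have x2 : ∀ a, Γ.q 0 0 0 β' 0 * g1 * Γ.x a * (Γ.q 0 0 0 β' 0 * g1)⁻¹ = Γ.x (μ * a) := fun a => by
    calc _ = Γ.q 0 0 0 β' 0 * (g1 * Γ.x a * g1⁻¹) * (Γ.q 0 0 0 β' 0)⁻¹ := by group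
      _ = _ := by rw [hx, Lng.fix, Γ.x_mul_q]; simp
  have n2 : ∀ a, Γ.q 0 0 0 β' 0 * g1 * (Γ.n⁻¹ * Γ.x a * Γ.n) * (Γ.q 0 0 0 β' 0 * g1)⁻¹ =
      Γ.n⁻¹ * Γ.x (μ' * a) * Γ.n := fun a => by
    have e : Γ.q β' 0 0 0 0 = Γ.n * Γ.q 0 0 0 β' 0 * Γ.n⁻¹ := by rw [Γ.n_q]; simp
    rw [← hx', e]; group
  generalize Γ.q 0 0 0 β' 0 * g1 = g2 at x2 n2 y2 t2 U2 k2
  obtain ⟨γ, δ, γ0, δ0, c2, d2⟩ := Γ.scale_cd (Γ.normQ_of_D (Γ.normD' (Lng.normY Γ y2) t2) U2) y2 k2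
  have h3 : ∀ x : G, g2 ^ 3 * x * (g2 ^ 3)⁻¹ = g2 * (g2 * (g2 * x * g2⁻¹) * g2⁻¹) * g2⁻¹ := fun x => by
    rw [pow_three]; group
  have cu : ∀ s a : F4, s ≠ 0 → s * (s * (s * a)) = a := by decide
  have cD : Γ.D ≤ centralizer {g2 ^ 3} := by
    refine Γ.D_le' (fun a => ?_) ?_ (fun a => ?_) (fun a => ?_) <;>
      refine mem_centralizer_singleton_iff.2 (Lng.fix.1 ?_).symm
    · rw [h3, x2, x2, x2, cu _ _ μ0]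
    · nth_rw 1 3 [← Γ.n_inv]
      rw [h3, n2, n2, n2, cu _ _ μ0']
    · rw [h3, c2, c2, c2, cu _ _ γ0]
    · rw [h3, d2, d2, d2, cu _ _ δ0]
  have t3 : g2 ^ 3 * Γ.t * (g2 ^ 3)⁻¹ = Γ.t * Γ.q 0 0 0 0 η := by
    rw [h3, t2, Lng.cj_mul g2 Γ.t, t2, Lng.fix.2 (y2 _), mul_assoc Γ.t, Γ.y_sq, mul_one, t2]
  have hD : ∀ s, Γ.hh s ∈ normalizer (Γ.D : Set G) := fun s => by
    have h : Γ.h ∈ normalizer (Γ.D : Set G) := mem_norm_of fun _ => Γ.h_D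
    cases s; exacts [one_mem _, one_mem _, h, mul_mem h h]
  refine ⟨Γ.hh η * g2 ^ 3 * (Γ.hh η)⁻¹, fun d hd => ?_, ?_⟩
  · have := mem_centralizer_singleton_iff.1 (cD (conj_mem' (hD η) hd))
    calc _ = Γ.hh η * ((Γ.hh η)⁻¹ * d * Γ.hh η * g2 ^ 3) * (Γ.hh η)⁻¹ := by group
      _ = _ := by rw [this]; group
  · have e := Γ.hh_y η0 η
    rw [(by decide : ∀ η : F4, η ≠ 0 → η ^ 2 * η = 1) η η0] at e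
    rw [← e]
    conv_lhs => rw [← Γ.conj_t (Γ.hhA η)]
    conv_rhs => rw [← Γ.conj_t (Γ.hhA η), ← Lng.cj_mul, ← t3]
    group

end Su

end CL.G2C
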