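import Cfsg.Agent.INV.G2C.Api

/-! # G2C/Zs : `t ~ t y` and `⟨t⟩` is Sylow in `C_K(t)` -/

set_option autoImplicit false
open Subgroup CL.MSS

namespace CL.G2C

open F4

universe u

variable {G : Type u} [Group G] [Finite G]

namespace Su

variable (Γ : Su G)

namespace Zs

omit [Finite G]

theorem cj_mul (g a b : G) : g * (a * b) * g⁻¹ = g * a * g⁻¹ * (g * b * g⁻¹) := by group
theorem fix {g a : G} : g * a * g⁻¹ = a ↔ g * a = a * g := mul_inv_eq_iff_eq_mul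

theorem lg {a a' g : G} (ha' : a' ∈ Γ.A) (e : a' * a * a'⁻¹ = Γ.q 0 0 0 0 1) (h : g * Γ.t * g⁻¹ = Γ.t * a) :
    ∃ g, g * Γ.t * g⁻¹ = Γ.t * Γ.q 0 0 0 0 1 :=
  ⟨a' * g, by
    rw [← e]; conv_rhs => rw [← Γ.conj_t ha', ← cj_mul, ← h]
    group⟩

theorem ny (g : G) : g * Γ.t * g⁻¹ ≠ Γ.q 0 0 0 0 1 := fun e => Γ.t_nA (by
  have := Γ.DA (g := g) (fun d hd => by rw [e]; exact Γ.D_y hd 1) (Γ.qD 0 0 0 0 1)
  rw [← e] at this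
  simpa [mul_assoc] using this)

theorem cen {g : G} (hg : g ∈ Γ.A) (h : g * Γ.q 0 0 1 0 0 = Γ.q 0 0 1 0 0 * g) :
    ∃ c d, g = c * Γ.q 0 0 d 0 0 ∧ c * Γ.k = Γ.k * c ∧ ∀ s, c * Γ.q 0 0 s 0 0 = Γ.q 0 0 s 0 0 * c := by
  obtain ⟨d, e⟩ := Γ.cen2 g hg h
  refine ⟨_, d, by rw [mul_assoc, Γ.q_sq]; simp [Γ.q_zero], e, fun s => ?_⟩
  have h1 : g * Γ.q 0 0 d 0 0 * Γ.q 0 0 1 0 0 = Γ.q 0 0 1 0 0 * (g * Γ.q 0 0 d 0 0) := by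
    rw [mul_assoc, Γ.q_comm_iff.2 (by simp), ← mul_assoc, h, mul_assoc]
  generalize g * Γ.q 0 0 d 0 0 = c at e h1
  have h2 : Commute c Γ.k := e
  have h3 : ∀ s, Commute c (Γ.kk s) := fun s => by
    cases s; exacts [Commute.one_right c, Commute.one_right c, h2, h2.mul_right h2]
  rcases eq_or_ne s 0 with rfl | hs
  · simp [Γ.q_zero]
  · have := Γ.kk_q hs 0 0 1 0 0
    rw [mul_zero, mul_one] at this
    rw [← this]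
    exact ((h3 s).mul_right h1).mul_right (h3 s).inv_right

theorem sh {κ g : G} (hκ : κ ∈ Γ.K) (e : g * Γ.t * g⁻¹ = κ * Γ.q 0 0 1 0 0) :
    ∃ g, g * Γ.t * g⁻¹ = Γ.t * Γ.q 0 0 0 0 1 := by
  have cu : ∀ {a}, a ∈ Γ.A → a * Γ.q 0 0 1 0 0 = Γ.q 0 0 1 0 0 * a →
      a * (g * Γ.t * g⁻¹) = g * Γ.t * g⁻¹ * a := fun {a} ha h => by
    rw [e, ← mul_assoc, Γ.cK ha hκ, mul_assoc, h, mul_assoc]
  have jq : ∀ b c d e y, Γ.h * Γ.kk v * Γ.q b c d e y * (Γ.h * Γ.kk v)⁻¹ =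
      Γ.q (w * b) (w * (v ^ 2 * c)) (w * (v * d)) (w * e) (v * y) := fun b c d e y => by
    rw [← Γ.h_q, ← Γ.kk_q (by decide)]; group
  have j3 : (Γ.h * Γ.kk v) ^ 3 = 1 := by
    have c : Commute Γ.h Γ.k := Γ.hk
    rw [Γ.kk_v, (c.mul_right c).mul_pow, Γ.h3, (Commute.refl _).mul_pow, Γ.k3]; simp
  have jA := mul_mem Γ.hA (Γ.kkA v)
  have jc := cu jA (fix.1 (by rw [jq]; congr 1))
  generalize Γ.h * Γ.kk v = j at jq j3 jA jc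
  have j2 : ∀ z, j * j * z * (j * j)⁻¹ = j * (j * z * j⁻¹) * j⁻¹ := fun z => by group
  have hb := Γ.l0' (cu (Γ.qA 1 0 0 0 0) (Γ.q_comm_iff.2 (by simp))) jc j3 (by simp [Γ.q_sq, Γ.q_zero])
    (by rw [jq, Γ.q_comm_iff]; simp) (by rw [j2, jq, jq, Γ.q_mul, Γ.q_eq]; decide)
  have he := Γ.l0' (cu (Γ.qA 0 0 0 1 0) (Γ.q_comm_iff.2 (by simp))) jc j3 (by simp [Γ.q_sq, Γ.q_zero])
    (by rw [jq, Γ.q_comm_iff]; simp) (by rw [j2, jq, jq, Γ.q_mul, Γ.q_eq]; decide)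
  have e0 : Γ.q 0 0 0 0 1 = Γ.q 1 0 0 0 0 * Γ.q 0 0 0 1 0 * (Γ.q 1 0 0 0 0)⁻¹ * (Γ.q 0 0 0 1 0)⁻¹ := by
    rw [Γ.q_conj, Γ.q_inv, Γ.q_mul, Γ.q_eq]; decide
  have e1 : ∀ a : G, a * Γ.q 0 0 0 0 1 * a⁻¹ = a * Γ.q 1 0 0 0 0 * a⁻¹ * (a * Γ.q 0 0 0 1 0 * a⁻¹) *
      (a * Γ.q 1 0 0 0 0 * a⁻¹)⁻¹ * (a * Γ.q 0 0 0 1 0 * a⁻¹)⁻¹ := fun a => by rw [e0]; group
  have hy : g⁻¹ * Γ.q 0 0 0 0 1 * g ∈ Γ.A := by
    have := e1 g⁻¹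
    rw [inv_inv] at this
    rw [this]; exact mul_mem (mul_mem (mul_mem hb he) (inv_mem hb)) (inv_mem he)
  obtain ⟨a, ha, h | h⟩ := Γ.inv _ hy (by
      rw [show ∀ x, g⁻¹ * x * g * (g⁻¹ * x * g) = g⁻¹ * (x * x) * g from fun x => by group, Γ.y_sq]; group)
    (fun h => one_ne_zero (Γ.y_eq_one.1 (by
      calc _ = g * (g⁻¹ * Γ.q 0 0 0 0 1 * g) * g⁻¹ := by group
        _ = 1 := by rw [h]; group)))
  · refine lg Γ ha h (g := g⁻¹ * Γ.q 0 1 0 0 0 * g) ?_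
    have : Γ.q 0 1 0 0 0 * (g * Γ.t * g⁻¹) * (Γ.q 0 1 0 0 0)⁻¹ = g * Γ.t * g⁻¹ * Γ.q 0 0 0 0 1 := by
      rw [e, cj_mul, fix.2 (Γ.cK (Γ.qA ..) hκ), Γ.q_conj, mul_assoc, Γ.q_mul_y]; simp
    calc _ = g⁻¹ * (Γ.q 0 1 0 0 0 * (g * Γ.t * g⁻¹) * (Γ.q 0 1 0 0 0)⁻¹) * g := by group
      _ = _ := by rw [this]; group
  exfalso
  have h' : a * g⁻¹ * Γ.q 0 0 0 0 1 * (a * g⁻¹)⁻¹ = Γ.q 0 0 1 0 0 := by rw [← h]; group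
  have m : ∀ {x}, g⁻¹ * x * g ∈ Γ.A → a * g⁻¹ * x * (a * g⁻¹)⁻¹ ∈ Γ.A := fun {x} hx => by
    have := mul_mem (mul_mem ha hx) (inv_mem ha)
    rwa [show a * (g⁻¹ * x * g) * a⁻¹ = a * g⁻¹ * x * (a * g⁻¹)⁻¹ by group] at this
  obtain ⟨c1, d1, p1, k1, q1⟩ := cen Γ (m hb) (by rw [← h', ← cj_mul, ← cj_mul, Γ.q_y])
  obtain ⟨c2, d2, p2, k2, q2⟩ := cen Γ (m he) (by rw [← h', ← cj_mul, ← cj_mul, Γ.q_y])
  have e2 := e1 (a * g⁻¹)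
  rw [h', p1, p2] at e2
  have e3 : Γ.q 0 0 1 0 0 = c1 * c2 * c1⁻¹ * c2⁻¹ := by
    have c : Γ.q 0 0 d1 0 0 * (c2 * Γ.q 0 0 d2 0 0) * (Γ.q 0 0 d1 0 0)⁻¹ = Γ.q 0 0 d2 0 0 * c2 := by
      rw [cj_mul, fix.2 (q2 d1).symm, fix.2 (Γ.q_comm_iff.2 (by simp)), q2]
    rw [e2]
    calc _ = c1 * (Γ.q 0 0 d1 0 0 * (c2 * Γ.q 0 0 d2 0 0) * (Γ.q 0 0 d1 0 0)⁻¹) * c1⁻¹ *
          (c2 * Γ.q 0 0 d2 0 0)⁻¹ := by group
      _ = (c1 * Γ.q 0 0 d2 0 0) * c2 * c1⁻¹ * (c2 * Γ.q 0 0 d2 0 0)⁻¹ := by rw [c]; group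
      _ = Γ.q 0 0 d2 0 0 * (c1 * c2 * c1⁻¹) * (Γ.q 0 0 d2 0 0)⁻¹ * c2⁻¹ := by rw [q1]; group
      _ = _ := by
        have a1 : Commute (Γ.q 0 0 d2 0 0) c1 := (q1 d2).symm
        have a2 : Commute (Γ.q 0 0 d2 0 0) c2 := (q2 d2).symm
        rw [fix.2 ((a1.mul_right a2).mul_right a1.inv_right).eq]
  have a1 : Commute Γ.k c1 := k1.symm
  have a2 : Commute Γ.k c2 := k2.symm
  have := fix.2 (((a1.mul_right a2).mul_right a1.inv_right).mul_right a2.inv_right).eq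
  rw [← e3, Γ.k_q, Γ.q_eq] at this
  exact absurd this (by decide)

theorem inn {g : G} (h1 : g * Γ.t * g⁻¹ ≠ Γ.t) (h2 : g * Γ.t * g⁻¹ * Γ.t = Γ.t * (g * Γ.t * g⁻¹))
    (h3 : Γ.In (g * Γ.t * g⁻¹)) : ∃ g, g * Γ.t * g⁻¹ = Γ.t * Γ.q 0 0 0 0 1 := by
  have uu : g * Γ.t * g⁻¹ * (g * Γ.t * g⁻¹) = 1 := by rw [← cj_mul, Γ.tt]; group
  rcases Γ.in_inv h3 h2 uu with h | h
  · obtain ⟨a, ha, e | e⟩ := Γ.inv _ h uu (by simpa using Γ.t1)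
    · exact absurd (by rw [← e]; group) (ny Γ (a * g))
    · exact sh Γ (one_mem _) (g := a * g) (by rw [← e]; group)
  · have e0 : g * Γ.t * g⁻¹ = Γ.t * (Γ.t * (g * Γ.t * g⁻¹)) := by rw [← mul_assoc, Γ.tt, one_mul]
    obtain ⟨a, ha, e | e⟩ := Γ.inv _ h (by rw [mul_assoc, ← mul_assoc _ Γ.t, h2, mul_assoc, uu, mul_one, Γ.tt])
      (fun e => h1 (by rw [e0, e, mul_one]))
    · exact lg Γ ha e e0
    · refine sh Γ Γ.tK (g := a * g) ?_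
      rw [← e]; conv_rhs => rw [← Γ.conj_t ha, ← cj_mul, Γ.conj_t ha, ← e0]
      group

end Zs

open Zs in
theorem Zs.out {g : G} (h2 : g * Γ.t * g⁻¹ * Γ.t = Γ.t * (g * Γ.t * g⁻¹))
    (h3 : ¬ Γ.In (g * Γ.t * g⁻¹)) (hU : g * Γ.t * g⁻¹ ∈ normalizer (Γ.U : Set G)) :
    ∃ g, g * Γ.t * g⁻¹ = Γ.t * Γ.q 0 0 0 0 1 := by
  have uu : g * Γ.t * g⁻¹ * (g * Γ.t * g⁻¹) = 1 := by rw [← cj_mul, Γ.tt]; group
  obtain ⟨u, hu⟩ : ∃ u, u = g * Γ.t * g⁻¹ := ⟨_, rfl⟩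
  rw [← hu] at h2 h3 hU uu
  have uN := Γ.cN u h2
  have ui : u⁻¹ = u := inv_eq_of_mul_eq_one_right uu
  have FF : ∀ x ∈ Γ.F, ∀ y ∈ Γ.F, x * y = y * x := by
    rintro _ ⟨e, y, rfl⟩ _ ⟨e', y', rfl⟩; exact Γ.q_comm_iff.2 (by simp)
  have F2 : ∀ x ∈ Γ.F, x * x = 1 := by rintro _ ⟨e, y, rfl⟩; simp [Γ.q_sq, Γ.q_zero]
  have uF := Γ.normF_of_U hU
  have cu : ∀ x ∈ Γ.F, u * x * u⁻¹ * x * u = u * (u * x * u⁻¹ * x) := fun x hx => by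
    calc u * x * u⁻¹ * x * u = x * (u * x * u⁻¹) * u := by rw [FF _ (conj_mem uF hx) x hx]
      _ = x * u * x := by group
      _ = u * u * x * u * x := by rw [uu, one_mul]
      _ = _ := by rw [ui]; simp only [mul_assoc]
  have key : ∀ x ∈ Γ.F, u * x * u⁻¹ * x ≠ 1 → Γ.In (g⁻¹ * (u * x * u⁻¹ * x) * g) →
      ∃ g, g * Γ.t * g⁻¹ = Γ.t * Γ.q 0 0 0 0 1 := fun x hx h1 hi => by
    have e : g⁻¹ * x * g * Γ.t * (g⁻¹ * x * g)⁻¹ = Γ.t * (g⁻¹ * (u * x * u⁻¹ * x) * g) := by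
      calc _ = g⁻¹ * (x * u * x⁻¹) * g := by rw [hu]; group
        _ = g⁻¹ * (u * u * x * u⁻¹ * x) * g := by rw [uu, ui, inv_eq_of_mul_eq_one_right (F2 x hx), one_mul]
        _ = _ := by nth_rw 1 [hu]; group
    have c : g⁻¹ * (u * x * u⁻¹ * x) * g * Γ.t = Γ.t * (g⁻¹ * (u * x * u⁻¹ * x) * g) := by
      calc _ = g⁻¹ * (u * x * u⁻¹ * x * (g * Γ.t * g⁻¹)) * g := by group
        _ = _ := by rw [← hu, cu x hx]; nth_rw 1 [hu]; group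
    refine inn Γ (g := g⁻¹ * x * g) ?_ ?_ ?_ <;> rw [e]
    · intro h
      rw [mul_eq_left] at h
      refine h1 ?_
      calc _ = g * (g⁻¹ * (u * x * u⁻¹ * x) * g) * g⁻¹ := by group
        _ = 1 := by rw [h]; group
    · rw [mul_assoc, c]
    · obtain ⟨a, ha, k, hk, e⟩ := hi
      exact ⟨a, ha, Γ.t * k, mul_mem Γ.tK hk, by rw [e, ← mul_assoc, ← Γ.At ha, mul_assoc]⟩
  obtain ⟨l, h1⟩ : ∃ l, u * Γ.q 0 0 0 0 l * u⁻¹ * Γ.q 0 0 0 0 l ≠ 1 := by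
    by_contra! q
    exact h3 (Γ.out u uN fun l => fix.1 (by rw [eq_inv_of_mul_eq_one_left (q l), Γ.y_inv]))
  have uY := Γ.normY_of_U hU
  have y1 : u * Γ.q 0 0 0 0 l * u⁻¹ * Γ.q 0 0 0 0 l ∈ Γ.Y := mul_mem (conj_mem uY (Γ.yY l)) (Γ.yY l)
  obtain ⟨ε, h4⟩ : ∃ ε, u * Γ.q 0 0 0 ε 0 * u⁻¹ * Γ.q 0 0 0 ε 0 ∉ Γ.Y := by
    by_contra! q
    obtain ⟨b, c, d, e, y, a, hb⟩ := conj_mem hU (Γ.qU 1 0 0 0 0)
    have hy : ∀ ε, u * Γ.q 0 0 0 0 ε * u⁻¹ = Γ.q 0 0 0 0 (ε * b) := fun ε => by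
      obtain ⟨s, hs⟩ := q ε
      have e1 : u * Γ.q 0 0 0 ε 0 * u⁻¹ = Γ.q 0 0 0 ε s := by
        rw [eq_mul_inv_of_mul_eq hs, Γ.q_inv, Γ.y_mul_q]; simp
      have e2 : Γ.q 1 0 0 0 0 * Γ.q 0 0 0 ε 0 * (Γ.q 1 0 0 0 0)⁻¹ = Γ.q 0 0 0 ε 0 * Γ.q 0 0 0 0 ε := by
        rw [Γ.q_conj, Γ.q_mul_y]; simp
      have e3 : u * Γ.q 1 0 0 0 0 * u⁻¹ * (u * Γ.q 0 0 0 ε 0 * u⁻¹) * (u * Γ.q 1 0 0 0 0 * u⁻¹)⁻¹ =
          u * Γ.q 0 0 0 ε 0 * u⁻¹ * (u * Γ.q 0 0 0 0 ε * u⁻¹) := by rw [← cj_mul u _ (Γ.q 0 0 0 0 ε), ← e2]; group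
      rw [hb, e1, Γ.u_conj] at e3
      refine mul_left_cancel (a := Γ.q 0 0 0 ε s) ?_
      rw [← e3, Γ.q_mul_y]; simp
    have b0 : b ≠ 0 := by
      rintro rfl
      have := hy 1
      simp [Γ.q_zero, Γ.y_eq_one] at this
    obtain ⟨a', ha', k, hk, e'⟩ := Γ.out (Γ.hh b * u) (mul_mem (Γ.A_le_N (Γ.hhA b)) uN) fun s => fix.1 (by
      rw [show Γ.hh b * u * Γ.q 0 0 0 0 s * (Γ.hh b * u)⁻¹ = Γ.hh b * (u * Γ.q 0 0 0 0 s * u⁻¹) * (Γ.hh b)⁻¹ by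
        group, hy, Γ.hh_y b0, (by decide : ∀ b s : F4, b ≠ 0 → b ^ 2 * (s * b) = s) b s b0])
    exact h3 ⟨_, mul_mem (inv_mem (Γ.hhA b)) ha', k, hk, by rw [mul_assoc, ← e']; group⟩
  have f1 := Γ.qF 0 l
  have f2 := Γ.qF ε 0
  have cN : ∀ x ∈ Γ.F, g⁻¹ * (u * x * u⁻¹ * x) * g ∈ Γ.N := fun x hx => Γ.conj_N (by rw [← hu]; exact cu x hx)
  rcases Γ.two _ (cN _ f1) _ (cN _ f2) with h | h | h
  · exact key _ f1 h1 h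
  · exact key _ f2 (fun e => h4 (e ▸ one_mem _)) h
  · have e : u * (Γ.q 0 0 0 0 l * Γ.q 0 0 0 ε 0) * u⁻¹ * (Γ.q 0 0 0 0 l * Γ.q 0 0 0 ε 0) =
        u * Γ.q 0 0 0 0 l * u⁻¹ * Γ.q 0 0 0 0 l * (u * Γ.q 0 0 0 ε 0 * u⁻¹ * Γ.q 0 0 0 ε 0) := by
      rw [cj_mul, mul_assoc, ← mul_assoc _ (Γ.q 0 0 0 0 l), FF _ (conj_mem uF f2) _ f1]; group
    refine key _ (mul_mem f1 f2) (fun h => h4 ?_) ?_
    · rw [e] at h; rw [eq_inv_of_mul_eq_one_right h]; exact inv_mem y1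
    · obtain ⟨a, ha, k, hk, h⟩ := h
      exact ⟨a, ha, k, hk, by rw [← h, e]; group⟩

/-- PROOF. Notation `y η = q 0 0 0 0 η`, `xb, xc, xd, xe` likewise; `TY` = the claim.
(L) if `a ∈ A`, `a' a a'⁻¹ = y 1` (`a' ∈ A`) and `t a ~ t` then `TY` (`conj_t`).
(Y) `y 1 ≠ g t g⁻¹`: `DA` (with `D_y`) gives `g⁻¹ (y 1) g = t ∈ A`, against `t_nA`.
(S) `u = κ * xd 1 = g t g⁻¹` with `κ ∈ {1, t}` gives `TY`: `j = h k⁻¹` (`j³ = 1`, `hk`) centralises `xd 1` and `t`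
and acts as `w` on `xb`, `xe`; `l0'` gives `β = g⁻¹ (xb 1) g`, `ε = g⁻¹ (xe 1) g ∈ A`, so
`η = g⁻¹ (y 1) g = [β, ε] ∈ A`, an involution commuting with `β, ε`.  `inv`: `a η a⁻¹ = y 1` or `xd 1`.  The second is
impossible: two elements `g₁, g₂ ∈ A` commuting with `xd 1` are `g_i = c_i * xd δ_i` with `c_i ∈ C(k)` (`cen2`), `c_i`
commutes with `xd 1` hence (conjugate by `k`) with all `xd δ`, so `[g₁, g₂] = [c₁, c₂] ∈ C(k) ∌ xd 1`.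
`xc 1 * u * (xc 1)⁻¹ = u * y 1` so `t η = g⁻¹ (u * y 1) g ~ t`: (L).
(I) `u = g t g⁻¹ ≠ t` commuting with `t`, `In u`: `in_inv` gives `a = u ∈ A` or `a = t u ∈ A`, `a ≠ 1`; conjugate by
`inv`: cases `y 1` (Y), `t y 1` done, `xd 1`, `t xd 1` (S).
(O) `u` from `zs`, `¬ In u`.  Conjugating by an element of `A` assume `u ∈ N(U)` (Sylow 2-subgroup `S ∋ u` of
`A ⊔ zpowers u`, `SylIn.inf_normal_of_le`, `exists_conj`).  Then `u` normalises `Y`, `F` (`normY_of_U`,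
`normF_of_U`).  `out`: some `c₁ = u (y λ) u (y λ) ≠ 1`.  Some `c₂ = u (xe ε) u (xe ε) ∉ Y`: otherwise let
`u (xb 1) u⁻¹ = q β' .. * x a` ; conjugating `xb 1 * xe ε * (xb 1)⁻¹ = xe ε * y ε` by `u` (`u_conj`) gives
`u (y ε) u⁻¹ = y (β' ε)`, `β' ≠ 0`, so `hh s * u` centralises `Y` for `s² β' = 1` (`hh_y`), is inner by `out`, so `u`
is inner.  `c₁, c₂, c₁ c₂` are nontrivial, of the form `c = u φ u φ` (`φ ∈ F`, `F` elementary abelian), commute with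
`u`, and `u c = φ u φ⁻¹ ~ t`.  By `two` (with `conj_N`) one of `g⁻¹ c g` is inner; then `g⁻¹ (u c) g = t * g⁻¹ c g` is
an inner conjugate of `t`, `≠ t`, commuting with `t`: (I). -/
theorem ty : ∃ g, g * Γ.t * g⁻¹ = Γ.t * Γ.q 0 0 0 0 1 := by
  obtain ⟨g, h1, h2⟩ := Γ.zs
  by_cases h3 : Γ.In (g * Γ.t * g⁻¹)
  · exact Zs.inn Γ h1 h2 h3
  have uu : (g * Γ.t * g⁻¹) ^ 2 ^ 1 = 1 := by rw [conj_pow, pow_one, pow_two, Γ.tt]; group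
  have uN := Γ.cN _ h2
  have hH : Γ.A ⊔ zpowers (g * Γ.t * g⁻¹) ≤ Γ.N := sup_le Γ.A_le_N (by simpa using uN)
  obtain ⟨P, hP, hu⟩ := exists_sylIn_ge (p := 2) (R := zpowers (g * Γ.t * g⁻¹)) (pg_of_pow 1 (by
    rintro _ ⟨i, rfl⟩
    rw [← zpow_natCast, ← zpow_mul, mul_comm, zpow_mul, zpow_natCast, uu, one_zpow]))
    (le_sup_right : _ ≤ Γ.A ⊔ _)
  obtain ⟨a, ha, e⟩ := (hP.inf_normal_of_le hH le_sup_left).exists_conj Γ.sylU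
  have e1 : a * g * Γ.t * (a * g)⁻¹ = a * (g * Γ.t * g⁻¹) * a⁻¹ := by group
  refine Zs.out Γ (g := a * g) ?_ ?_ ?_ <;> rw [e1]
  · nth_rw 2 3 [← Γ.conj_t ha]
    rw [← Zs.cj_mul, h2, Zs.cj_mul]
  · rintro ⟨b, hb, k, hk, e⟩
    refine h3 ⟨_, mul_mem (mul_mem (inv_mem ha) hb) ha, k, hk, ?_⟩
    calc _ = a⁻¹ * (a * (g * Γ.t * g⁻¹) * a⁻¹) * a := by group
      _ = a⁻¹ * b * (k * a) := by rw [e]; group
      _ = _ := by rw [← Γ.cK ha hk]; group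
  · rw [← e, ← cj_normalizer]
    exact conj_mem_cj (mem_norm_of fun x hx =>
      ⟨conj_mem (le_normalizer (hu (mem_zpowers _))) hx.1, conj_mem uN hx.2⟩)

/-- PROOF. `κ² ∈ K` commutes with `t`, square 1: `K_inv` gives `κ² = 1` (done by `K_inv`) or `κ² = t`.  In the second
case take `g` from `ty` and `cd` (`D_ty`): `g t g⁻¹ = t y 1`, `g ∈ N(D)`.  `κ' = g⁻¹ κ g` centralises `t` and `D`, so
`κ' = y η * κ₁` (`cenD`), `g⁻¹ t g = κ'² = κ₁² ∈ K` is an involution commuting with `t`, so `= t` (`K_inv`),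
`t y 1 = t`, false. -/
theorem two_el {κ : G} (hκ : κ ∈ Γ.K) (ht : κ * Γ.t = Γ.t * κ) (e : κ ^ 4 = 1) : κ = 1 ∨ κ = Γ.t := by
  have c : Commute κ Γ.t := ht
  rcases Γ.K_inv (mul_mem hκ hκ) (c.mul_left c) (by rw [← e]; simp [pow_succ, mul_assoc]) with h | h
  · exact Γ.K_inv hκ ht h
  exfalso
  obtain ⟨g, hg⟩ := Γ.ty
  obtain ⟨a, ha, -, -, aD⟩ := Γ.cd (g := g) fun d hd => by rw [hg]; exact Γ.D_ty hd 1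
  rw [hg] at ha
  obtain ⟨η, k, hk, kt, e1⟩ := Γ.cenD (c := a⁻¹ * κ * a) (by
      have : κ * (a * Γ.t * a⁻¹) = a * Γ.t * a⁻¹ * κ := by
        rw [ha, ← mul_assoc, ht, mul_assoc, ← Γ.cK (Γ.qA ..) hκ, mul_assoc]
      calc _ = a⁻¹ * (κ * (a * Γ.t * a⁻¹)) * a := by group
        _ = _ := by rw [this]; group) fun d hd => by
    have := Γ.cK (Γ.D_le_A (conj_mem aD hd)) hκ
    calc _ = a⁻¹ * (a * d * a⁻¹ * κ) * a := by group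
      _ = _ := by rw [this]; group
  have e2 : k * k = a⁻¹ * Γ.t * a := by
    calc k * k = Γ.q 0 0 0 0 η * Γ.q 0 0 0 0 η * k * k := by rw [Γ.y_sq, one_mul]
      _ = (Γ.q 0 0 0 0 η * k) * (Γ.q 0 0 0 0 η * k) := by
        rw [mul_assoc _ k (Γ.q 0 0 0 0 η * k), ← mul_assoc k, ← Γ.cK (Γ.qA ..) hk]; group
      _ = _ := by rw [← e1, ← h]; group
  have c' : Commute k Γ.t := kt
  rcases Γ.K_inv (mul_mem hk hk) (c'.mul_left c') (by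
    rw [e2, show a⁻¹ * Γ.t * a * (a⁻¹ * Γ.t * a) = a⁻¹ * (Γ.t * Γ.t) * a by group, Γ.tt]; group) with h' | h'
  · refine Γ.t1 ?_
    calc Γ.t = a * (a⁻¹ * Γ.t * a) * a⁻¹ := by group
      _ = 1 := by rw [← e2, h']; group
  · have : a * Γ.t * a⁻¹ = Γ.t := by nth_rw 1 [← h', e2]; group
    rw [this, left_eq_mul, Γ.y_eq_one] at ha
    exact one_ne_zero ha

end Su

end CL.G2C
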