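import Cfsg.Agent.INV.G2C.BDef
import Cfsg.Agent.INV.G2C.Zs
import Cfsg.Agent.INV.G2C.Lng

/-! # G2C/MkB : construction of `B` -/

set_option autoImplicit false
set_option linter.constructorNameAsVariable false
open Subgroup CL.MSS

namespace CL.G2C

open F4

universe u

variable {G : Type u} [Group G] [Finite G]

omit [Finite G] in
theorem MkB.odd_two {s θ : G} (ss : s * s = 1) (c : Commute s θ) (o1 : Odd (orderOf θ))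
    (o2 : Odd (orderOf (s * θ))) : s = 1 := by
  obtain ⟨k, hk⟩ := o2.mul o1
  have e : (s * θ) ^ (orderOf (s * θ) * orderOf θ) = 1 := by rw [pow_mul, pow_orderOf_eq_one, one_pow]
  rwa [c.mul_pow, mul_comm _ (orderOf θ), pow_mul θ, pow_orderOf_eq_one, one_pow, mul_one, mul_comm (orderOf θ), hk,
    pow_succ, pow_mul, pow_two, ss, one_pow, one_mul] at e

namespace Su

variable (Γ : Su G)

/-- `g` centralises `D` and translates `t` by `η` -/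
def Tr (g : G) (η : F4) : Prop := (∀ d ∈ Γ.D, d * g = g * d) ∧ g * Γ.t * g⁻¹ = Γ.t * Γ.q 0 0 0 0 η

omit [Finite G] in
theorem Tr.mul {Γ : Su G} {g g' : G} {η η' : F4} (h : Γ.Tr g η) (h' : Γ.Tr g' η') : Γ.Tr (g * g') (η + η') :=
  ⟨fun d hd => by rw [← mul_assoc, h.1 d hd, mul_assoc, h'.1 d hd, mul_assoc], by
    calc _ = g * (g' * Γ.t * g'⁻¹) * g⁻¹ := by group
      _ = _ := by rw [h'.2, ← conj_mul, h.2, ← h.1 _ (Γ.qD ..), mul_inv_cancel_right, mul_assoc, Γ.y_mul]⟩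

omit [Finite G] in
theorem Tr.inv {Γ : Su G} {g : G} {η : F4} (h : Γ.Tr g η) : Γ.Tr g⁻¹ η :=
  ⟨fun d hd => (show Commute d g from h.1 d hd).inv_right, by
    have e : Γ.t = g * (Γ.t * Γ.q 0 0 0 0 η) * g⁻¹ := by
      rw [← conj_mul, h.2, ← h.1 _ (Γ.qD ..), mul_inv_cancel_right, mul_assoc, Γ.y_sq, mul_one]
    nth_rewrite 1 [e]; group⟩

omit [Finite G] in
theorem Tr.h {Γ : Su G} {g : G} {η : F4} (h : Γ.Tr g η) : Γ.Tr (Γ.h * g * Γ.h⁻¹) (v * η) :=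
  ⟨fun d hd => by
    have m : Γ.h⁻¹ * d * Γ.h ∈ Γ.D := by
      have := Γ.h_D (Γ.h_D hd)
      rwa [show Γ.h * (Γ.h * d * Γ.h⁻¹) * Γ.h⁻¹ = Γ.h * Γ.h * d * (Γ.h * Γ.h)⁻¹ by group, ← Γ.h_inv, inv_inv] at this
    calc _ = Γ.h * (Γ.h⁻¹ * d * Γ.h * g) * Γ.h⁻¹ := by group
      _ = _ := by rw [h.1 _ m]; group, by
    calc _ = Γ.h * (g * (Γ.h⁻¹ * Γ.t * Γ.h⁻¹⁻¹) * g⁻¹) * Γ.h⁻¹ := by group
      _ = _ := by rw [Γ.conj_t (inv_mem Γ.hA), h.2, ← conj_mul, Γ.conj_t Γ.hA, Γ.h_y]⟩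

omit [Finite G] in
theorem Tr.comm {Γ : Su G} {g : G} (h : Γ.Tr g 0) : g * Γ.t = Γ.t * g := by
  have := h.2; rwa [Γ.q_zero, mul_one, mul_inv_eq_iff_eq_mul] at this

omit [Finite G] in
theorem tr_K {κ : G} (hκ : κ ∈ Γ.K) (e : κ * Γ.t = Γ.t * κ) : Γ.Tr κ 0 :=
  ⟨fun _ hd => Γ.cK (Γ.D_le_A hd) hκ, by rw [e, Γ.q_zero, mul_one, mul_inv_cancel_right]⟩

omit [Finite G] in
theorem tr_one : Γ.Tr 1 0 := Γ.tr_K (one_mem _) (by simp)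

/-- the subgroup `X₂` -/
def X2 (Θ : Subgroup G) : Subgroup G where
  carrier := {g | (∃ η, Γ.Tr g η) ∧ ∀ θ ∈ Θ, θ * g = g * θ}
  one_mem' := ⟨⟨0, Γ.tr_one⟩, by simp⟩
  mul_mem' := by
    rintro a b ⟨⟨η, h⟩, h1⟩ ⟨⟨η', h'⟩, h2⟩
    exact ⟨⟨_, h.mul h'⟩, fun θ hθ => (show Commute θ a from h1 θ hθ).mul_right (h2 θ hθ)⟩
  inv_mem' := by
    rintro a ⟨⟨η, h⟩, h1⟩
    exact ⟨⟨_, h.inv⟩, fun θ hθ => (show Commute θ a from h1 θ hθ).inv_right⟩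

/-- a 2-subgroup `W` of translations -/
theorem exists_W : ∃ Θ W : Subgroup G, Θ ≤ Γ.K ∧ (∀ θ ∈ Θ, θ * Γ.t = Γ.t * θ) ∧
    (∀ θ ∈ Θ, Odd (orderOf θ)) ∧ (∀ c ∈ Γ.K, c * Γ.t = Γ.t * c → c ∈ Θ ∨ Γ.t * c ∈ Θ) ∧ W ≤ Γ.X2 Θ ∧
    (∀ g ∈ W, Γ.h * g * Γ.h⁻¹ ∈ W) ∧ (∀ g ∈ W, ∃ η, g * g = Γ.q 0 0 0 0 η) ∧ ∃ g ∈ W, Γ.Tr g v := by
  obtain ⟨Θ, hΘ, odd, cov⟩ := odd_part (X := Γ.K ⊓ centralizer {Γ.t}) ⟨Γ.tK, mem_centralizer_singleton_iff.2 rfl⟩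
    Γ.tt Γ.t1 (fun x hx => mem_centralizer_singleton_iff.1 hx.2)
    fun x hx e => Γ.two_el hx.1 (mem_centralizer_singleton_iff.1 hx.2) e
  have ΘK : Θ ≤ Γ.K := hΘ.trans inf_le_left
  have Θt : ∀ θ ∈ Θ, θ * Γ.t = Γ.t * θ := fun θ h => mem_centralizer_singleton_iff.1 (hΘ h).2
  replace cov : ∀ c ∈ Γ.K, c * Γ.t = Γ.t * c → c ∈ Θ ∨ Γ.t * c ∈ Θ := fun c h e =>
    cov c ⟨h, mem_centralizer_singleton_iff.2 e⟩
  -- elements of `C(D) ∩ C(t)`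
  have dec {c : G} (h : Γ.Tr c 0) : ∃ s θ η, θ ∈ Θ ∧ c = s * θ ∧ s * s = 1 ∧ Commute s θ ∧
      (s = Γ.q 0 0 0 0 η ∨ s = Γ.t * Γ.q 0 0 0 0 η) := by
    obtain ⟨η, κ, hκ, e, rfl⟩ := Γ.cenD h.comm h.1
    rcases cov κ hκ e with m | m
    · exact ⟨_, κ, η, m, rfl, Γ.y_sq η, Γ.cK (Γ.qA ..) hκ, .inl rfl⟩
    · refine ⟨_, _, η, m, ?_, ?_, Commute.mul_left (Θt _ m).symm (Γ.cK (Γ.qA ..) (ΘK m)), .inr rfl⟩
      · rw [← Γ.At (Γ.qA ..), mul_assoc, ← mul_assoc Γ.t, Γ.tt, one_mul]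
      · rw [← mul_assoc, mul_assoc Γ.t, Γ.At (Γ.qA ..), ← mul_assoc, Γ.tt, one_mul, Γ.y_sq]
  obtain ⟨w₀, hw₀⟩ : ∃ g, Γ.Tr g 1 := Γ.exists_w Γ.ty
  have nΘ : ∀ θ ∈ Θ, w₀⁻¹ * θ * w₀ ∈ Θ := fun θ hθ => by
    have := (hw₀.inv.mul (Γ.tr_K (ΘK hθ) (Θt θ hθ))).mul hw₀
    rw [add_zero, aa] at this
    obtain ⟨s, θ', η, m, e, ss, c, -⟩ := dec this
    have o : Odd (orderOf (s * θ')) := by
      rw [← e, show w₀⁻¹ * θ * w₀ = MulAut.conj w₀⁻¹ θ by simp, MulEquiv.orderOf_eq]; exact odd θ hθ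
    rwa [e, MkB.odd_two ss c (odd _ m) o, one_mul]
  have hX : ∀ g ∈ Γ.X2 Θ, Γ.h * g * Γ.h⁻¹ ∈ Γ.X2 Θ := by
    rintro g ⟨⟨η, h⟩, h1⟩
    have c {θ} (hθ : θ ∈ Θ) : Commute θ Γ.h := (Γ.cK Γ.hA (ΘK hθ)).symm
    exact ⟨⟨_, h.h⟩, fun θ hθ => ((c hθ).mul_right (h1 θ hθ)).mul_right (c hθ).inv_right⟩
  have t1 : Γ.Tr (w₀ * (Γ.h * w₀⁻¹ * Γ.h⁻¹)) w := by
    have := hw₀.mul hw₀.inv.h
    rwa [(by decide : (1 : F4) + v * 1 = w)] at this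
  have w1 : w₀ * (Γ.h * w₀⁻¹ * Γ.h⁻¹) ∈ Γ.X2 Θ := ⟨⟨_, t1⟩, fun θ hθ => by
    calc _ = w₀ * (w₀⁻¹ * θ * w₀ * Γ.h) * w₀⁻¹ * Γ.h⁻¹ := by group
      _ = w₀ * Γ.h * w₀⁻¹ * (θ * Γ.h⁻¹) := by rw [← Γ.cK Γ.hA (ΘK (nΘ θ hθ))]; group
      _ = _ := by rw [← Γ.cK (inv_mem Γ.hA) (ΘK hθ)]; group⟩
  obtain ⟨W, WX, pW, all, dc⟩ := two_part (X := Γ.X2 Θ) (Z := Θ ⊓ Γ.X2 Θ) inf_le_right
    (fun z hz x hx => hx.2 z hz.1) (fun z hz => odd z hz.1) fun x hx => ⟨2, by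
      obtain ⟨η, h⟩ := hx.1
      obtain ⟨s, θ, -, m, e, ss, c, -⟩ := dec (aa η ▸ h.mul h)
      rw [show 2 ^ 2 = 2 * 2 from rfl, pow_mul, pow_two x, e, c.mul_pow, pow_two s, ss, one_mul]
      exact pow_mem m _, pow_mem hx _⟩
  have hW : ∀ g ∈ W, Γ.h * g * Γ.h⁻¹ ∈ W := fun g hg => by
    obtain ⟨n, e⟩ := pow_two_of_mem pW hg
    exact all _ (hX g (WX hg)) n (by rw [conj_pow, e]; simp)
  have L1 : ∀ g ∈ W, Γ.Tr g 0 → g * g = 1 ∧ ∃ η, g = Γ.q 0 0 0 0 η ∨ g = Γ.t * Γ.q 0 0 0 0 η := fun g hg h => by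
    obtain ⟨s, θ, η, m, rfl, ss, c, e⟩ := dec h
    obtain ⟨n, e1⟩ := pow_two_of_mem pW hg
    have e2 : (s * θ) ^ 2 ^ (n + 1) = 1 := by rw [pow_succ, pow_mul, e1, one_pow]
    rw [c.mul_pow, pow_succ', pow_mul s, pow_two s, ss, one_pow, one_mul, ← pow_succ'] at e2
    rw [eq_one_of_odd (odd θ m) e2, mul_one]
    exact ⟨ss, η, e⟩
  refine ⟨Θ, W, ΘK, Θt, odd, cov, WX, hW, fun g hg => ?_, ?_⟩
  · obtain ⟨η, h⟩ := (WX hg).1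
    obtain ⟨-, η', e | e⟩ := L1 _ (mul_mem hg hg) (aa η ▸ h.mul h)
    · exact ⟨η', e⟩
    · have e1 : g * Γ.t = Γ.t * g := mul_right_cancel (b := Γ.q 0 0 0 0 η') (by
        rw [mul_assoc, ← e, mul_assoc, ← h.1 _ (Γ.qD ..), ← mul_assoc Γ.t, ← e, mul_assoc])
      rw [(L1 g hg ⟨h.1, by rw [e1, Γ.q_zero, mul_one, mul_inv_cancel_right]⟩).1, eq_comm, mul_eq_one_iff_eq_inv] at e
      exact absurd (e ▸ inv_mem (Γ.qA ..)) Γ.t_nA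
  · obtain ⟨g, hg, z, hz, e⟩ := dc _ w1
    have := t1.mul (Γ.tr_K (ΘK hz.1) (Θt z hz.1)).inv
    rw [e, mul_inv_cancel_right, add_zero] at this
    have t2 := this.h.h
    rw [(by decide : v * (v * w) = v)] at t2
    exact ⟨_, hW _ (hW _ hg), t2⟩

/-- PROOF. `Θ` from `odd_part` (`X = K ⊓ C(t)`, `two_el`).  `X₁ = {g ∈ C(D) | g t g⁻¹ ∈ t Y}`, `w₀` from `exists_w`.
`X₁ ∩ C(t) = {y η * κ}` (`cenD`).  `w₀` normalises `Θ` (`w₀ θ w₀⁻¹ = y η t^i θ'` has odd order, so `= θ'`), `h ∈ A`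
centralises `Θ`, so `w₁ = w₀ h w₀⁻¹ h⁻¹ ∈ X₂ := X₁ ⊓ C(Θ)` is a translation by `1 + v = w`.  `two_part` with
`Z = Θ ⊓ C(Θ)` (for `g ∈ X₂`: `g² ∈ C(t)`, `g² = y η t^i θ`, `g⁴ = θ² ∈ Z`): `W` = the 2-elements of `X₂`, `h`-invariant,
`w₂ ∈ W` a nonzero translation; `b₀ = w₂ h w₂⁻¹ h⁻¹ ∈ W`, `(b₀ h)³ = 1`; conjugating by a power of `h` assume that `b₀`
translates by 1.  For `g ∈ W`: `g² = y η t^i` (no `Θ` part), `i = 0` (if `g` moves `t` it does not commute with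
`t y η`; if not `g² = 1`).  `b₁ = h b₀ h⁻¹`, `b₂ = h b₁ h⁻¹`, `b₀ b₁ b₂ = 1`; all squares lie in the central `Y`, so
`[b₀, b₁] ∈ Y` and it is fixed by `h` (`[b₁, b₂] = [b₁, (b₀ b₁)⁻¹] = [b₀, b₁]`), so trivial.  `b₀² = y μ`;
`b 0 = 1, b 1 = b₀, b v = b₁, b w = b₂`. -/
theorem exists_b0 : ∃ (Θ : Subgroup G) (b : F4 → G) (μ : F4), Θ ≤ Γ.K ∧ (∀ θ ∈ Θ, θ * Γ.t = Γ.t * θ) ∧
    (∀ θ ∈ Θ, Odd (orderOf θ)) ∧ (∀ c ∈ Γ.K, c * Γ.t = Γ.t * c → c ∈ Θ ∨ Γ.t * c ∈ Θ) ∧ b 0 = 1 ∧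
    (∀ r r', ∃ η, b r * b r' = Γ.q 0 0 0 0 η * b (r + r')) ∧ (∀ r r', b r * b r' = b r' * b r) ∧
    (∀ r, b r * b r = Γ.q 0 0 0 0 (μ * r)) ∧ b 1 * b v * b w = 1 ∧
    (∀ r, b r * Γ.t * (b r)⁻¹ = Γ.t * Γ.q 0 0 0 0 r) ∧ (∀ d ∈ Γ.D, ∀ r, d * b r = b r * d) ∧
    (∀ θ ∈ Θ, ∀ r, θ * b r = b r * θ) ∧ ∀ r, Γ.h * b r * Γ.h⁻¹ = b (v * r) := by
  obtain ⟨Θ, W, ΘK, Θt, odd, cov, WX, hW, sq, g, hg, tg⟩ := Γ.exists_W
  obtain ⟨b₀, e0⟩ : ∃ b₀, b₀ = g * (Γ.h * g⁻¹ * Γ.h⁻¹) := ⟨_, rfl⟩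
  obtain ⟨b₁, e1⟩ : ∃ b₁, b₁ = Γ.h * b₀ * Γ.h⁻¹ := ⟨_, rfl⟩
  obtain ⟨b₂, e2⟩ : ∃ b₂, b₂ = Γ.h * b₁ * Γ.h⁻¹ := ⟨_, rfl⟩
  have m0 : b₀ ∈ W := e0 ▸ mul_mem hg (hW _ (inv_mem hg))
  have m1 : b₁ ∈ W := e1 ▸ hW _ m0
  have m2 : b₂ ∈ W := e2 ▸ hW _ m1
  have t0 : Γ.Tr b₀ 1 := by
    have := tg.mul tg.inv.h
    rwa [(by decide : v + v * v = 1), ← e0] at this
  have t1 : Γ.Tr b₁ v := by have := t0.h; rwa [mul_one, ← e1] at this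
  have t2 : Γ.Tr b₂ w := by have := t1.h; rwa [(by decide : v * v = w), ← e2] at this
  have h3 : Γ.h * Γ.h * Γ.h = 1 := by rw [← pow_three', Γ.h3]
  have e3 : Γ.h * b₂ * Γ.h⁻¹ = b₀ := by
    rw [e2, e1]
    calc _ = Γ.h * Γ.h * Γ.h * b₀ * (Γ.h * Γ.h * Γ.h)⁻¹ := by group
      _ = _ := by rw [h3]; simp
  have p : b₀ * b₁ * b₂ = 1 := by
    rw [e2, e1, e0]
    calc _ = g * (Γ.h * Γ.h * Γ.h * g⁻¹ * (Γ.h * Γ.h * Γ.h)⁻¹) := by group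
      _ = _ := by rw [h3]; simp
  obtain ⟨μ, s0⟩ := sq _ m0
  have s1 : b₁ * b₁ = Γ.q 0 0 0 0 (μ * v) := by rw [e1, conj_mul, s0, Γ.h_y, mul_comm]
  have s2 : b₂ * b₂ = Γ.q 0 0 0 0 (μ * w) := by
    rw [e2, conj_mul, s1, Γ.h_y, mul_left_comm, (by decide : v * v = w)]
  have iv {a : G} {η r : F4} (ta : Γ.Tr a r) (e : a * a = Γ.q 0 0 0 0 η) : a⁻¹ = Γ.q 0 0 0 0 η * a := by
    rw [inv_eq_iff_mul_eq_one, ← mul_assoc, ← ta.1 _ (Γ.qD ..), mul_assoc, e, Γ.y_sq]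
  have c01 : b₀ * b₁ = b₁ * b₀ := by
    obtain ⟨η, e⟩ : ∃ η, b₀ * b₁ = Γ.q 0 0 0 0 η * (b₁ * b₀) := by
      obtain ⟨γ, e⟩ := sq _ (mul_mem m0 m1)
      refine ⟨γ + μ * v + μ, ?_⟩
      rw [← Γ.y_mul, ← Γ.y_mul]
      calc _ = b₀ * b₁ * (b₀ * b₁) * (b₁⁻¹ * b₀⁻¹) := by group
        _ = _ := by
          rw [e, iv t1 s1, iv t0 s0, mul_assoc _ b₁, ← mul_assoc b₁, ← t1.1 _ (Γ.qD ..)]; group
    have e' : b₁ * b₂ = Γ.q 0 0 0 0 (v * η) * (b₂ * b₁) := by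
      rw [← Γ.h_y, e2]; nth_rewrite 1 4 [e1]
      rw [conj_mul, e, conj_mul, conj_mul]
    rw [eq_inv_of_mul_eq_one_right p] at e'
    nth_rewrite 2 [e] at e'
    rw [t1.1 _ (Γ.qD ..) |> fun h => show Γ.q 0 0 0 0 η * (b₁ * b₀) = b₁ * (Γ.q 0 0 0 0 η * b₀) by
      rw [← mul_assoc, h, mul_assoc], t0.1 _ (Γ.qD ..)] at e'
    have e2 : Γ.q 0 0 0 0 (v * η) * Γ.q 0 0 0 0 η = 1 := by
      rw [← Γ.y_inv η, ← mul_left_inj b₀⁻¹]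
      calc _ = Γ.q 0 0 0 0 (v * η) * ((b₁ * (b₀ * Γ.q 0 0 0 0 η))⁻¹ * b₁) := by group
        _ = _ := by rw [← e']; group
    rw [Γ.y_mul, Γ.y_eq_one] at e2
    rw [e, (by decide : ∀ η : F4, v * η + η = 0 → η = 0) η e2, Γ.q_zero, one_mul]
  have c02 : b₀ * b₂ = b₂ * b₀ := by
    rw [eq_inv_of_mul_eq_one_right p]
    exact ((Commute.refl b₀).mul_right c01).inv_right
  have c12 : b₁ * b₂ = b₂ * b₁ := by
    rw [eq_inv_of_mul_eq_one_right p]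
    exact ((show Commute b₀ b₁ from c01).symm.mul_right (Commute.refl b₁)).inv_right
  have p01 : b₀ * b₁ = Γ.q 0 0 0 0 (μ * w) * b₂ := by rw [← iv t2 s2, eq_inv_iff_mul_eq_one, p]
  have p02 : b₀ * b₂ = Γ.q 0 0 0 0 (μ * v) * b₁ := by
    rw [← iv t1 s1, eq_inv_iff_mul_eq_one, mul_assoc, ← c12, ← mul_assoc, p]
  have p12 : b₁ * b₂ = Γ.q 0 0 0 0 μ * b₀ := by
    rw [← iv t0 s0, eq_inv_iff_mul_eq_one, mul_assoc, ← c02, ← mul_assoc, ← c01, p]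
  let b : F4 → G := fun r => match r with | .o => 1 | .l => b₀ | .w => b₂ | .v => b₁
  have tb : ∀ r, Γ.Tr (b r) r := fun r => by cases r; exacts [Γ.tr_one, t0, t2, t1]
  have mb : ∀ r, b r ∈ W := fun r => by cases r; exacts [one_mem _, m0, m2, m1]
  have z (a : G) : a = Γ.q 0 0 0 0 0 * a := by rw [Γ.q_zero, one_mul]
  refine ⟨Θ, b, μ, ΘK, Θt, odd, cov, rfl, fun r r' => ?_, fun r r' => ?_, fun r => ?_, p, fun r => (tb r).2,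
    fun d hd r => (tb r).1 d hd, fun θ hθ r => (WX (mb r)).2 θ hθ, fun r => ?_⟩
  · cases r <;> cases r'
    exacts [⟨0, (one_mul _).trans (z _)⟩, ⟨0, (one_mul _).trans (z _)⟩, ⟨0, (one_mul _).trans (z _)⟩,
      ⟨0, (one_mul _).trans (z _)⟩, ⟨0, (mul_one _).trans (z _)⟩, ⟨_, s0.trans (mul_one _).symm⟩, ⟨_, p02⟩, ⟨_, p01⟩,
      ⟨0, (mul_one _).trans (z _)⟩, ⟨_, c02.symm.trans p02⟩, ⟨_, s2.trans (mul_one _).symm⟩, ⟨_, c12.symm.trans p12⟩,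
      ⟨0, (mul_one _).trans (z _)⟩, ⟨_, c01.symm.trans p01⟩, ⟨_, p12⟩, ⟨_, s1.trans (mul_one _).symm⟩]
  · have o (a : G) : 1 * a = a * 1 := by simp
    cases r <;> cases r'
    exacts [rfl, o _, o _, o _, (o _).symm, rfl, c02, c01, (o _).symm, c02.symm, rfl, c12.symm, (o _).symm, c01.symm,
      c12, rfl]
  · cases r
    exacts [(mul_one _).trans (Γ.y_eq_one.2 (mul_zero μ)).symm, s0.trans (congrArg _ (mul_one μ).symm), s2, s1]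
  · cases r
    exacts [(by simp : Γ.h * 1 * Γ.h⁻¹ = 1), e1.symm, e3, e2.symm]

include Γ in
/-- PROOF. Data from `exists_b0`.  `W = {t^i * b r * z | z ∈ Q}` is a 2-group (`g⁴ = 1`.. `g⁸ = 1`), `[W, xd], [W, xe] ≤ Y`.
`g = m (b λ) m⁻¹` centralises `x a`, `q 0 c d e y` (`m · m⁻¹` maps them into `D`) and `g t g⁻¹ = t xe λ =: t'`.
NW: `g` normalises `W`: for `u ∈ W`, `u t' u⁻¹ ∈ t' Y`, so `u' = g⁻¹ u g` centralises `Y` and `u' t u'⁻¹ = t y r`; then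
`(b r)⁻¹ u' = d κ` (`cenY`), `κ = t^i θ`; `[d, xd 1], [d, xe 1] ∈ Y` gives `d ∈ Q` (`memQ`), and `θ = 1` as `u'` is a
2-element commuting with `θ`.  Write `g (xb β) g⁻¹ = t^i * b r * z`; it has the same commutators with `xc, xd, xe` as
`xb β`: `z = q β 0 0 ε η`; it commutes with `t'`: `r = λ β`; it is an involution: `μ λ β + i λ β + β ε = 0`.
`β ↦ (i, ε)` is additive (modulo `⟨b, Y⟩`), so summing `ε = λ (μ + i)` over `β = 1, w, v` gives `μ = 0` (`λ = 1`).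
Now `B = {y s * b r}` is elementary, `b` is additive, `B = {u ∈ W | [u, W] has ≤ 2 elements}`, (e.g. `u ∈ B ↔
∀ u₁ u₂ ∈ W, [u,u₁] = 1 ∨ [u,u₂] = 1 ∨ [u,u₁] = [u,u₂]`), so `g` normalises `B` and `C_W(B) = B Q`, hence `i = 0`,
`ε = 0`: `be_xb`.  `g (b r) g⁻¹ = y s * b r'` conjugates `t'` like `b r`, so `r' = r`; `g² = 1` applied to `xb β` gives
`g (b (λβ)) g⁻¹ = b (λβ)`: `be_b` (`λ = 0` trivial). -/
theorem exists_bs : Nonempty (Bs G) := by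
  obtain ⟨Θ, b, μ, ΘK, Θt, odd, cov, b0, bm, bc, bsq, b3, bt, bD, bΘ, hb⟩ := Γ.exists_b0
  have ty (η : F4) : Γ.q 0 0 0 0 η * Γ.t = Γ.t * Γ.q 0 0 0 0 η := Γ.At (Γ.qA ..)
  have mm {a a' : G} (c : a' * a = a * a') : a * a' * (a * a') = a * a * (a' * a') := by
    rw [mul_assoc, ← mul_assoc a', c]; group
  have b4 (r : F4) : b r ^ 4 = 1 := by rw [show 4 = 2 * 2 from rfl, pow_mul, pow_two, pow_two, bsq, Γ.y_sq]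
  have cj {z : G} (hz : z ∈ Γ.Q) (r : F4) {a : G} (ha : a ∈ Γ.D) :
      b r * z * a * (b r * z)⁻¹ = z * a * z⁻¹ ∧ Γ.t * (b r * z) * a * (Γ.t * (b r * z))⁻¹ = z * a * z⁻¹ := by
    have m := mul_mem (mul_mem (Γ.Q_le_D hz) ha) (inv_mem (Γ.Q_le_D hz))
    have e : b r * z * a * (b r * z)⁻¹ = z * a * z⁻¹ := by
      calc _ = b r * (z * a * z⁻¹) * (b r)⁻¹ := by group
        _ = _ := by rw [← bD _ m, mul_inv_cancel_right]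
    exact ⟨e, by
      calc _ = Γ.t * (b r * z * a * (b r * z)⁻¹) * Γ.t⁻¹ := by group
        _ = _ := by rw [e, Γ.t_conj (Γ.D_le_A m)]⟩
  -- the elements `t^i * b r * z`
  have CW {u : G} {ρ : F4} (u4 : u ^ 4 = 1) (uy : ∀ η, u * Γ.q 0 0 0 0 η = Γ.q 0 0 0 0 η * u)
      (ut : u * Γ.t * u⁻¹ = Γ.t * Γ.q 0 0 0 0 ρ) (ue : u * Γ.q 0 0 0 1 0 * u⁻¹ * (Γ.q 0 0 0 1 0)⁻¹ ∈ Γ.Y)
      (ud : u * Γ.q 0 0 1 0 0 * u⁻¹ * (Γ.q 0 0 1 0 0)⁻¹ ∈ Γ.Y) :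
      ∃ z ∈ Γ.Q, u = b ρ * z ∨ u = Γ.t * (b ρ * z) := by
    obtain ⟨d, hd, κ, hκ, e, e1⟩ := Γ.cenY (c := (b ρ)⁻¹ * u) (by
      calc _ = (b ρ)⁻¹ * (u * Γ.t * u⁻¹) * u := by group
        _ = _ := by rw [ut, ← bt]; group) fun η =>
      ((show Commute _ _ from bD _ (Γ.qD 0 0 0 0 η) ρ).inv_right.mul_right (uy η).symm).symm
    rw [inv_mul_eq_iff_eq_mul] at e1
    have c {a : G} (ha : a ∈ Γ.D) : u * a * u⁻¹ = d * a * d⁻¹ := by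
      calc _ = b ρ * (d * (κ * a * κ⁻¹) * d⁻¹) * (b ρ)⁻¹ := by rw [e1]; group
        _ = _ := by
          rw [← Γ.cK (Γ.D_le_A ha) hκ, mul_inv_cancel_right, ← bD _ (mul_mem (mul_mem hd ha) (inv_mem hd)),
            mul_inv_cancel_right]
    rw [c (Γ.qD ..)] at ue ud
    have hQ := Γ.memQ hd ue ud
    have k {s θ : G} (hθ : θ ∈ Θ) (c : Commute s θ) (ss : s * s ∈ Γ.Y) (e : u = s * θ) : u = s := by
      obtain ⟨η, ss⟩ := ss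
      rw [e, c.mul_pow, show 4 = 2 * 2 from rfl, pow_mul s, pow_two s, ss, pow_two (Γ.q ..), Γ.y_sq, one_mul] at u4
      rw [e, eq_one_of_odd (odd θ hθ) (n := 2) u4, mul_one]
    have cd := bD d hd ρ
    have s1 : b ρ * d * (b ρ * d) ∈ Γ.Y := by
      rw [mm cd, bsq]
      obtain ⟨_, _, _, _, _, rfl⟩ := hQ
      rw [Γ.q_sq]; exact mul_mem (Γ.yY _) (Γ.yY _)
    have c1 {θ : G} (hθ : θ ∈ Θ) : Commute (b ρ * d) θ :=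
      Commute.mul_left (bΘ θ hθ ρ).symm (Γ.cK (Γ.D_le_A hd) (ΘK hθ))
    have et : b ρ * d * Γ.t = Γ.t * Γ.q 0 0 0 0 ρ * (b ρ * d) := by
      rw [← bt, mul_assoc, Γ.At (Γ.D_le_A hd)]; group
    rcases cov κ hκ e with m | m
    · exact ⟨d, hQ, .inl (k m (c1 m) s1 (by rw [e1, mul_assoc]))⟩
    · refine ⟨Γ.q 0 0 0 0 ρ * d, mul_mem (Γ.qQ ..) hQ, .inr ?_⟩
      rw [← mul_assoc (b ρ), ← bD _ (Γ.qD ..), mul_assoc, ← mul_assoc Γ.t, ← et]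
      refine k m ((c1 m).mul_left (Θt _ m).symm) ?_ (by rw [e1, mul_assoc _ Γ.t, ← mul_assoc Γ.t, Γ.tt]; group)
      nth_rewrite 2 [et]
      rw [show b ρ * d * Γ.t * (Γ.t * Γ.q 0 0 0 0 ρ * (b ρ * d)) = b ρ * d * (Γ.t * Γ.t) * Γ.q 0 0 0 0 ρ * (b ρ * d) by
        group, Γ.tt, mul_one, mul_assoc (b ρ), Γ.D_y hd, ← mul_assoc (b ρ), ← bD _ (Γ.qD ..), mul_assoc (Γ.q ..),
        mul_assoc (Γ.q ..)]
      exact mul_mem (Γ.yY _) s1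
  have gq (l c d e y : F4) : Commute (Γ.m * b l * Γ.m⁻¹) (Γ.q 0 c d e y) := by
    have m : Γ.m * Γ.q 0 c d e y * Γ.m⁻¹ ∈ Γ.D := by
      rw [show Γ.q 0 c d e y = Γ.q 0 c 0 0 0 * Γ.q 0 0 d 0 0 * Γ.q 0 0 0 e 0 * Γ.q 0 0 0 0 y by simp [Γ.q_mul],
        ← conj_mul, ← conj_mul, ← conj_mul, Γ.m_c, Γ.m_d, Γ.m_e, Γ.m_y]
      exact mul_mem (mul_mem (mul_mem (Γ.xD _) (Γ.qD ..)) (Γ.qD ..)) (Γ.qD ..)
    have := bD _ m l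
    rw [Γ.m_inv] at this ⊢
    calc _ = Γ.m * (b l * (Γ.m * Γ.q 0 c d e y * Γ.m)) * Γ.m := by
          rw [mul_assoc Γ.m (b l * _), mul_assoc (b l) _ Γ.m, mul_assoc _ Γ.m Γ.m, Γ.mm]; group
      _ = _ := by
          rw [← this, ← mul_assoc, ← mul_assoc, ← mul_assoc, Γ.mm]; group
  have gt (l : F4) : Γ.m * b l * Γ.m⁻¹ * Γ.t * (Γ.m * b l * Γ.m⁻¹)⁻¹ = Γ.t * Γ.q 0 0 0 l 0 := by
    calc _ = Γ.m * (b l * (Γ.m⁻¹ * Γ.t * Γ.m⁻¹⁻¹) * (b l)⁻¹) * Γ.m⁻¹ := by group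
      _ = _ := by rw [Γ.conj_t (inv_mem Γ.mA), bt, ← conj_mul, Γ.conj_t Γ.mA, Γ.m_y]
  have main (l β : F4) : ∃ ε η, ε * β = μ * (l * β) ∧
      Γ.m * b l * Γ.m⁻¹ * Γ.q β 0 0 0 0 * (Γ.m * b l * Γ.m⁻¹)⁻¹ = b (l * β) * Γ.q β 0 0 ε η := by
    have gq := gq l
    have gt := gt l
    generalize Γ.m * b l * Γ.m⁻¹ = g at gq gt ⊢
    have gq' (c d e y : F4) : g * Γ.q 0 c d e y * g⁻¹ = Γ.q 0 c d e y := by rw [gq, mul_inv_cancel_right]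
    have gq'' (c d e y : F4) : g⁻¹ * Γ.q 0 c d e y * g = Γ.q 0 c d e y := by rw [mul_assoc, ← gq, inv_mul_cancel_left]
    have ee : Γ.q 0 0 0 l 0 * Γ.q 0 0 0 l 0 = 1 := by simp [Γ.q_sq, Γ.q_zero]
    have gt' : g⁻¹ * Γ.t * g = Γ.t * Γ.q 0 0 0 l 0 := by
      rw [← mul_left_inj (Γ.q 0 0 0 l 0), mul_assoc Γ.t, ee, mul_assoc, gq, mul_one]
      calc _ = g⁻¹ * (Γ.t * Γ.q 0 0 0 l 0) * g := by group
        _ = _ := by rw [← gt]; group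
    -- the conjugate of `b 1`
    obtain ⟨_, ⟨b', c', d', e', y', rfl⟩, hz⟩ := CW (u := g⁻¹ * b 1 * g) (ρ := 1)
      (by have := conj_pow (i := 4) (a := g⁻¹) (b := b 1); rw [inv_inv] at this; rw [this, b4]; simp)
      (fun η => (((gq ..).inv_left.mul_left (bD _ (Γ.qD ..) 1).symm).mul_left (gq ..)).eq)
      (by
        calc _ = g⁻¹ * (b 1 * (g * Γ.t * g⁻¹) * (b 1)⁻¹) * g := by group
          _ = g⁻¹ * Γ.t * g * (g⁻¹ * Γ.q 0 0 0 l 1 * g) := by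
            rw [gt, ← conj_mul, bt, ← bD _ (Γ.qD ..), mul_inv_cancel_right, mul_assoc Γ.t, Γ.y_mul_q, zero_add]; group
          _ = _ := by rw [gt', gq'', mul_assoc, Γ.q_mul]; simp [aa])
      (by rw [(((gq ..).inv_left.mul_left (bD _ (Γ.qD ..) 1).symm).mul_left (gq ..)).eq, mul_inv_cancel_right]; simp)
      (by rw [(((gq ..).inv_left.mul_left (bD _ (Γ.qD ..) 1).symm).mul_left (gq ..)).eq, mul_inv_cancel_right]; simp)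
    have f1 (β : F4) : g⁻¹ * b 1 * g * Γ.q β 0 0 0 0 * (g⁻¹ * b 1 * g)⁻¹ = Γ.q β 0 0 0 (e' * β) := by
      have := cj (Γ.qQ b' c' d' e' y') 1 (Γ.qD β 0 0 0 0)
      rw [Γ.q_conj] at this
      rcases hz with h | h <;> rw [h]
      · simpa using this.1
      · simpa using this.2
    -- the conjugates of `xb β`
    have uq (β c d e : F4) : g * Γ.q β 0 0 0 0 * g⁻¹ * Γ.q 0 c d e 0 * (g * Γ.q β 0 0 0 0 * g⁻¹)⁻¹ =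
        Γ.q 0 c d e (e * β) := by
      calc _ = g * (Γ.q β 0 0 0 0 * (g⁻¹ * Γ.q 0 c d e 0 * g) * (Γ.q β 0 0 0 0)⁻¹) * g⁻¹ := by group
        _ = _ := by rw [gq'', Γ.q_conj, gq']; simp
    have f2 (β : F4) : ∃ ε η, g * Γ.q β 0 0 0 0 * g⁻¹ = b (l * β) * Γ.q β 0 0 ε η ∨
        g * Γ.q β 0 0 0 0 * g⁻¹ = Γ.t * (b (l * β) * Γ.q β 0 0 ε η) := by
      obtain ⟨_, ⟨b₁, c₁, d₁, e₁, y₁, rfl⟩, hz⟩ := CW (u := g * Γ.q β 0 0 0 0 * g⁻¹) (ρ := l * β)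
        (by rw [conj_pow, show 4 = 2 * 2 from rfl, pow_mul, pow_two, pow_two, Γ.q_sq, Γ.y_sq]; simp)
        (fun η => (((gq ..).mul_left (Γ.q_y ..)).mul_left (gq ..).inv_left).eq)
        (by
          calc _ = g * (Γ.q β 0 0 0 0 * (g⁻¹ * Γ.t * g) * (Γ.q β 0 0 0 0)⁻¹) * g⁻¹ := by group
            _ = _ := by
              rw [gt', ← conj_mul (b := Γ.q ..), Γ.conj_t (Γ.qA ..), Γ.q_conj, ← conj_mul, gt, gq', mul_assoc, Γ.q_mul]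
              simp [aa])
        (by rw [uq, Γ.q_inv, Γ.q_mul, Γ.q_mem_Y]; simp [aa]) (by rw [uq, Γ.q_inv, Γ.q_mul, Γ.q_mem_Y]; simp [aa])
      have k (c d e : F4) : d₁ * c + e * b₁ + d * c₁ = e * β := by
        have := cj (Γ.qQ b₁ c₁ d₁ e₁ y₁) (l * β) (Γ.qD 0 c d e 0)
        have h1 := uq β c d e
        rw [Γ.q_conj] at this
        rcases hz with h | h <;> rw [h] at h1
        · simpa using (Γ.q_inj (this.1.symm.trans h1)).2.2.2.2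
        · simpa using (Γ.q_inj (this.2.symm.trans h1)).2.2.2.2
      obtain rfl : d₁ = 0 := by simpa using k 1 0 0
      obtain rfl : c₁ = 0 := by simpa using k 0 1 0
      obtain rfl : b₁ = β := by simpa using k 0 0 1
      exact ⟨_, _, hz⟩
    have f3 (β : F4) : b 1 * (g * Γ.q β 0 0 0 0 * g⁻¹) * (b 1)⁻¹ = g * Γ.q β 0 0 0 0 * g⁻¹ * Γ.q 0 0 0 0 (e' * β) := by
      calc _ = g * (g⁻¹ * b 1 * g * Γ.q β 0 0 0 0 * (g⁻¹ * b 1 * g)⁻¹) * g⁻¹ := by group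
        _ = _ := by rw [f1, ← gq' 0 0 0 (e' * β), conj_mul, Γ.q_mul_y, zero_add]
    have c1 (r : F4) {a : G} (ha : a ∈ Γ.D) : b 1 * (b r * a) * (b 1)⁻¹ = b r * a := by
      rw [← mul_assoc, bc, mul_assoc (b r), ← bD a ha]; group
    have f4 (β : F4) : ∃ ε η, (e' * β = 0 ∧ g * Γ.q β 0 0 0 0 * g⁻¹ = b (l * β) * Γ.q β 0 0 ε η) ∨ e' * β = 1 := by
      obtain ⟨ε, η, h | h⟩ := f2 β
      · have := f3 β
        rw [h, c1 _ (Γ.qD ..), eq_comm, mul_eq_left, Γ.y_eq_one] at this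
        exact ⟨ε, η, .inl ⟨this, h⟩⟩
      · have := f3 β
        rw [h, ← conj_mul, bt, c1 _ (Γ.qD ..), mul_assoc, mul_assoc, mul_right_inj, ← mul_assoc, bD _ (Γ.qD ..),
          mul_assoc, mul_assoc, mul_right_inj, Γ.y_mul_q, Γ.q_mul_y] at this
        exact ⟨ε, η, .inr (add_left_cancel (Γ.q_inj this).2.2.2.2).symm⟩
    obtain rfl : e' = 0 := by
      obtain ⟨_, _, h1⟩ := f4 1
      obtain ⟨_, _, h2⟩ := f4 w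
      exact (by decide : ∀ e : F4, e * 1 = 0 ∨ e * 1 = 1 → e * w = 0 ∨ e * w = 1 → e = 0) e'
        (h1.imp_left And.left) (h2.imp_left And.left)
    obtain ⟨ε, η, ⟨-, h⟩ | h⟩ := f4 β
    · refine ⟨ε, η, ?_, h⟩
      have : b (l * β) * Γ.q β 0 0 ε η * (b (l * β) * Γ.q β 0 0 ε η) = 1 := by
        rw [← h, conj_mul, Γ.q_sq]; simp [Γ.q_zero]
      rw [mm (bD _ (Γ.qD ..) _), bsq, Γ.q_sq, Γ.y_mul, Γ.y_eq_one] at this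
      linear_combination this - aa (μ * (l * β))
    · simp at h
  obtain rfl : μ = 0 := by
    obtain ⟨ε₁, η₁, h1, e1⟩ := main 1 1
    obtain ⟨ε₂, η₂, h2, e2⟩ := main 1 w
    obtain ⟨ε₃, η₃, h3, e3⟩ := main 1 v
    obtain ⟨η, e⟩ := bm 1 w
    rw [show Γ.q v 0 0 0 0 = Γ.q 1 0 0 0 0 * Γ.q w 0 0 0 0 by rw [Γ.q_mul, Γ.q_eq]; decide, ← conj_mul, e1, e2,
      one_mul, one_mul, one_mul, mul_assoc, ← mul_assoc (Γ.q ..), bD _ (Γ.qD ..), mul_assoc, ← mul_assoc, e,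
      bD _ (Γ.qD ..), mul_assoc, (by decide : (1 : F4) + w = v), mul_right_inj, Γ.q_mul, Γ.y_mul_q] at e3
    exact (by decide : ∀ μ a b c : F4, a * 1 = μ * (1 * 1) → b * w = μ * (1 * w) → c * v = μ * (1 * v) →
      a + b = c → μ = 0) μ _ _ _ h1 h2 h3 (Γ.q_inj e3).2.2.2.1
  simp only [zero_mul, Γ.q_zero] at bsq
  have iv (r : F4) : (b r)⁻¹ = b r := inv_eq_of_mul_eq_one_right (bsq r)
  have be_xb (l β : F4) : ∃ η, Γ.m * b l * Γ.m⁻¹ * Γ.q β 0 0 0 0 * (Γ.m * b l * Γ.m⁻¹)⁻¹ =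
      Γ.q β 0 0 0 η * b (l * β) := by
    by_cases h0 : β = 0
    · exact ⟨0, by simp [h0, Γ.q_zero, b0]⟩
    · obtain ⟨ε, η, h, e⟩ := main l β
      obtain rfl : ε = 0 := by simpa [h0] using h
      exact ⟨η, e.trans (bD _ (Γ.qD ..) _).symm⟩
  refine ⟨⟨Γ, Θ, ΘK, Θt, odd, cov, b, fun r r' => ?_, bt, bD, bΘ, hb, fun l r => ?_, be_xb⟩⟩
  · have p1 : b 1 * b v = b w := by rw [← iv w, eq_inv_iff_mul_eq_one, b3]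
    have p2 : b 1 * b w = b v := by rw [← p1, ← mul_assoc, bsq, one_mul]
    have p3 : b v * b w = b 1 := by rw [← p1, bc 1, ← mul_assoc, bsq, one_mul]
    rcases f4cases r with rfl | rfl | rfl | rfl <;> rcases f4cases r' with rfl | rfl | rfl | rfl <;>
      first | simp only [b0, zero_add, add_zero, one_mul, mul_one] | (rw [aa, bsq, b0]) | assumption |
        (rw [bc]; assumption)
  · by_cases h0 : l = 0
    · simp [h0, b0]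
    · obtain ⟨η, e⟩ := be_xb l (l⁻¹ * r)
      have g2 : Γ.m * b l * Γ.m⁻¹ * (Γ.m * b l * Γ.m⁻¹) = 1 := by rw [conj_mul, bsq]; simp
      have gy := gq l 0 0 0 η
      generalize Γ.m * b l * Γ.m⁻¹ = g at e g2 gy ⊢
      rw [mul_inv_cancel_left₀ h0] at e
      have e1 : Γ.q (l⁻¹ * r) 0 0 0 0 = g * (Γ.q (l⁻¹ * r) 0 0 0 η * b r) * g⁻¹ := by
        rw [← e]
        calc _ = g * g * Γ.q (l⁻¹ * r) 0 0 0 0 * (g * g)⁻¹ := by rw [g2]; simp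
          _ = _ := by group
      rw [← zero_add η, ← Γ.q_mul_y, ← conj_mul, ← conj_mul, e, gy, mul_inv_cancel_right, mul_assoc (Γ.q ..),
        ← bD _ (Γ.qD ..), ← mul_assoc (Γ.q ..) (Γ.q ..), Γ.q_mul_y, aa, mul_assoc, eq_comm, mul_eq_left, mul_eq_one_iff_inv_eq, iv,
        eq_mul_inv_iff_mul_eq] at e1
      exact e1.symm

end Su

end CL.G2C
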