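import Cfsg.Agent.INV.G2C.MkP1

/-! # G2C/MkP : a Sylow 2-subgroup of `C(B)` -/

set_option autoImplicit false
open Subgroup CL.MSS

namespace CL.G2C

open F4

universe u

variable {G : Type u} [Group G] [Finite G]

namespace Bs

variable (Γ : Bs G)

/-- `B_e` -/
def Be : Subgroup G := Γ.m •ᶜ Γ.B
/-- `F* = B B_e` -/
def Fs : Subgroup G := Γ.B ⊔ Γ.Be
/-- fixed points of `h k^i` in `W` -/
def BJ (W : Subgroup G) (s : F4) : Subgroup G := W ⊓ centralizer {Γ.jj s}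
/-- `V* = F* B_d` -/
def Vs (W : Subgroup G) : Subgroup G := Γ.Fs ⊔ Γ.BJ W v
/-- `B_a` -/
def Ba (W : Subgroup G) : Subgroup G := Γ.m •ᶜ Γ.BJ W w

omit [Finite G] in
theorem mem_Be {g : G} : g ∈ Γ.Be ↔ ∃ s r, g = Γ.be s r :=
  ⟨by rintro ⟨_, ⟨s, r, rfl⟩, rfl⟩; exact ⟨s, r, rfl⟩, by rintro ⟨s, r, rfl⟩; exact conj_mem_cj (Γ.bbB s r)⟩
omit [Finite G] in
theorem mem_BJ {W : Subgroup G} {s : F4} {g : G} : g ∈ Γ.BJ W s ↔ g ∈ W ∧ Γ.jj s * g = g * Γ.jj s := by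
  rw [BJ, mem_inf, mem_centralizer_singleton_iff, eq_comm]
omit [Finite G] in
theorem be_B (s r : F4) {β : G} (hβ : β ∈ Γ.B) : Γ.be s r * β = β * Γ.be s r := by
  obtain ⟨s', r', rfl⟩ := hβ; exact Γ.be_bb ..
theorem Be_nB : Γ.Be ≤ normalizer (Γ.B : Set G) := fun g hg => mem_norm_of fun β hβ => by
  obtain ⟨s, r, rfl⟩ := Γ.mem_Be.1 hg; rwa [Γ.be_B s r hβ, mul_inv_cancel_right]
theorem mem_Fs {g : G} : g ∈ Γ.Fs ↔ ∃ s r, ∃ β ∈ Γ.B, g = Γ.be s r * β := by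
  rw [Fs, mem_sup_of_normalizes_left Γ.Be_nB]
  constructor
  · rintro ⟨β, hβ, g, hg, rfl⟩
    obtain ⟨s, r, rfl⟩ := Γ.mem_Be.1 hg; exact ⟨s, r, β, hβ, (Γ.be_B s r hβ).symm⟩
  · rintro ⟨s, r, β, hβ, rfl⟩; exact ⟨β, hβ, _, Γ.mem_Be.2 ⟨s, r, rfl⟩, (Γ.be_B s r hβ).symm⟩
omit [Finite G] in
theorem beFs (s r : F4) : Γ.be s r ∈ Γ.Fs := mem_sup_right (Γ.mem_Be.2 ⟨s, r, rfl⟩)
omit [Finite G] in
theorem F_le_Fs : Γ.F ≤ Γ.Fs := by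
  rintro _ ⟨e, y, rfl⟩
  have := mul_mem (Γ.beFs e 0) (mem_sup_left (Γ.Y_le_B (Γ.yY y)) : _ ∈ Γ.Fs)
  rwa [be_e, Γ.q_mul_y, zero_add] at this
theorem tnB : Γ.t ∈ normalizer (Γ.B : Set G) := mem_norm_of fun _ => Γ.t_B
theorem tnFs : Γ.t ∈ normalizer (Γ.Fs : Set G) := mem_norm_of fun g hg => by
  obtain ⟨s, r, β, hβ, rfl⟩ := Γ.mem_Fs.1 hg
  exact Γ.mem_Fs.2 ⟨_, _, _, Γ.t_B hβ, by rw [← conj_mul, t_be]⟩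
theorem frFs : Fr Γ.t Γ.Fs := Γ.frB.sup Γ.tt Γ.Be_nB Γ.tnB fun g hg e => by
  obtain ⟨s, r, rfl⟩ := Γ.mem_Be.1 hg
  have h1 : Γ.t * Γ.be s r * Γ.t * Γ.be s r = Γ.q 0 0 0 r 0 := by
    have := Γ.t_be s r
    rw [Γ.t_inv] at this
    rw [this, be_mul, aa r, add_right_comm, aa s, zero_add, be_e]
  rw [h1] at e
  obtain rfl : r = 0 := (Γ.q_mem_Y.1 (Γ.Y_of_BA e (Γ.qA ..))).2.2.2
  exact ⟨_, Γ.mem_Be.2 ⟨0, s, rfl⟩, by rw [be_t, be_e]⟩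
theorem cFs {g : G} (hg : g ∈ Γ.Fs) (hA : g ∈ Γ.A) : g ∈ Γ.F := by
  obtain ⟨s, r, _, ⟨s', r', rfl⟩, rfl⟩ := Γ.mem_Fs.1 hg
  have h := Γ.conj_t hA
  rw [mul_inv_rev, ← mul_assoc, mul_assoc _ _ Γ.t, mul_assoc _ (_ * Γ.t), bb_t, ← conj_mul, be_t, ← Γ.q_be,
    mul_inv_cancel_right, mul_assoc, mul_eq_left, Γ.q_mul_y, Γ.q_eq_one] at h
  rw [h.2.2.2.1, (zero_add r').symm.trans h.2.2.2.2, be_e, bb_y, Γ.q_mul_y]; exact Γ.qF ..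

variable {Γ} {W : Subgroup G}

namespace QS

omit [Finite G] in
theorem j_be (hW : Γ.QS W) {s : F4} (hs : s ≠ 0) {g : G} (hg : g ∈ Γ.BJ W s) (a r : F4) :
    g * Γ.be a r = Γ.be a r * g :=
  hW.j_k hs (Γ.mem_BJ.1 hg).1 (Γ.mem_BJ.1 hg).2 (hW.jk_fix s) (hW.eW a r) (Γ.k_be a r)
theorem j_Fs (hW : Γ.QS W) {s : F4} (hs : s ≠ 0) {g f : G} (hg : g ∈ Γ.BJ W s) (hf : f ∈ Γ.Fs) :
    g * f = f * g := by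
  obtain ⟨a, r, β, hβ, rfl⟩ := Γ.mem_Fs.1 hf
  exact Commute.mul_right (hW.j_be hs hg a r) (hW.cB g hg.1 β hβ)
theorem j_nFs (hW : Γ.QS W) : Γ.BJ W v ≤ normalizer (Γ.Fs : Set G) := fun g hg =>
  mem_norm_of fun f hf => by rwa [hW.j_Fs (by decide) hg hf, mul_inv_cancel_right]
omit [Finite G] in
theorem FsW (hW : Γ.QS W) : Γ.Fs ≤ W :=
  sup_le hW.BW fun g hg => by obtain ⟨s, r, rfl⟩ := Γ.mem_Be.1 hg; exact hW.eW s r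
omit [Finite G] in
theorem VsW (hW : Γ.QS W) : Γ.Vs W ≤ W := sup_le hW.FsW inf_le_left
omit [Finite G] in
theorem t_BJ (hW : Γ.QS W) {s : F4} {g : G} (hg : g ∈ Γ.BJ W s) : Γ.t * g * Γ.t⁻¹ ∈ Γ.BJ W s := by
  have h : Commute (Γ.jj s) Γ.t := Γ.At (Γ.jjA s)
  exact Γ.mem_BJ.2 ⟨hW.nt g hg.1, (h.mul_right (Γ.mem_BJ.1 hg).2).mul_right h.inv_right⟩
theorem tnVs (hW : Γ.QS W) : Γ.t ∈ normalizer (Γ.Vs W : Set G) := mem_norm_of fun g hg => by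
  obtain ⟨f, hf, g, hg', rfl⟩ := (mem_sup_of_normalizes_left hW.j_nFs).1 hg
  rw [← conj_mul]; exact mul_mem (mem_sup_left (conj_mem Γ.tnFs hf)) (mem_sup_right (hW.t_BJ hg'))
omit [Finite G] in
theorem dBJ (hW : Γ.QS W) (d : F4) : Γ.q 0 0 d 0 0 ∈ Γ.BJ W v := Γ.mem_BJ.2 ⟨hW.QW (Γ.qQ ..), Γ.jv_d d⟩
omit [Finite G] in
theorem cBJ (hW : Γ.QS W) (c : F4) : Γ.q 0 c 0 0 0 ∈ Γ.BJ W w := Γ.mem_BJ.2 ⟨hW.QW (Γ.qQ ..), Γ.jw_c c⟩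
omit [Finite G] in
theorem tgtg (hW : Γ.QS W) {s : F4} (hs : s ≠ 0) {g z : G} (hg : g ∈ Γ.BJ W s) (e : g * Γ.t * g⁻¹ = Γ.t * z) :
    Γ.t * g * Γ.t * g = z := by
  rw [inv_eq_of_mul_eq_one_right (hW.j_sq hs hg.1 (Γ.mem_BJ.1 hg).2)] at e
  rw [mul_assoc, mul_assoc, ← mul_assoc g, e, ← mul_assoc, Γ.tt, one_mul]
theorem frVs (hW : Γ.QS W) : Fr Γ.t (Γ.Vs W) := Γ.frFs.sup Γ.tt hW.j_nFs Γ.tnFs fun g hg e => by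
  have v0 : v ≠ 0 := by decide
  obtain ⟨z, hz, e1, e2⟩ := hW.j_tr v0 hg.1 (Γ.mem_BJ.1 hg).2
  obtain ⟨d, rfl⟩ := Γ.Q_fixv hz e1
  rw [hW.tgtg v0 hg e2] at e
  rw [(Γ.q_mem_F.1 (Γ.cFs e (Γ.qA ..))).2.2, Γ.q_zero, mul_one, mul_inv_eq_iff_eq_mul] at e2
  obtain ⟨d', rfl⟩ := Γ.Q_fixv (hW.cW hg.1 e2) (Γ.mem_BJ.1 hg).2
  obtain ⟨g₁, h1, h2, h3⟩ := hW.j_surj v0 (Γ.qQ 0 0 d' 0 0) (by simp [Γ.q_sq, Γ.q_zero]) (Γ.jv_d d')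
  exact ⟨g₁, Γ.mem_BJ.2 ⟨h1, h2⟩, h3⟩
theorem mnVs (hW : Γ.QS W) : Γ.m ∈ normalizer (Γ.Vs W : Set G) := by
  set S : Set G := {g | g ∈ Γ.Fs ∨ ∃ d, g = Γ.q 0 0 d 0 0} with hS
  have mFs {f : G} (hf : f ∈ Γ.Fs) : Γ.m * f * Γ.m⁻¹ ∈ Γ.Fs := by
    obtain ⟨s, r, _, ⟨s', r', rfl⟩, rfl⟩ := Γ.mem_Fs.1 hf
    rw [← conj_mul, m_be]; exact mul_mem (mem_sup_left (Γ.bbB ..)) (Γ.beFs s' r')
  have nm : Γ.m ∈ normalizer (centralizer S : Set G) := (inv_mem_iff).1 (norm_cen (by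
    rintro _ (h | ⟨d, rfl⟩) <;> rw [inv_inv]
    exacts [Or.inl (mFs h), Or.inr ⟨d, Γ.m_d d⟩]))
  have nt : Γ.t ∈ normalizer (centralizer S : Set G) := (inv_mem_iff).1 (norm_cen (by
    rintro _ (h | ⟨d, rfl⟩) <;> rw [inv_inv]
    exacts [Or.inl (conj_mem Γ.tnFs h), Or.inr ⟨d, Γ.t_conj (Γ.qA ..)⟩]))
  have VX : Γ.Vs W ≤ centralizer S := by
    refine sup_le (fun f hf => mem_centralizer_iff.2 ?_) (fun g hg => mem_centralizer_iff.2 ?_)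
    · rintro _ (h | ⟨d, rfl⟩)
      · obtain ⟨s, r, β, hβ, rfl⟩ := Γ.mem_Fs.1 hf
        obtain ⟨s', r', β', hβ', rfl⟩ := Γ.mem_Fs.1 h
        exact Commute.mul_left (Commute.mul_right (by rw [Commute, SemiconjBy, be_mul, be_mul, add_comm s, add_comm r])
          (Γ.be_B _ _ hβ)) (Commute.mul_right (Γ.be_B _ _ hβ').symm (Γ.B_comm hβ' hβ))
      · exact hW.j_Fs (by decide) (hW.dBJ d) hf
    · rintro _ (h | ⟨d, rfl⟩)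
      · exact (hW.j_Fs (by decide) hg h).symm
      · exact hW.j_comm (by decide) (hW.dBJ d).1 (Γ.jv_d d) hg.1 (Γ.mem_BJ.1 hg).2
  have cX {c : G} (hc : c ∈ centralizer S) (e : c * Γ.t = Γ.t * c) :
      ∃ d ∈ Γ.A, d ∈ Γ.Vs W ∧ ∃ θ ∈ Γ.Θ, c = d * θ := by
    have hc' := mem_centralizer_iff.1 hc
    obtain ⟨d, hd, θ, hθ, rfl⟩ := Γ.cenB e fun s r => (hc' _ (Or.inl (mem_sup_left (Γ.bbB s r)))).symm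
    have h1 {z : G} (hz : z ∈ Γ.A) (hz' : z ∈ S) : d * z = z * d := mul_right_cancel (b := θ) (by
      rw [mul_assoc, Γ.cK hz (Γ.ΘK hθ), ← mul_assoc, ← hc' z hz', mul_assoc])
    have h2 := h1 (Γ.qA 0 0 0 1 0) (Or.inl (Γ.F_le_Fs (Γ.qF ..)))
    have h3 := h1 (Γ.qA 0 0 1 0 0) (Or.inr ⟨1, rfl⟩)
    obtain ⟨b, c, d, e', y, rfl⟩ := Γ.memQ hd (by rw [h2]; simp) (by rw [h3]; simp)
    rw [Γ.q_comm_iff] at h2 h3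
    obtain rfl : b = 0 := by simpa using h2
    obtain rfl : c = 0 := by simpa using h3
    refine ⟨_, Γ.qA .., ?_, θ, hθ, rfl⟩
    have := mul_mem (mem_sup_right (hW.dBJ d) : _ ∈ Γ.Vs W) (mem_sup_left (Γ.F_le_Fs (Γ.qF e' y)))
    simp only [Γ.q_mul, add_zero, zero_add, mul_zero] at this
    exact this
  obtain ⟨-, h⟩ := fix_syl Γ.tt (fun h => Γ.t_nC (centralizer_le (fun _ hβ => Or.inl (mem_sup_left hβ)) h)) nt VX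
    (hW.pW.to_le hW.VsW) hW.tnVs hW.frVs fun R hR pR ct _ r hr => by
      obtain ⟨d, hd, hd', θ, hθ, rfl⟩ := cX (hR hr) (ct r hr)
      obtain ⟨i, hi⟩ := pow_two_of_mem pR hr
      rwa [Γ.Θ_eq_one hd hθ hi, mul_one]
  obtain ⟨c, hc, e, h⟩ := h (Γ.m •ᶜ Γ.Vs W) (by rintro _ ⟨g, hg, rfl⟩; exact conj_mem nm (VX hg))
    ((hW.pW.to_le hW.VsW).map _) (mem_norm_of (by
      rintro _ ⟨g, hg, rfl⟩
      refine ⟨_, conj_mem hW.tnVs hg, ?_⟩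
      calc _ = (Γ.m * Γ.t) * g * (Γ.m * Γ.t)⁻¹ := by simp [mul_assoc]
        _ = _ := by rw [Γ.At Γ.mA]; simp [mul_assoc]))
  obtain ⟨d, -, hd, θ, hθ, rfl⟩ := cX hc e
  refine mem_norm_of fun g hg => ?_
  have h1 := mul_mem (mul_mem (inv_mem hd) (h _ (conj_mem_cj hg))) hd
  have h2 := hW.cΘ _ (hW.VsW h1) _ (inv_mem hθ)
  rwa [show Γ.m * g * Γ.m⁻¹ = θ⁻¹ * (d⁻¹ * (d * θ * (Γ.m * g * Γ.m⁻¹) * (d * θ)⁻¹) * d) * θ by group, h2,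
    inv_mul_cancel_right]
omit [Finite G] in
theorem Ba_be (hW : Γ.QS W) {g : G} (hg : g ∈ Γ.Ba W) (s r : F4) : g * Γ.be s r = Γ.be s r * g := by
  obtain ⟨g, hg', rfl⟩ := mem_cj'.1 hg
  rw [be, conj_mul, conj_mul, hW.cB g hg'.1 _ (Γ.bbB s r)]
omit [Finite G] in
theorem Ba_B (hW : Γ.QS W) {g β : G} (hg : g ∈ Γ.Ba W) (hβ : β ∈ Γ.B) : g * β = β * g := by
  obtain ⟨g, hg', rfl⟩ := mem_cj'.1 hg
  obtain ⟨s, r, rfl⟩ := hβ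
  rw [← m_be, conj_mul, conj_mul, hW.j_be (by decide) hg']
omit [Finite G] in
theorem Ba_t (hW : Γ.QS W) {g : G} (hg : g ∈ Γ.BJ W w) : ∃ a, g * Γ.t * g⁻¹ = Γ.t * Γ.q 0 a 0 0 0 ∧
    Γ.m * g * Γ.m⁻¹ * Γ.t * (Γ.m * g * Γ.m⁻¹)⁻¹ = Γ.t * Γ.x a := by
  obtain ⟨z, hz, e1, e2⟩ := hW.j_tr (by decide : w ≠ 0) hg.1 (Γ.mem_BJ.1 hg).2
  obtain ⟨a, rfl⟩ := Γ.Q_fixw hz e1
  refine ⟨a, e2, ?_⟩
  calc _ = Γ.m * (g * (Γ.m⁻¹ * Γ.t * Γ.m⁻¹⁻¹) * g⁻¹) * Γ.m⁻¹ := by group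
    _ = _ := by rw [Γ.conj_t (inv_mem Γ.mA), e2, ← conj_mul, Γ.conj_t Γ.mA, Γ.m_c]
theorem tnW (hW : Γ.QS W) : Γ.t ∈ normalizer (W : Set G) := mem_norm_of hW.nt
theorem Ba_nW (hW : Γ.QS W) : Γ.Ba W ≤ normalizer (W : Set G) := by
  let X : Subgroup G :=
    { carrier := {g | (∀ β ∈ Γ.B, g * β = β * g) ∧ ∀ u ∈ Γ.Vs W, g * u * g⁻¹ * u⁻¹ ∈ Γ.B}
      one_mem' := ⟨by simp, by simp⟩
      mul_mem' := fun {g g'} h h' => ⟨fun β hβ => Commute.mul_left (h.1 β hβ) (h'.1 β hβ), fun u hu => by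
        have := mul_mem (h'.2 u hu) (h.2 u hu)
        rwa [← mul_inv_cancel_right (g' * u * g'⁻¹ * u⁻¹) g, ← h.1 _ (h'.2 u hu),
          show g * (g' * u * g'⁻¹ * u⁻¹) * g⁻¹ * (g * u * g⁻¹ * u⁻¹) = g * g' * u * (g * g')⁻¹ * u⁻¹ by group] at this⟩
      inv_mem' := fun {g} h => ⟨fun β hβ => (show Commute g β from h.1 β hβ).inv_left, fun u hu => by
        have := inv_mem (h.2 u hu)
        rwa [show g⁻¹ * u * g⁻¹⁻¹ * u⁻¹ = g⁻¹ * ((g * u * g⁻¹ * u⁻¹)⁻¹ * g) by group, ← h.1 _ this,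
          inv_mul_cancel_left]⟩ }
  have nX {s : G} (h1 : s ∈ normalizer (Γ.B : Set G)) (h2 : s ∈ normalizer (Γ.Vs W : Set G)) {g : G} (hg : g ∈ X) :
      s * g * s⁻¹ ∈ X := ⟨fun β hβ => by
        calc _ = s * (g * (s⁻¹ * β * s)) * s⁻¹ := by group
          _ = _ := by rw [hg.1 _ (conj_mem' h1 hβ)]; group, fun u hu => by
        have := conj_mem h1 (hg.2 _ (conj_mem' h2 hu))
        rwa [show s * (g * (s⁻¹ * u * s) * g⁻¹ * (s⁻¹ * u * s)⁻¹) * s⁻¹ =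
          s * g * s⁻¹ * u * (s * g * s⁻¹)⁻¹ * u⁻¹ by group] at this⟩
  have WX : W ≤ X := fun g hg => ⟨hW.cB g hg, fun u hu => hW.comm g hg u (hW.VsW hu)⟩
  have cX {c : G} (hc : c ∈ X) (e : c * Γ.t = Γ.t * c) : ∃ d ∈ Γ.Q, ∃ θ ∈ Γ.Θ, c = d * θ := by
    obtain ⟨d, hd, θ, hθ, rfl⟩ := Γ.cenB e fun s r => hc.1 _ (Γ.bbB s r)
    have h1 {z : G} (hz : z ∈ Γ.A) (hz' : z ∈ Γ.Vs W) : d * z * d⁻¹ * z⁻¹ ∈ Γ.Y := by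
      have := hc.2 z hz'
      rw [mul_assoc d θ z, ← Γ.cK hz (Γ.ΘK hθ), show d * (z * θ) * (d * θ)⁻¹ = d * z * d⁻¹ by group] at this
      have hA := Γ.D_le_A hd
      exact Γ.Y_of_BA this (mul_mem (mul_mem (mul_mem hA hz) (inv_mem hA)) (inv_mem hz))
    exact ⟨d, Γ.memQ hd (h1 (Γ.qA ..) (mem_sup_left (Γ.F_le_Fs (Γ.qF ..))))
      (h1 (Γ.qA ..) (mem_sup_right (hW.dBJ 1))), θ, hθ, rfl⟩
  obtain ⟨-, h⟩ := fix_syl Γ.tt (fun h : Γ.t ∈ X => Γ.t_nC (mem_centralizer_iff.2 fun β hβ => (h.1 β hβ).symm))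
    (mem_norm_of fun g hg => nX Γ.tnB hW.tnVs hg) WX hW.pW hW.tnW hW.fr fun R hR pR ct _ r hr => by
      obtain ⟨d, hd, θ, hθ, rfl⟩ := cX (hR hr) (ct r hr)
      obtain ⟨i, hi⟩ := pow_two_of_mem pR hr
      rw [Γ.Θ_eq_one (Γ.D_le_A (Γ.Q_le_D hd)) hθ hi, mul_one]; exact hW.QW hd
  intro g hg
  have gB : g ∈ normalizer (Γ.B : Set G) := mem_norm_of fun β hβ => by
    rwa [hW.Ba_B hg hβ, mul_inv_cancel_right]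
  obtain ⟨g₀, hg₀, rfl⟩ := mem_cj'.1 hg
  have gV : Γ.m * g₀ * Γ.m⁻¹ ∈ normalizer (Γ.Vs W : Set G) :=
    mul_mem (mul_mem hW.mnVs (mem_norm_of fun u hu => by
      have := mul_mem (mem_sup_left (mem_sup_left (hW.comm g₀ hg₀.1 u (hW.VsW hu))) : _ ∈ Γ.Vs W) hu
      rwa [inv_mul_cancel_right] at this)) (inv_mem hW.mnVs)
  obtain ⟨a, -, e⟩ := hW.Ba_t hg₀
  set g := Γ.m * g₀ * Γ.m⁻¹
  obtain ⟨c, hc, e1, h⟩ := h (g⁻¹ •ᶜ W) (by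
      rintro _ ⟨z, hz, rfl⟩; exact nX (inv_mem gB) (inv_mem gV) (WX hz)) (hW.pW.map _) (mem_norm_of fun z hz => by
      rw [mem_cj, inv_inv] at hz ⊢
      have := hW.nt _ (hW.nD _ (Γ.xD a) _ hz)
      rwa [show Γ.t * (Γ.x a * (g * z * g⁻¹) * (Γ.x a)⁻¹) * Γ.t⁻¹ = (Γ.t * Γ.x a) * (g * z * g⁻¹) * (Γ.t * Γ.x a)⁻¹
        by group, ← e, show g * Γ.t * g⁻¹ * (g * z * g⁻¹) * (g * Γ.t * g⁻¹)⁻¹ = g * (Γ.t * z * Γ.t⁻¹) * g⁻¹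
        by group] at this)
  obtain ⟨d, hd, θ, hθ, rfl⟩ := cX hc e1
  refine (inv_mem_iff).1 (mem_norm_of fun z hz => ?_)
  have h1 := mul_mem (mul_mem (inv_mem (hW.QW hd)) (h _ (conj_mem_cj hz))) (hW.QW hd)
  have h2 := hW.cΘ _ h1 _ (inv_mem hθ)
  rwa [show g⁻¹ * z * g⁻¹⁻¹ = θ⁻¹ * (d⁻¹ * (d * θ * (g⁻¹ * z * g⁻¹⁻¹) * (d * θ)⁻¹) * d) * θ by group, h2,
    inv_mul_cancel_right]
theorem frP (hW : Γ.QS W) : Fr Γ.t (W ⊔ Γ.Ba W) := hW.fr.sup Γ.tt hW.Ba_nW hW.tnW fun g hg e => by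
  have w0 : w ≠ 0 := by decide
  obtain ⟨g₀, hg₀, rfl⟩ := mem_cj'.1 hg
  obtain ⟨a, e1, e2⟩ := hW.Ba_t hg₀
  have e3 : Γ.t * (Γ.m * g₀ * Γ.m⁻¹) * Γ.t * (Γ.m * g₀ * Γ.m⁻¹) = Γ.x a := by
    rw [← Γ.m_c, ← hW.tgtg w0 hg₀ e1, ← conj_mul, ← conj_mul, ← conj_mul, Γ.conj_t Γ.mA]
  rw [e3] at e
  rw [Γ.x_eq_zero (hW.cW e (Γ.At (Γ.xA a))), Γ.q_zero, mul_one, mul_inv_eq_iff_eq_mul] at e1
  obtain ⟨c, rfl⟩ := Γ.Q_fixw (hW.cW hg₀.1 e1) (Γ.mem_BJ.1 hg₀).2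
  obtain ⟨g₁, h1, h2, h3⟩ := hW.j_surj w0 (Γ.qQ 0 c 0 0 0) (by simp [Γ.q_sq, Γ.q_zero]) (Γ.jw_c c)
  refine ⟨_, conj_mem_cj (Γ.mem_BJ.2 ⟨h1, h2⟩), ?_⟩
  calc _ = Γ.m * (g₁ * (Γ.m⁻¹ * Γ.t * Γ.m⁻¹⁻¹) * g₁⁻¹) * Γ.m⁻¹ := by group
    _ = _ := by rw [Γ.conj_t (inv_mem Γ.mA), h3, ← conj_mul, Γ.conj_t Γ.mA]

end QS

variable (Γ)

theorem exists_ps {W : Subgroup G} (hW : Γ.QS W) : ∃ P, Γ.PS P := by
  set P := W ⊔ Γ.Ba W with hP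
  have pP : IsPGroup 2 P := isPGroup_sup_of_normalizes' hW.pW ((hW.pW.to_le inf_le_left).map _) hW.Ba_nW
  have dec {g : G} (hg : g ∈ P) : ∃ ν ∈ W, ∃ z ∈ Γ.Ba W, ν * z = g := (mem_sup_of_normalizes_left hW.Ba_nW).1 hg
  have PC : P ≤ centralizer (Γ.B : Set G) := sup_le
    (fun g hg => mem_centralizer_iff.2 fun β hβ => (hW.cB g hg β hβ).symm)
    (fun g hg => mem_centralizer_iff.2 fun β hβ => (hW.Ba_B hg hβ).symm)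
  have PB {g β : G} (hg : g ∈ P) (hβ : β ∈ Γ.B) : β * g = g * β := mem_centralizer_iff.1 (PC hg) β hβ
  have tP {g : G} (hg : g ∈ P) : Γ.t * g * Γ.t⁻¹ ∈ P := by
    obtain ⟨ν, hν, _, ⟨z, hz, rfl⟩, rfl⟩ := dec hg
    rw [← conj_mul]
    refine mul_mem (mem_sup_left (hW.nt ν hν)) (mem_sup_right ⟨_, hW.t_BJ hz, ?_⟩)
    calc _ = (Γ.m * Γ.t) * z * (Γ.m * Γ.t)⁻¹ := by simp [mul_assoc]
      _ = _ := by rw [Γ.At Γ.mA]; simp [mul_assoc]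
  have UP : Γ.U ≤ P := by
    rintro _ ⟨b, c, d, e, y, a, rfl⟩
    exact mul_mem (mem_sup_left (hW.QW (Γ.qQ ..))) (mem_sup_right (Γ.m_c a ▸ conj_mem_cj (hW.cBJ a)))
  have cD {r : G} (hr : r ∈ centralizer (Γ.B : Set G)) (e : r * Γ.t = Γ.t * r) {i : ℕ} (hi : r ^ 2 ^ i = 1) :
      r ∈ Γ.D := by
    obtain ⟨d, hd, θ, hθ, rfl⟩ := Γ.cenB e fun s r => (mem_centralizer_iff.1 hr _ (Γ.bbB s r)).symm
    rwa [Γ.Θ_eq_one (Γ.D_le_A hd) hθ hi, mul_one]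
  have Pbe {g : G} (hg : g ∈ P) (s r : F4) : g * Γ.be s r * g⁻¹ * (Γ.be s r)⁻¹ ∈ Γ.B := by
    obtain ⟨ν, hν, z, hz, rfl⟩ := dec hg
    rw [mul_assoc ν, hW.Ba_be hz, show ν * (Γ.be s r * z) * (ν * z)⁻¹ = ν * Γ.be s r * ν⁻¹ by group]
    exact hW.comm ν hν _ (hW.eW s r)
  have nW (s r : F4) : Γ.n * Γ.be s r * Γ.n⁻¹ ∈ W := hW.nD _ Γ.nD _ (hW.eW s r)
  have z2 {g : G} (h : ∃ s r, ∃ β ∈ Γ.B, g = Γ.be s r * β) : ∀ p ∈ P, p * g * p⁻¹ * g⁻¹ ∈ Γ.B := by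
    obtain ⟨s, r, β, hβ, rfl⟩ := h
    intro p hp
    have := Pbe hp s r
    rwa [← conj_mul, ← PB hp hβ, show p * Γ.be s r * p⁻¹ * (β * p * p⁻¹) * (Γ.be s r * β)⁻¹ =
      p * Γ.be s r * p⁻¹ * (Γ.be s r)⁻¹ by group]
  refine ⟨P, (fix_syl Γ.tt Γ.t_nC (norm_cen fun β hβ => conj_mem' Γ.tnB hβ) PC pP (mem_norm_of fun _ => tP) hW.frP
    fun R hR pR ct hU r hr => ?_).1, fun s r => mem_sup_left (hW.eW s r), fun s r => mem_sup_left (nW s r),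
    fun g hg => ⟨fun h => ?_, ?_⟩, fun g hg => ?_⟩
  · rw [Γ.sylU.max R pR (fun z hz => hU z (UP hz) (Γ.At (Γ.U_le_A hz))) fun r hr =>
      let ⟨_, hi⟩ := pow_two_of_mem pR hr; Γ.D_le_A (cD (hR hr) (ct r hr) hi)] at hr
    exact UP hr
  · let Z : Subgroup G :=
      { carrier := {g | g ∈ P ∧ ∀ p ∈ P, p * g * p⁻¹ * g⁻¹ ∈ Γ.B}
        one_mem' := ⟨one_mem _, by simp⟩
        mul_mem' := fun {g g'} h h' => ⟨mul_mem h.1 h'.1, fun p hp => by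
          rw [show p * (g * g') * p⁻¹ * (g * g')⁻¹ = p * g * p⁻¹ * ((p * g' * p⁻¹ * g'⁻¹) * g⁻¹) by group,
            PB (inv_mem h.1) (h'.2 p hp), ← mul_assoc]
          exact mul_mem (h.2 p hp) (h'.2 p hp)⟩
        inv_mem' := fun {g} h => ⟨inv_mem h.1, fun p hp => by
          have := inv_mem (h.2 p hp)
          rwa [show p * g⁻¹ * p⁻¹ * g⁻¹⁻¹ = g⁻¹ * ((p * g * p⁻¹ * g⁻¹)⁻¹ * g) by group, PB h.1 this,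
            inv_mul_cancel_left]⟩ }
    have FZ : Γ.Fs ≤ Z := fun f hf => ⟨mem_sup_left (hW.FsW hf), z2 (Γ.mem_Fs.1 hf)⟩
    have := (fix_syl Γ.tt (fun h : Γ.t ∈ Z => Γ.t_nC (PC h.1)) (mem_norm_of fun g hg => ⟨tP hg.1, fun p hp => by
        have := Γ.t_B (hg.2 _ (tP hp))
        rwa [Γ.t_inv, show Γ.t * (Γ.t * p * Γ.t * g * (Γ.t * p * Γ.t)⁻¹ * g⁻¹) * Γ.t =
          (Γ.t * Γ.t) * p * (Γ.t * g * Γ.t⁻¹) * p⁻¹ * (Γ.t⁻¹ * g⁻¹ * Γ.t) by group, Γ.tt, one_mul,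
          show Γ.t⁻¹ * g⁻¹ * Γ.t = (Γ.t * g * Γ.t⁻¹)⁻¹ by rw [Γ.t_inv]; simp [mul_assoc, Γ.t_inv]] at this⟩)
      FZ (hW.pW.to_le hW.FsW) Γ.tnFs Γ.frFs fun R hR pR ct _ r hr => by
        obtain ⟨i, hi⟩ := pow_two_of_mem pR hr
        have h1 := cD (PC (hR hr).1) (ct r hr) hi
        refine Γ.F_le_Fs (Γ.memF h1 fun z hz => ?_)
        have h2 := Γ.D_le_A h1
        have h3 := Γ.U_le_A hz
        have := inv_mem (Γ.Y_of_BA ((hR hr).2 z (UP hz))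
          (mul_mem (mul_mem (mul_mem h3 h2) (inv_mem h3)) (inv_mem h2)))
        rwa [show (z * r * z⁻¹ * r⁻¹)⁻¹ = r * z * r⁻¹ * z⁻¹ by group] at this).1.eq_of_isPGroup
          (pP.to_le fun g hg => hg.1)
    exact Γ.mem_Fs.1 (this ▸ (⟨hg, h⟩ : g ∈ Z))
  · exact z2
  · obtain ⟨ν, hν, z, hz, rfl⟩ := dec hg
    obtain ⟨_, ⟨b, c, d, e, y, rfl⟩, β, hβ, e1⟩ := hW.wt ν hν
    obtain ⟨gc, hc, hc', ec⟩ := hW.j_surj (by decide : w ≠ 0) (Γ.qQ 0 c 0 0 0) (by simp [Γ.q_sq, Γ.q_zero]) (Γ.jw_c c)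
    obtain ⟨gd, hd, hd', ed⟩ := hW.j_surj (by decide : v ≠ 0) (Γ.qQ 0 0 d 0 0) (by simp [Γ.q_sq, Γ.q_zero]) (Γ.jv_d d)
    have t1 : Γ.Tr (Γ.n * Γ.be 0 b * Γ.n⁻¹) (Γ.q b 0 0 0 0) := ⟨1, one_mem _, by
      calc _ = Γ.n * (Γ.be 0 b * (Γ.n⁻¹ * Γ.t * Γ.n⁻¹⁻¹) * (Γ.be 0 b)⁻¹) * Γ.n⁻¹ := by group
        _ = _ := by rw [Γ.conj_t (inv_mem Γ.nA), be_t, ← conj_mul, Γ.conj_t Γ.nA, Γ.n_q]; simp⟩
    have t2 := hW.tr_mul (nW 0 b) (mul_mem (Γ.qQ ..) (mul_mem (Γ.qQ ..) (Γ.qQ ..))) t1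
      (hW.tr_mul hc (mul_mem (Γ.qQ ..) (Γ.qQ ..)) ⟨1, one_mem _, by rw [ec, mul_one]⟩
        (hW.tr_mul hd (Γ.qQ 0 0 0 e y) ⟨1, one_mem _, by rw [ed, mul_one]⟩ ⟨_, Γ.Y_le_B (Γ.yY y), by
          rw [Γ.be_t 0 e, mul_assoc, Γ.q_mul_y, aa]⟩))
    rw [show Γ.q b 0 0 0 0 * (Γ.q 0 c 0 0 0 * (Γ.q 0 0 d 0 0 * Γ.q 0 0 0 e y)) = Γ.q b c d e y by
      simp [Γ.q_mul]] at t2
    obtain ⟨_, ⟨b', c', d', e', y', rfl⟩, β', hβ', rfl⟩ := hW.tr_ker hν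
      (mul_mem (nW 0 b) (mul_mem hc (mul_mem hd (hW.eW 0 e)))) ⟨β, hβ, e1⟩ t2
    refine ⟨b', b, fun s r => ?_⟩
    have c1 : Commute (gc * (gd * Γ.be 0 e)) (Γ.be s r) :=
      Commute.mul_left (hW.j_be (by decide) (Γ.mem_BJ.2 ⟨hc, hc'⟩) s r) (Commute.mul_left
        (hW.j_be (by decide) (Γ.mem_BJ.2 ⟨hd, hd'⟩) s r)
        (by rw [Commute, SemiconjBy, be_mul, be_mul, add_comm s, add_comm r]))
    have c2 : Commute (Γ.q 0 c' d' e' y' * β' * z) (Γ.be s r) :=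
      Commute.mul_left (Commute.mul_left (Γ.q_be ..) (Γ.be_B s r hβ').symm) (hW.Ba_be hz s r)
    have h1 := Pbe (mem_sup_left (hW.QW (Γ.qQ b' 0 0 0 0))) s r
    have e2 : Γ.n * Γ.be b' b * Γ.n⁻¹ = Γ.n * Γ.be 0 b * Γ.n⁻¹ * Γ.q b' 0 0 0 0 := by
      rw [show Γ.q b' 0 0 0 0 = Γ.n * Γ.be b' 0 * Γ.n⁻¹ by rw [be_e, Γ.n_q]; simp, conj_mul, be_mul]; simp
    have e3 := PB (mem_sup_left (mul_mem hc (mul_mem hd (hW.eW 0 e)))) h1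
    rw [e2, show Γ.q b' c' d' e' y' = Γ.q b' 0 0 0 0 * Γ.q 0 c' d' e' y' by simp [Γ.q_mul]]
    set g₁ := gc * (gd * Γ.be 0 e)
    set g₂ := Γ.q b' 0 0 0 0
    set g₃ := Γ.n * Γ.be 0 b * Γ.n⁻¹
    calc _ = g₃ * (g₁ * (g₂ * ((Γ.q 0 c' d' e' y' * β' * z) * Γ.be s r * (Γ.q 0 c' d' e' y' * β' * z)⁻¹) * g₂⁻¹) *
          g₁⁻¹) * g₃⁻¹ := by group
      _ = g₃ * (g₁ * (g₂ * Γ.be s r * g₂⁻¹ * (Γ.be s r)⁻¹) * (Γ.be s r * g₁⁻¹)) * g₃⁻¹ := by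
          rw [c2.eq]; group
      _ = _ := by rw [← e3, ← c1.inv_left.eq]; group

end Bs

end CL.G2C
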