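import Cfsg.Agent.INV.G2C.BDef
import Cfsg.Agent.INV.G2C.Gen

/-! # G2C/MkP1 : `t` acts freely on `Q*`; the fixed points of the torus elements `h k^i` -/

set_option autoImplicit false
open Subgroup CL.MSS

namespace CL.G2C

open F4

universe u

variable {G : Type u} [Group G]

/-- every involution of `t N` is `N`-conjugate to `t` -/
def Fr (t : G) (N : Subgroup G) : Prop := ∀ z ∈ N, t * z * (t * z) = 1 → ∃ g ∈ N, t * z = g * t * g⁻¹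

theorem Fr.sup {t : G} {N E : Subgroup G} (h : Fr t N) (tt : t * t = 1) (nE : E ≤ normalizer (N : Set G))
    (nt : t ∈ normalizer (N : Set G))
    (h1 : ∀ g ∈ E, t * g * t * g ∈ N → ∃ g₁ ∈ E, g₁ * t * g₁⁻¹ = t * g) : Fr t (N ⊔ E) := fun z hz e => by
  obtain ⟨ν, hν, g, hg, rfl⟩ := (mem_sup_of_normalizes_left nE).1 hz
  have ti : t⁻¹ = t := inv_eq_of_mul_eq_one_right tt
  obtain ⟨g₁, hg₁, e1⟩ := h1 g hg (by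
    have := mul_mem (inv_mem (conj_mem nt hν)) (inv_mem (conj_mem' (nE hg) hν))
    rwa [show (t * ν * t⁻¹)⁻¹ * (g⁻¹ * ν * g)⁻¹ = (t * ν * t⁻¹)⁻¹ * (t * (ν * g) * (t * (ν * g))) *
      (g⁻¹ * ν * g)⁻¹ by rw [e, mul_one], show (t * ν * t⁻¹)⁻¹ * (t * (ν * g) * (t * (ν * g))) *
      (g⁻¹ * ν * g)⁻¹ = t * g * t * g by group] at this)
  have e2 : t * (ν * g) = g₁ * (t * (g₁⁻¹ * (g⁻¹ * ν * g) * g₁)) * g₁⁻¹ := by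
    calc _ = (t * g) * (g⁻¹ * ν * g) := by group
      _ = _ := by rw [← e1]; group
  obtain ⟨g₂, hg₂, e3⟩ := h _ (conj_mem' (nE hg₁) (conj_mem' (nE hg) hν)) (by
    rw [e2, conj_mul, conj_eq_one_iff] at e; exact e)
  exact ⟨g₁ * g₂, mul_mem (mem_sup_right hg₁) (mem_sup_left hg₂), by rw [e2, e3]; group⟩

theorem norm_cen [Finite G] {S : Set G} {g : G} (h : ∀ s ∈ S, g⁻¹ * s * g ∈ S) :
    g ∈ normalizer (centralizer S : Set G) := mem_norm_of fun c hc => mem_centralizer_iff.2 fun s hs => by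
  calc _ = g * (g⁻¹ * s * g * c) * g⁻¹ := by group
    _ = _ := by rw [mem_centralizer_iff.1 hc _ (h s hs)]; group

namespace Bs

variable (Γ : Bs G)

/-- `h k^i` -/
def jj (s : F4) : G := Γ.h * Γ.kk s
theorem h_kk (s : F4) : Γ.h * Γ.kk s = Γ.kk s * Γ.h := by
  cases s
  exacts [by simp [Su.kk], by simp [Su.kk], Γ.hk, (Commute.mul_right Γ.hk Γ.hk :)]
theorem k_kk (s : F4) : Γ.k * Γ.kk s = Γ.kk s * Γ.k := by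
  cases s
  exacts [by simp [Su.kk], by simp [Su.kk], rfl, (mul_assoc ..).symm]
theorem jj3 {s : F4} (hs : s ≠ 0) : Γ.jj s ^ 3 = 1 := by
  rw [jj, (show Commute Γ.h (Γ.kk s) from Γ.h_kk s).mul_pow, Γ.h3, one_mul, pow_three, Γ.kk_mul hs hs,
    Γ.kk_mul hs (mul_ne_zero hs hs), (by decide : ∀ s : F4, s ≠ 0 → s * (s * s) = 1) s hs, Γ.kk_one]
theorem jjA (s : F4) : Γ.jj s ∈ Γ.A := mul_mem Γ.hA (Γ.kkA s)
theorem jj_conj (s : F4) (g : G) : Γ.jj s * g * (Γ.jj s)⁻¹ = Γ.h * (Γ.kk s * g * (Γ.kk s)⁻¹) * Γ.h⁻¹ := by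
  rw [jj]; group
theorem jj_q {s : F4} (hs : s ≠ 0) (b c d e y : F4) : Γ.jj s * Γ.q b c d e y * (Γ.jj s)⁻¹ =
    Γ.q (w * b) (w * (s ^ 2 * c)) (w * (s * d)) (w * e) (v * y) := by rw [jj_conj, Γ.kk_q hs, Γ.h_q]
theorem jj_bb {s : F4} (hs : s ≠ 0) (a r : F4) : Γ.jj s * Γ.bb a r * (Γ.jj s)⁻¹ = Γ.bb (v * a) (v * r) := by
  rw [jj_conj, Γ.bbD (Γ.kkD hs), mul_inv_cancel_right, h_bb]
theorem k_jj (s : F4) : Γ.k * Γ.jj s = Γ.jj s * Γ.k := by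
  rw [jj, ← mul_assoc, ← Γ.hk, mul_assoc, k_kk, mul_assoc]
theorem B_fix {s : F4} (hs : s ≠ 0) {β : G} (hβ : β ∈ Γ.B) (e : Γ.jj s * β = β * Γ.jj s) : β = 1 := by
  obtain ⟨a, r, rfl⟩ := hβ
  rw [← mul_inv_eq_iff_eq_mul, Γ.jj_bb hs] at e
  have h : ∀ a : F4, v * a = a → a = 0 := by decide
  exact Γ.bb_eq_one.2 ⟨h _ (Γ.bb_inj e).1, h _ (Γ.bb_inj e).2⟩
theorem QB_fix {s : F4} (hs : s ≠ 0) {z β : G} (hz : z ∈ Γ.Q) (hβ : β ∈ Γ.B)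
    (e : Γ.jj s * (z * β) = z * β * Γ.jj s) : z * β ∈ Γ.Q := by
  obtain ⟨a, r, rfl⟩ := hβ
  have hA := Γ.D_le_A (Γ.Q_le_D hz)
  rw [← mul_inv_eq_iff_eq_mul, ← conj_mul, Γ.jj_bb hs] at e
  have h1 : Γ.bb (a + v * a) (r + v * r) = z⁻¹ * (Γ.jj s * z * (Γ.jj s)⁻¹) := by
    rw [← bb_mul, ← Γ.bb_inv (v * a), eq_inv_mul_iff_mul_eq, ← mul_assoc, ← e, mul_inv_cancel_right]
  have h2 := Γ.bb_A (h1 ▸ mul_mem (inv_mem hA) (mul_mem (mul_mem (Γ.jjA s) hA) (inv_mem (Γ.jjA s))))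
  rw [(by decide : ∀ r : F4, r + v * r = 0 → r = 0) r h2, bb_y]
  exact mul_mem hz (Γ.qQ ..)
theorem Q_fix1 {z : G} (hz : z ∈ Γ.Q) (e : Γ.jj 1 * z = z * Γ.jj 1) : z = 1 := by
  obtain ⟨b, c, d, e', y, rfl⟩ := hz
  rw [← mul_inv_eq_iff_eq_mul, Γ.jj_q one_ne_zero, Γ.q_eq] at e
  rw [Γ.q_eq_one]; revert b c d e' y; decide
theorem Q_fixw {z : G} (hz : z ∈ Γ.Q) (e : Γ.jj w * z = z * Γ.jj w) : ∃ c, z = Γ.q 0 c 0 0 0 := by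
  obtain ⟨b, c, d, e', y, rfl⟩ := hz
  rw [← mul_inv_eq_iff_eq_mul, Γ.jj_q (by decide), Γ.q_eq] at e
  refine ⟨c, ?_⟩; rw [Γ.q_eq]; revert b c d e' y; decide
theorem Q_fixv {z : G} (hz : z ∈ Γ.Q) (e : Γ.jj v * z = z * Γ.jj v) : ∃ d, z = Γ.q 0 0 d 0 0 := by
  obtain ⟨b, c, d, e', y, rfl⟩ := hz
  rw [← mul_inv_eq_iff_eq_mul, Γ.jj_q (by decide), Γ.q_eq] at e
  refine ⟨d, ?_⟩; rw [Γ.q_eq]; revert b c d e' y; decide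
theorem jw_c (c : F4) : Γ.jj w * Γ.q 0 c 0 0 0 = Γ.q 0 c 0 0 0 * Γ.jj w := by
  rw [← mul_inv_eq_iff_eq_mul, Γ.jj_q (by decide), Γ.q_eq]; revert c; decide
theorem jv_d (d : F4) : Γ.jj v * Γ.q 0 0 d 0 0 = Γ.q 0 0 d 0 0 * Γ.jj v := by
  rw [← mul_inv_eq_iff_eq_mul, Γ.jj_q (by decide), Γ.q_eq]; revert d; decide
theorem frB : Fr Γ.t Γ.B := fun _ hz e => Γ.B_free hz e

/-- `g` moves `t` to `t z` modulo `B` -/
def Tr (g z : G) : Prop := ∃ β ∈ Γ.B, g * Γ.t * g⁻¹ = Γ.t * z * β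

variable {Γ} {W : Subgroup G}

namespace QS

theorem cW (hW : Γ.QS W) {g : G} (hg : g ∈ W) (e : g * Γ.t = Γ.t * g) : g ∈ Γ.Q := by
  obtain ⟨z, hz, β, hβ, rfl⟩ := hW.ker g hg 1 (one_mem _) (by rw [e]; simp)
  refine mul_mem hz (Γ.Y_le_Q (Γ.Y_of_B hβ (mul_left_cancel (a := z) ?_)))
  rw [← mul_assoc, e, ← mul_assoc, ← mul_assoc, Γ.At (Γ.D_le_A (Γ.Q_le_D hz))]
theorem tr_mul (hW : Γ.QS W) {g g' z z' : G} (hg : g ∈ W) (hz' : z' ∈ Γ.Q) (h : Γ.Tr g z) (h' : Γ.Tr g' z') :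
    Γ.Tr (g * g') (z * z') := by
  obtain ⟨β, hβ, e⟩ := h
  obtain ⟨β', hβ', e'⟩ := h'
  have h1 := hW.comm g hg z' (hW.QW hz')
  refine ⟨_, mul_mem (mul_mem hβ h1) hβ', ?_⟩
  calc _ = g * (g' * Γ.t * g'⁻¹) * g⁻¹ := by group
    _ = (g * Γ.t * g⁻¹) * (g * z' * g⁻¹ * z'⁻¹) * z' * (g * β' * g⁻¹) := by rw [e']; group
    _ = Γ.t * z * ((β * (g * z' * g⁻¹ * z'⁻¹)) * z') * β' := by rw [e, hW.cB g hg β' hβ']; group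
    _ = _ := by rw [← Γ.BD (Γ.Q_le_D hz') (mul_mem hβ h1)]; group
theorem tr_ker (hW : Γ.QS W) {g g' z : G} (hg : g ∈ W) (hg' : g' ∈ W) (h : Γ.Tr g z) (h' : Γ.Tr g' z) :
    ∃ z' ∈ Γ.Q, ∃ β ∈ Γ.B, g = g' * (z' * β) := by
  obtain ⟨β, hβ, e⟩ := h
  obtain ⟨β', hβ', e'⟩ := h'
  obtain ⟨z', hz', β₁, hβ₁, e1⟩ := hW.ker _ (mul_mem (inv_mem hg') hg) _ (mul_mem (inv_mem hβ') hβ) (by
    calc _ = g'⁻¹ * (g * Γ.t * g⁻¹) * g' := by group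
      _ = g'⁻¹ * (g' * Γ.t * g'⁻¹) * ((β'⁻¹ * β) * g') := by rw [e, e']; group
      _ = _ := by rw [← hW.cB g' hg' _ (mul_mem (inv_mem hβ') hβ)]; group)
  exact ⟨z', hz', β₁, hβ₁, by rw [← e1]; group⟩
theorem fr (hW : Γ.QS W) : Fr Γ.t W := fun g hg e => by
  obtain ⟨z, hz, β, hβ, rfl⟩ := hW.ker g hg _ (inv_mem (hW.sq g hg)) (by
    calc _ = Γ.t⁻¹ * (Γ.t * g * (Γ.t * g)) * (g * g)⁻¹ := by group
      _ = _ := by rw [e, Γ.t_inv, mul_one])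
  obtain ⟨g₁, hg₁, β₁, hβ₁, e1⟩ := hW.surj z hz
  have e2 : Γ.t * (z * β) = g₁ * (Γ.t * (β₁⁻¹ * β)) * g₁⁻¹ := by
    calc _ = (g₁ * Γ.t * g₁⁻¹) * (β₁⁻¹ * β) := by rw [e1]; group
      _ = g₁ * Γ.t * (g₁⁻¹ * (β₁⁻¹ * β)) := by group
      _ = _ := by rw [hW.cB _ (inv_mem hg₁) _ (mul_mem (inv_mem hβ₁) hβ)]; group
  obtain ⟨g₂, hg₂, e3⟩ := Γ.B_free (mul_mem (inv_mem hβ₁) hβ) (by
    rw [e2, conj_mul, conj_eq_one_iff] at e; exact e)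
  exact ⟨g₁ * g₂, mul_mem hg₁ (hW.BW hg₂), by rw [e2, e3]; group⟩
theorem njj (hW : Γ.QS W) {s : F4} (hs : s ≠ 0) {g : G} (hg : g ∈ W) : Γ.jj s * g * (Γ.jj s)⁻¹ ∈ W := by
  rw [jj_conj]; exact hW.nh _ (hW.nD _ (Γ.kkD hs) g hg)
theorem j_tr (hW : Γ.QS W) {s : F4} (hs : s ≠ 0) {g : G} (hg : g ∈ W) (e : Γ.jj s * g = g * Γ.jj s) :
    ∃ z ∈ Γ.Q, Γ.jj s * z = z * Γ.jj s ∧ g * Γ.t * g⁻¹ = Γ.t * z := by
  obtain ⟨z, hz, β, hβ, e1⟩ := hW.wt g hg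
  have h1 : Commute (Γ.jj s) Γ.t := Γ.At (Γ.jjA s)
  have h2 : Commute (Γ.jj s) (z * β) := by
    have := h1.inv_right.mul_right (((show Commute (Γ.jj s) g from e).mul_right h1).mul_right
      (show Commute (Γ.jj s) g from e).inv_right)
    rwa [e1, mul_assoc, inv_mul_cancel_left] at this
  exact ⟨_, Γ.QB_fix hs hz hβ h2, h2, by rw [e1, mul_assoc]⟩
theorem j_surj [Finite G] (hW : Γ.QS W) {s : F4} (hs : s ≠ 0) {z : G} (hz : z ∈ Γ.Q) (zz : z * z = 1)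
    (e : Γ.jj s * z = z * Γ.jj s) : ∃ g ∈ W, Γ.jj s * g = g * Γ.jj s ∧ g * Γ.t * g⁻¹ = Γ.t * z := by
  have hA := Γ.D_le_A (Γ.Q_le_D hz)
  obtain ⟨g, hg, e1⟩ := hW.fr z (hW.QW hz) (by
    rw [mul_assoc, ← mul_assoc z, Γ.At hA, mul_assoc, zz, mul_one, Γ.tt])
  have h1 : Commute (Γ.jj s) Γ.t := Γ.At (Γ.jjA s)
  obtain ⟨p, hp, e2⟩ := fix3 (P := Γ.Q) (Γ.pU.to_le Γ.Q_le_U) (g := g) (Γ.jj3 hs)
    (mem_norm_of fun z hz => by rw [jj_conj]; exact Γ.h_Q (Γ.D_Q (Γ.kkD hs) hz))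
    (hW.cW (mul_mem (inv_mem hg) (hW.njj hs hg)) (by
      have h2 : Γ.jj s * (g * Γ.t * g⁻¹) * (Γ.jj s)⁻¹ = g * Γ.t * g⁻¹ := by
        rw [← e1, (h1.mul_right e).eq, mul_inv_cancel_right]
      calc _ = g⁻¹ * (Γ.jj s * (g * ((Γ.jj s)⁻¹ * Γ.t * (Γ.jj s)⁻¹⁻¹) * g⁻¹) * (Γ.jj s)⁻¹) *
            (Γ.jj s * g * (Γ.jj s)⁻¹) := by group
        _ = _ := by rw [Γ.conj_t (inv_mem (Γ.jjA s)), h2]; group))
  refine ⟨_, mul_mem hg (hW.QW hp), e2, ?_⟩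
  rw [e1, mul_assoc g p, Γ.At (Γ.D_le_A (Γ.Q_le_D hp))]; group
theorem j_sq (hW : Γ.QS W) {s : F4} (hs : s ≠ 0) {g : G} (hg : g ∈ W) (e : Γ.jj s * g = g * Γ.jj s) :
    g * g = 1 := Γ.B_fix hs (hW.sq g hg) (Commute.mul_right e e)
theorem j_comm (hW : Γ.QS W) {s : F4} (hs : s ≠ 0) {g g' : G} (hg : g ∈ W) (e : Γ.jj s * g = g * Γ.jj s)
    (hg' : g' ∈ W) (e' : Γ.jj s * g' = g' * Γ.jj s) : g * g' = g' * g := by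
  have h : Commute (Γ.jj s) g := e
  have h' : Commute (Γ.jj s) g' := e'
  have := Γ.B_fix hs (hW.comm g hg g' hg') (((h.mul_right h').mul_right h.inv_right).mul_right h'.inv_right)
  rwa [mul_inv_eq_one, mul_inv_eq_iff_eq_mul] at this
theorem h_fix (hW : Γ.QS W) {g : G} (hg : g ∈ W) (e : Γ.jj 1 * g = g * Γ.jj 1) : g = 1 := by
  obtain ⟨z, hz, e1, e2⟩ := hW.j_tr one_ne_zero hg e
  rw [Γ.Q_fix1 hz e1, mul_one, mul_inv_eq_iff_eq_mul] at e2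
  exact Γ.Q_fix1 (hW.cW hg e2) e
theorem j_k (hW : Γ.QS W) {s : F4} (hs : s ≠ 0) {g g' : G} (hg : g ∈ W) (e : Γ.jj s * g = g * Γ.jj s)
    (hk : ∀ g ∈ W, Γ.jj s * g = g * Γ.jj s → Γ.k * g = g * Γ.k → g = 1)
    (hg' : g' ∈ W) (e' : Γ.k * g' = g' * Γ.k) : g * g' = g' * g := by
  have cj {g : G} (e : Γ.jj s * g = g * Γ.jj s) : Γ.jj s * (Γ.k * g * Γ.k⁻¹) = Γ.k * g * Γ.k⁻¹ * Γ.jj s :=
    (((show Commute (Γ.jj s) Γ.k from (Γ.k_jj s).symm).mul_right e).mul_right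
      (show Commute (Γ.jj s) Γ.k from (Γ.k_jj s).symm).inv_right)
  have h1 := hW.nD _ Γ.kD g hg
  have h2 := hW.nD _ Γ.kD _ h1
  set g₁ := Γ.k * g * Γ.k⁻¹ with hg₁
  set g₂ := Γ.k * g₁ * Γ.k⁻¹ with hg₂
  have h3 : Γ.k * g₂ * Γ.k⁻¹ = g := by
    calc _ = Γ.k ^ 3 * g * (Γ.k ^ 3)⁻¹ := by rw [hg₂, hg₁, pow_three]; group
      _ = g := by rw [Γ.k3]; simp
  have c1 := hW.j_comm hs hg e h1 (cj e)
  have c2 := hW.j_comm hs hg e h2 (cj (cj e))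
  have p : g * (g₁ * g₂) = 1 := hk _ (mul_mem hg (mul_mem h1 h2))
    (Commute.mul_right e (Commute.mul_right (cj e) (cj (cj e)))) (by
      rw [← mul_inv_eq_iff_eq_mul, ← conj_mul, ← conj_mul, h3, ← hg₂, ← hg₁, ← c2, ← mul_assoc, ← c1, mul_assoc])
  have hβ := hW.comm g hg g' hg'
  set β := g * g' * g⁻¹ * g'⁻¹ with hβ'
  have a0 : g * g' * g⁻¹ = β * g' := by rw [hβ']; group
  have st {g : G} (a : g * g' * g⁻¹ = β * g') : Γ.k * g * Γ.k⁻¹ * g' * (Γ.k * g * Γ.k⁻¹)⁻¹ = β * g' := by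
    have e1 : Γ.k⁻¹ * g' * Γ.k = g' := by rw [mul_assoc, ← e', inv_mul_cancel_left]
    calc _ = Γ.k * (g * (Γ.k⁻¹ * g' * Γ.k) * g⁻¹) * Γ.k⁻¹ := by group
      _ = _ := by rw [e1, a, ← mul_assoc, Γ.BD Γ.kD hβ, mul_assoc β, e']; group
  have a1 := st a0
  have a2 := st a1
  rw [← hg₁] at a1
  rw [← hg₁, ← hg₂] at a2
  have a3 : g * (g₁ * g₂) * g' * (g * (g₁ * g₂))⁻¹ = β * (β * β) * g' := by
    calc _ = g * (g₁ * (g₂ * g' * g₂⁻¹) * g₁⁻¹) * g⁻¹ := by group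
      _ = g * (β * (g₁ * g' * g₁⁻¹)) * g⁻¹ := by rw [a2, ← mul_assoc g₁, hW.cB _ h1 β hβ]; group
      _ = (g * (β * β) * g⁻¹) * (g * g' * g⁻¹) := by rw [a1]; group
      _ = _ := by rw [a0, Γ.B_sq hβ]; group
  rw [p, Γ.B_sq hβ, one_mul, inv_one, mul_one, mul_one, ← a0, eq_mul_inv_iff_mul_eq] at a3
  exact a3.symm
theorem jk_fix (hW : Γ.QS W) (s : F4) : ∀ g ∈ W, Γ.jj s * g = g * Γ.jj s → Γ.k * g = g * Γ.k → g = 1 :=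
  fun g hg e e' => hW.h_fix hg (by
    have h1 : Commute (Γ.kk s) g := by
      cases s; exacts [Commute.one_left g, Commute.one_left g, e', Commute.mul_left e' e']
    have := (show Commute (Γ.jj s) g from e).mul_left h1.inv_left
    rw [jj, mul_inv_cancel_right] at this
    rw [jj, Γ.kk_one, mul_one]; exact this)

end QS

end Bs

end CL.G2C
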