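import Cfsg.Agent.INV.G2C.BDef
import Cfsg.Agent.INV.G2C.Gen

/-! # G2C/MkQ : construction of `Q*` -/

set_option autoImplicit false
open Subgroup CL.MSS

namespace CL.G2C

open F4

universe u

variable {G : Type u} [Group G] [Finite G]

namespace Bs

variable (Γ : Bs G)

omit [Finite G] in
theorem MkQ.QB {z β : G} (hz : z ∈ Γ.Q) (hβ : β ∈ Γ.B) : z * β = β * z :=
  Γ.BD (Γ.U_le_D (Γ.Q_le_U hz)) hβ

/-- the group `X` -/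
def MkQ.X : Subgroup G where
  carrier := {g | (∀ β ∈ Γ.B, g * β = β * g) ∧ (∀ θ ∈ Γ.Θ, θ * g = g * θ) ∧
    (∃ z ∈ Γ.Q, ∃ β ∈ Γ.B, g * Γ.t * g⁻¹ = Γ.t * z * β) ∧ ∀ z ∈ Γ.Q, g * z * g⁻¹ * z⁻¹ ∈ Γ.B}
  one_mem' := ⟨by simp, by simp, ⟨1, one_mem _, 1, one_mem _, by simp⟩, by simp⟩
  mul_mem' := by
    rintro g g' ⟨a1, a2, ⟨z, hz, β, hβ, a3⟩, a4⟩ ⟨b1, b2, ⟨z', hz', β', hβ', b3⟩, b4⟩
    refine ⟨fun β h => by rw [mul_assoc, b1 β h, ← mul_assoc, a1 β h, mul_assoc],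
      fun θ h => by rw [← mul_assoc, a2 θ h, mul_assoc, b2 θ h, mul_assoc],
      ⟨z * z', mul_mem hz hz', _, mul_mem (mul_mem hβ (a4 z' hz')) hβ', ?_⟩, fun y hy => ?_⟩
    · calc _ = g * (g' * Γ.t * g'⁻¹) * g⁻¹ := by group
        _ = g * Γ.t * g⁻¹ * (g * z' * g⁻¹ * z'⁻¹) * z' * (g * β' * g⁻¹) := by rw [b3]; group
        _ = Γ.t * z * ((β * (g * z' * g⁻¹ * z'⁻¹)) * z') * β' := by rw [a3, a1 β' hβ']; group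
        _ = _ := by rw [← MkQ.QB Γ hz' (mul_mem hβ (a4 z' hz'))]; group
    · have := mul_mem (b4 y hy) (a4 y hy)
      rwa [show g * g' * y * (g * g')⁻¹ * y⁻¹ = g * (g' * y * g'⁻¹ * y⁻¹) * (y * g⁻¹ * y⁻¹) by group,
        a1 _ (b4 y hy), mul_assoc, ← mul_assoc g, ← mul_assoc g]
  inv_mem' := by
    rintro g ⟨a1, a2, ⟨z, hz, β, hβ, a3⟩, a4⟩
    have c1 : ∀ β ∈ Γ.B, g⁻¹ * β = β * g⁻¹ := fun β h => (show Commute g β from a1 β h).inv_left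
    have c4 : ∀ z ∈ Γ.Q, g⁻¹ * z * g⁻¹⁻¹ * z⁻¹ ∈ Γ.B := fun y hy => by
      have := inv_mem (a4 y hy)
      rwa [show g⁻¹ * y * g⁻¹⁻¹ * y⁻¹ = g⁻¹ * (g * y * g⁻¹ * y⁻¹)⁻¹ * g by group, c1 _ this,
        inv_mul_cancel_right]
    refine ⟨c1, fun θ h => (show Commute θ g from a2 θ h).inv_right,
      ⟨z⁻¹, inv_mem hz, _, mul_mem (inv_mem hβ) (inv_mem (c4 z hz)), ?_⟩, c4⟩
    have e : Γ.t = g⁻¹ * Γ.t * g⁻¹⁻¹ * ((g⁻¹ * z * g⁻¹⁻¹ * z⁻¹) * z) * β := by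
      calc Γ.t = g⁻¹ * (g * Γ.t * g⁻¹) * g := by group
        _ = g⁻¹ * Γ.t * z * (β * g) := by rw [a3]; group
        _ = _ := by rw [← a1 β hβ]; group
    rw [mul_assoc Γ.t, MkQ.QB Γ (inv_mem hz) (mul_mem (inv_mem hβ) (inv_mem (c4 z hz))), mul_assoc β⁻¹,
      ← mul_inv_rev, MkQ.QB Γ hz (c4 z hz)]
    nth_rewrite 2 [e]
    group

namespace MkQ

theorem conj_X {a g : G} (h1 : ∀ β ∈ Γ.B, a * β * a⁻¹ ∈ Γ.B) (h2 : ∀ z ∈ Γ.Q, a * z * a⁻¹ ∈ Γ.Q)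
    (h3 : ∀ θ ∈ Γ.Θ, θ * a = a * θ) (h4 : a * Γ.t = Γ.t * a) (hg : g ∈ X Γ) : a * g * a⁻¹ ∈ X Γ := by
  obtain ⟨a1, a2, ⟨z, hz, β, hβ, a3⟩, a4⟩ := hg
  have n1 := mem_norm_of h1
  have n2 := mem_norm_of h2
  refine ⟨fun β h => ?_, fun θ h => ?_, ⟨_, h2 z hz, _, h1 β hβ, ?_⟩, fun y hy => ?_⟩
  · calc _ = a * (g * (a⁻¹ * β * a)) * a⁻¹ := by group
      _ = _ := by rw [a1 _ (conj_mem' n1 h)]; group
  · exact ((show Commute θ a from h3 θ h).mul_right (a2 θ h)).mul_right (show Commute θ a from h3 θ h).inv_right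
  · have e : a⁻¹ * Γ.t * a = Γ.t := by rw [mul_assoc, ← h4]; group
    calc _ = a * (g * (a⁻¹ * Γ.t * a) * g⁻¹) * a⁻¹ := by group
      _ = a * Γ.t * a⁻¹ * (a * z * a⁻¹) * (a * β * a⁻¹) := by rw [e, a3]; group
      _ = _ := by rw [h4, mul_inv_cancel_right]
  · have := h1 _ (a4 _ (conj_mem' n2 hy))
    rwa [show a * (g * (a⁻¹ * y * a) * g⁻¹ * (a⁻¹ * y * a)⁻¹) * a⁻¹ = a * g * a⁻¹ * y * (a * g * a⁻¹)⁻¹ * y⁻¹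
      by group] at this

omit [Finite G]

theorem QA {z : G} (hz : z ∈ Γ.Q) : z ∈ Γ.A := Γ.U_le_A (Γ.Q_le_U hz)

theorem B_le : Γ.B ≤ X Γ := fun β hβ =>
  ⟨fun _ h => Γ.B_comm hβ h, fun _ h => Γ.BΘ h hβ, by
    obtain ⟨s, r, rfl⟩ := hβ
    exact ⟨_, Γ.qQ .., 1, one_mem _, by rw [Γ.bb_t, mul_one]⟩,
    fun z hz => by rw [← QB Γ hz hβ]; simp⟩

theorem Q_le : Γ.Q ≤ X Γ := fun z hz =>
  ⟨fun _ h => QB Γ hz h, fun _ h => (Γ.cK (QA Γ hz) (Γ.ΘK h)).symm,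
    ⟨1, one_mem _, 1, one_mem _, by rw [Γ.conj_t (QA Γ hz)]; simp⟩, fun y hy => by
      obtain ⟨b, c, d, e, η, rfl⟩ := hz
      obtain ⟨b', c', d', e', η', rfl⟩ := hy
      rw [Γ.q_conj, Γ.q_inv, Γ.q_mul]
      exact Γ.Y_le_B (Γ.q_mem_Y.2 ⟨aa _, aa _, aa _, aa _⟩)⟩

theorem be_mem (s r : F4) : Γ.be s r ∈ X Γ :=
  ⟨by rintro _ ⟨s', r', rfl⟩; exact Γ.be_bb .., fun _ h => Γ.beΘ h s r,
    ⟨_, Γ.qQ .., 1, one_mem _, by rw [Γ.be_t, mul_one]⟩, by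
      rintro _ ⟨b, c, d, e, η, rfl⟩
      obtain ⟨η', h⟩ := Γ.be_q s r b c d e η
      rw [h, QB Γ (Γ.qQ ..) (Γ.bbB ..), mul_inv_cancel_right]
      exact Γ.bbB ..⟩

theorem Z_le : Γ.Θ ⊓ centralizer (Γ.Θ : Set G) ≤ X Γ := fun θ ⟨h1, h2⟩ =>
  ⟨fun _ h => Γ.BΘ h1 h, fun _ h => mem_centralizer_iff.1 h2 _ h,
    ⟨1, one_mem _, 1, one_mem _, by rw [Γ.Θt θ h1]; simp⟩,
    fun z hz => by rw [← Γ.cK (QA Γ hz) (Γ.ΘK h1)]; simp⟩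

theorem ker {g β : G} (hg : g ∈ X Γ) (hβ : β ∈ Γ.B) (e : g * Γ.t * g⁻¹ = Γ.t * β) :
    ∃ z ∈ Γ.Q, ∃ β' ∈ Γ.B, ∃ θ ∈ Γ.Θ ⊓ centralizer (Γ.Θ : Set G), g = z * β' * θ := by
  obtain ⟨r, rfl⟩ := Γ.tB_inv hβ (by rw [← e, conj_mul, Γ.tt]; simp)
  have hc : (Γ.bb 0 r)⁻¹ * g ∈ X Γ := mul_mem (inv_mem (B_le Γ (Γ.bbB ..))) hg
  obtain ⟨d, hd, θ, hθ, e1⟩ := Γ.cenB (c := (Γ.bb 0 r)⁻¹ * g) (by
    rw [← Γ.bb_t 0 r] at e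
    calc _ = (Γ.bb 0 r)⁻¹ * (g * Γ.t * g⁻¹) * g := by group
      _ = _ := by rw [e]; group) fun s r => hc.1 _ (Γ.bbB ..)
  have key : ∀ z ∈ Γ.Q, d * z * d⁻¹ * z⁻¹ ∈ Γ.Y := fun z hz => by
    have := hc.2.2.2 z hz
    rw [e1, show d * θ * z * (d * θ)⁻¹ * z⁻¹ = d * (θ * z) * θ⁻¹ * d⁻¹ * z⁻¹ by group,
      ← Γ.cK (QA Γ hz) (Γ.ΘK hθ), ← mul_assoc, mul_inv_cancel_right] at this
    exact Γ.Y_of_BA this (QA Γ (mul_mem (Γ.D_Q hd hz) (inv_mem hz)))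
  have hdQ := Γ.memQ hd (key _ (Γ.qQ ..)) (key _ (Γ.qQ ..))
  have hθX : θ ∈ X Γ := by
    have := mul_mem (inv_mem (Q_le Γ hdQ)) hc
    rwa [e1, inv_mul_cancel_left] at this
  refine ⟨d, hdQ, _, Γ.bbB 0 r, θ, ⟨hθ, mem_centralizer_iff.2 hθX.2.1⟩, ?_⟩
  rw [QB Γ hdQ (Γ.bbB ..), mul_assoc, ← e1, mul_inv_cancel_left]

/-- the image of `t` -/
def T4 (g : G) (b c d e : F4) : Prop := ∃ β ∈ Γ.B, g * Γ.t * g⁻¹ = Γ.t * Γ.q b c d e 0 * β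

theorem t4_of {g β : G} {b c d e y : F4} (hβ : β ∈ Γ.B) (h : g * Γ.t * g⁻¹ = Γ.t * Γ.q b c d e y * β) :
    T4 Γ g b c d e :=
  ⟨_, mul_mem (Γ.Y_le_B (Γ.yY y)) hβ, by
    rw [h, ← mul_assoc, mul_assoc Γ.t (Γ.q b c d e 0), Γ.q_mul_y, zero_add]⟩

theorem exists_t4 {g : G} (hg : g ∈ X Γ) : ∃ b c d e, T4 Γ g b c d e := by
  obtain ⟨_, ⟨b, c, d, e, y, rfl⟩, β, hβ, h⟩ := hg.2.2.1
  exact ⟨b, c, d, e, t4_of Γ hβ h⟩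

variable {Γ} in
theorem T4.mul {g g' : G} {b c d e b' c' d' e' : F4} (hg : g ∈ X Γ) (h : T4 Γ g b c d e)
    (h' : T4 Γ g' b' c' d' e') : T4 Γ (g * g') (b + b') (c + c') (d + d') (e + e') := by
  obtain ⟨β, hβ, a3⟩ := h
  obtain ⟨β', hβ', b3⟩ := h'
  have hz' := Γ.qQ b' c' d' e' 0
  have a4 := hg.2.2.2 _ hz'
  refine t4_of Γ (mul_mem (mul_mem hβ a4) hβ') (?_ : _ = Γ.t * Γ.q _ _ _ _ (0 + 0 + e * b' + d * c') * _)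
  rw [← Γ.q_mul]
  generalize Γ.q b' c' d' e' 0 = z' at *
  calc _ = g * (g' * Γ.t * g'⁻¹) * g⁻¹ := by group
    _ = g * Γ.t * g⁻¹ * (g * z' * g⁻¹ * z'⁻¹) * z' * (g * β' * g⁻¹) := by rw [b3]; group
    _ = Γ.t * Γ.q b c d e 0 * ((β * (g * z' * g⁻¹ * z'⁻¹)) * z') * β' := by rw [a3, hg.1 β' hβ']; group
    _ = _ := by rw [← QB Γ hz' (mul_mem hβ a4)]; group

theorem ker0 {g : G} (hg : g ∈ X Γ) (h : T4 Γ g 0 0 0 0) :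
    ∃ z ∈ Γ.Q, ∃ β' ∈ Γ.B, ∃ θ ∈ Γ.Θ ⊓ centralizer (Γ.Θ : Set G), g = z * β' * θ := by
  obtain ⟨β, hβ, e⟩ := h
  exact ker Γ hg hβ (by rw [e, Γ.q_zero, mul_one])

theorem pow8 {g : G} (hg : g ∈ X Γ) : g ^ 2 ^ 3 ∈ Γ.Θ ⊓ centralizer (Γ.Θ : Set G) := by
  obtain ⟨b, c, d, e, h⟩ := exists_t4 Γ hg
  have h2 := h.mul hg h
  rw [aa, aa, aa, aa] at h2
  obtain ⟨z, hz, β, hβ, θ, hθ, e1⟩ := ker0 Γ (mul_mem hg hg) h2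
  have c1 : Commute (z * β) θ := ((mul_mem (Q_le Γ hz) (B_le Γ hβ)).2.1 θ hθ.1).symm
  have c2 : (z * β) ^ 4 = 1 := by
    rw [(show Commute z β from QB Γ hz hβ).mul_pow, show 4 = 2 * 2 from rfl, pow_mul, pow_mul, pow_two z, pow_two β,
      Γ.B_sq hβ, one_pow, mul_one]
    obtain ⟨b, c, d, e, y, rfl⟩ := hz
    rw [Γ.q_sq, pow_two, Γ.y_sq]
  rw [show 2 ^ 3 = 2 * 4 from rfl, pow_mul, pow_two, e1, c1.mul_pow, c2, one_mul]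
  exact pow_mem hθ _

theorem t4_be (s r : F4) : T4 Γ (Γ.be s r) 0 0 0 r := ⟨1, one_mem _, by rw [Γ.be_t, mul_one]⟩

/-- conjugates of `be` -/
def bx (a s r : F4) : G := Γ.x a * Γ.n * Γ.be s r * (Γ.x a * Γ.n)⁻¹

theorem xn_mem (a : F4) : Γ.x a * Γ.n ∈ Γ.D := mul_mem (Γ.xD a) Γ.nD

theorem t4_bx (a s r : F4) : T4 Γ (bx Γ a s r) r (a * r) (a ^ 2 * r) (a ^ 3 * r) := by
  have hA := Γ.D_le_A (xn_mem Γ a)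
  refine t4_of Γ (one_mem _) (?_ : _ = Γ.t * Γ.q _ _ _ _ (a ^ 3 * r ^ 2) * _)
  calc _ = Γ.x a * Γ.n * (Γ.be s r * ((Γ.x a * Γ.n)⁻¹ * Γ.t * (Γ.x a * Γ.n)⁻¹⁻¹) * (Γ.be s r)⁻¹) * (Γ.x a * Γ.n)⁻¹ := by
        rw [bx]; group
    _ = Γ.x a * Γ.n * Γ.t * (Γ.x a * Γ.n)⁻¹ * (Γ.x a * (Γ.n * Γ.q 0 0 0 r 0 * Γ.n⁻¹) * (Γ.x a)⁻¹) := by
        rw [Γ.conj_t (inv_mem hA), Γ.be_t]; group
    _ = _ := by rw [Γ.conj_t hA, Γ.n_q, Γ.x_q]; simp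

theorem span {M : Subgroup G} (hM : M ≤ X Γ) (h1 : ∀ s r, Γ.be s r ∈ M) (h2 : ∀ a s r, bx Γ a s r ∈ M)
    (b c d e : F4) : ∃ g ∈ M, T4 Γ g b c d e := by
  have h := ((t4_bx Γ 0 0 (b + (c + w * (c + d)) + (c + d))).mul (hM (h2 ..))
    ((t4_bx Γ 1 0 (c + w * (c + d))).mul (hM (h2 ..)) ((t4_bx Γ w 0 (c + d)).mul (hM (h2 ..))
      (t4_be Γ 0 (e + (c + w * (c + d)) + (c + d))))))
  rw [(by decide : ∀ b c d : F4, b + (c + w * (c + d)) + (c + d) + (c + w * (c + d) + (c + d + 0)) = b),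
    zero_mul, zero_add, (by decide : ∀ c d : F4, 1 * (c + w * (c + d)) + (w * (c + d) + 0) = c),
    zero_pow two_ne_zero, zero_mul, zero_add,
    (by decide : ∀ c d : F4, 1 ^ 2 * (c + w * (c + d)) + (w ^ 2 * (c + d) + 0) = d),
    zero_pow three_ne_zero, zero_mul, zero_add, (by decide : ∀ c d e : F4,
      1 ^ 3 * (c + w * (c + d)) + (w ^ 3 * (c + d) + (e + (c + w * (c + d)) + (c + d))) = e)] at h
  exact ⟨_, mul_mem (h2 ..) (mul_mem (h2 ..) (mul_mem (h2 ..) (h1 ..))), h⟩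

/-- the elements commuting with `g₀` modulo `B` -/
def Cm {W : Subgroup G} (hW : W ≤ X Γ) (g₀ : G) : Subgroup G where
  carrier := {g | g ∈ W ∧ g * g₀ * g⁻¹ * g₀⁻¹ ∈ Γ.B}
  one_mem' := ⟨one_mem _, by simp⟩
  mul_mem' := by
    rintro g g' ⟨a1, a2⟩ ⟨b1, b2⟩
    refine ⟨mul_mem a1 b1, ?_⟩
    have := mul_mem b2 a2
    rwa [show g * g' * g₀ * (g * g')⁻¹ * g₀⁻¹ = g * (g' * g₀ * g'⁻¹ * g₀⁻¹) * (g₀ * g⁻¹ * g₀⁻¹) by group,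
      (hW a1).1 _ b2, mul_assoc, ← mul_assoc g, ← mul_assoc g]
  inv_mem' := by
    rintro g ⟨a1, a2⟩
    refine ⟨inv_mem a1, ?_⟩
    have := inv_mem a2
    rwa [show g⁻¹ * g₀ * g⁻¹⁻¹ * g₀⁻¹ = g⁻¹ * (g * g₀ * g⁻¹ * g₀⁻¹)⁻¹ * g by group, (hW (inv_mem a1)).1 _ this,
      inv_mul_cancel_right]

theorem swap {g g' : G} (h : g * g' * g⁻¹ * g'⁻¹ ∈ Γ.B) : g' * g * g'⁻¹ * g⁻¹ ∈ Γ.B := by
  simpa [mul_assoc] using inv_mem h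

theorem conj_B {d β : G} (hd : d ∈ Γ.D) (hβ : β ∈ Γ.B) : d * β * d⁻¹ ∈ Γ.B := by
  rwa [Γ.BD hd hβ, mul_inv_cancel_right]

theorem be_n {s r s' r' : F4} (hX : Γ.n * Γ.be s' r' * Γ.n⁻¹ ∈ X Γ) {z β : G} (hz : z ∈ Γ.Q) (hβ : β ∈ Γ.B)
    (e : Γ.be s r * (Γ.n * Γ.be s' r' * Γ.n⁻¹) * (Γ.be s r)⁻¹ * (Γ.n * Γ.be s' r' * Γ.n⁻¹)⁻¹ = z * β) :
    z * β ∈ Γ.B := by
  by_cases h0 : r = 0
  · rw [← e, h0, Γ.be_e]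
    exact swap Γ (hX.2.2.2 _ (Γ.qQ ..))
  by_cases h0' : r' = 0
  · rw [← e, h0', Γ.be_e, Γ.n_q]
    exact (be_mem Γ s r).2.2.2 _ (Γ.qQ ..)
  obtain ⟨b, c, d, ε, y, rfl⟩ := hz
  have g1 := Γ.be_sq s r
  have g2 : Γ.n * Γ.be s' r' * Γ.n⁻¹ * (Γ.n * Γ.be s' r' * Γ.n⁻¹) = 1 := by rw [conj_mul, Γ.be_sq]; simp
  have cm : ∀ γ δ, Γ.q b c d ε y * Γ.q 0 γ δ 0 0 = Γ.q 0 γ δ 0 0 * Γ.q b c d ε y := fun γ δ => by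
    have k1 : Commute (Γ.q 0 γ δ 0 0) (Γ.be s r) := Γ.q_be ..
    have k2 : Commute (Γ.q 0 γ δ 0 0) (Γ.n * Γ.be s' r' * Γ.n⁻¹) := by
      have := Γ.q_be δ γ 0 (δ * γ) s' r'
      have e2 : Γ.q 0 γ δ 0 0 = Γ.n * Γ.q 0 δ γ 0 (δ * γ) * Γ.n⁻¹ := by rw [Γ.n_q]; simp [aa]
      rw [e2, commute_iff_eq, conj_mul, conj_mul, this]
    have k3 := ((k1.mul_right k2).mul_right k1.inv_right).mul_right k2.inv_right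
    rw [e, commute_iff_eq, mul_assoc, ← QB Γ (Γ.qQ ..) hβ, ← mul_assoc, ← mul_assoc] at k3
    exact (mul_right_cancel k3).symm
  obtain rfl : d = 0 := by simpa using Γ.q_comm_iff.1 (cm 1 0)
  obtain rfl : c = 0 := by simpa using Γ.q_comm_iff.1 (cm 0 1)
  have iv : (Γ.q b 0 0 ε y * β)⁻¹ = Γ.q b 0 0 ε y * Γ.bb (ε * b) 0 * β := by
    rw [mul_inv_rev, ← QB Γ (inv_mem (Γ.qQ ..)) (inv_mem hβ), Γ.q_inv, Γ.bb_y, Γ.q_mul_y,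
      inv_eq_of_mul_eq_one_right (Γ.B_sq hβ)]
    simp
  have key : ∀ g ∈ X Γ, ∀ η ρ, g * Γ.q b 0 0 ε y * g⁻¹ = Γ.q b 0 0 ε y * Γ.bb η ρ →
      g * (Γ.q b 0 0 ε y * β) * g⁻¹ = (Γ.q b 0 0 ε y * β)⁻¹ → ρ = 0 := fun g hg η ρ h1 h2 => by
    rw [iv, ← conj_mul, h1, hg.1 β hβ, mul_inv_cancel_right] at h2
    exact (Γ.bb_inj (mul_left_cancel (mul_right_cancel h2))).2
  generalize hg2 : Γ.n * Γ.be s' r' * Γ.n⁻¹ = g₂ at e g2 hX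
  have i1 := inv_eq_of_mul_eq_one_right g1
  have i2 := inv_eq_of_mul_eq_one_right g2
  obtain rfl : b = 0 := by
    obtain ⟨η, h⟩ := Γ.be_q s r b 0 0 ε y
    refine (mul_eq_zero.1 (key _ (be_mem Γ s r) η _ h ?_)).resolve_left h0
    rw [← e]
    simp only [mul_inv_rev, i1, i2, ← mul_assoc, g1, one_mul]
  obtain rfl : ε = 0 := by
    obtain ⟨η, h⟩ := Γ.be_q s' r' ε 0 0 0 y
    refine (mul_eq_zero.1 (key _ hX η (r' * ε) ?_ ?_)).resolve_left h0'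
    · have e2 : Γ.q 0 0 0 ε y = Γ.n * Γ.q ε 0 0 0 y * Γ.n⁻¹ := by rw [Γ.n_q]; simp
      rw [← hg2, e2, conj_mul, conj_inv, conj_mul, h, ← conj_mul, Γ.bbD Γ.nD, mul_inv_cancel_right]
    · rw [← e]
      simp only [mul_inv_rev, i1, i2, mul_assoc, g2, mul_one]
  exact mul_mem (Γ.Y_le_B (Γ.yY y)) hβ

end MkQ

open MkQ in
/-- PROOF. `X = {g | g ∈ C(B) ∩ C(Θ), (∃ z ∈ Q, β ∈ B, g t g⁻¹ = t z β), ∀ z ∈ Q, g z g⁻¹ z⁻¹ ∈ B}` is a subgroup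
(closed under products; inverses by finiteness or directly), normalised by `D`, `h`, `t`, containing `B`, `Q`,
`be s r` (`be_bb`, `beΘ`, `be_t`, `be_q`) and `Z = Θ ⊓ C(Θ)`.  KER: `g ∈ X`, `g t g⁻¹ = t β` ⇒ `β = y r` (`tB_inv`),
`(b r)⁻¹ g = d θ` (`cenB`), `d ∈ Q` by `memQ` (`Y_of_BA`), `θ ∈ Z`.  `g² t g⁻² ∈ t B`, so `g² = z β θ`, `g⁸ ∈ Z`.
`W` from `two_part`; `ker` by `Θ_eq_one`-like argument (`z β` is a 2-element commuting with `θ`).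
`τ(g) = (b,c,d,e)` for `g t g⁻¹ = t * q b c d e y * β` is additive on `W` with kernel `Q B`.
GEN: a subgroup `Z' ≤ W` containing `Q`, `B`, `be s r` and all `x a * n * be s r * n⁻¹ * (x a)⁻¹` is `W`: these have
`τ = (0,0,0,r)` and `(r, a r, a² r, a³ r)`, which span `F₄⁴` (`a = 0, 1, w`); this also gives `surj`.
`c = [g₁, g₂]` with `g₁ = be s r`, `g₂ = n (be s' r') n⁻¹` lies in `B`: `c = z β` by `ker`; `c` centralises `xc`, `xd`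
(`q_be`, `n_q`), so `z = q β' 0 0 ε' η`; `g₁ c g₁⁻¹ = c⁻¹ = c * y _` and `be_q` give `r β' = 0`; `g₂ c g₂⁻¹ = c⁻¹` gives
`r' ε' = 0`; (if `r = 0` or `r' = 0` then `g₁` or `g₂ ∈ Q` and `c ∈ B` by definition of `X`).
`Z₁ = {g ∈ W | [g, be s r] ∈ B ∀ s r}` is `W` by GEN (`x a` commutes with `be`), then
`Z₂ = {g ∈ W | [g, W] ≤ B}` is `D`-invariant and contains `be`, so is `W`: `comm`; `Z₃ = {g | g² ∈ B}`: `sq`. -/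
theorem exists_qs : ∃ W, Γ.QS W := by
  obtain ⟨W, hX, pW, h2, -⟩ := two_part (Z_le Γ) (fun z hz x hx => hx.2.1 z hz.1) (fun z hz => Γ.Θodd z hz.1)
    fun x hx => ⟨3, pow8 Γ hx⟩
  have cj : ∀ {a g}, g ∈ W → a * g * a⁻¹ ∈ X Γ → a * g * a⁻¹ ∈ W := fun hg h => by
    obtain ⟨k, hk⟩ := pow_two_of_mem pW hg
    exact h2 _ h k (by rw [conj_pow, hk]; simp)
  have BW : Γ.B ≤ W := fun β h => h2 β (B_le Γ h) 1 (by rw [pow_one, pow_two, Γ.B_sq h])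
  have QW : Γ.Q ≤ W := fun z h => let ⟨k, hk⟩ := pow_two_of_mem Γ.pU (Γ.Q_le_U h); h2 z (Q_le Γ h) k hk
  have eW : ∀ s r, Γ.be s r ∈ W := fun s r => h2 _ (be_mem Γ s r) 1 (by rw [pow_one, pow_two, Γ.be_sq])
  have nD : ∀ d ∈ Γ.D, ∀ g ∈ W, d * g * d⁻¹ ∈ W := fun d hd g hg => cj hg (conj_X Γ (fun _ h => conj_B Γ hd h)
    (fun _ h => Γ.D_Q hd h) (fun _ h => (Γ.cK (Γ.D_le_A hd) (Γ.ΘK h)).symm) (Γ.At (Γ.D_le_A hd)) (hX hg))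
  have xW : ∀ a s r, bx Γ a s r ∈ W := fun a s r => nD _ (xn_mem Γ a) _ (eW s r)
  have th : ∀ {g z β θ}, g ∈ W → z ∈ Γ.Q → β ∈ Γ.B → θ ∈ Γ.Θ → g = z * β * θ → g = z * β := by
    intro g z β θ hg hz hβ hθ e
    have : θ ∈ W := (mul_mem_cancel_left (mul_mem (QW hz) (BW hβ))).1 (e ▸ hg)
    obtain ⟨k, hk⟩ := pow_two_of_mem pW this
    rw [e, eq_one_of_odd (Γ.Θodd θ hθ) hk, mul_one]
  have k0 : ∀ {g}, g ∈ W → T4 Γ g 0 0 0 0 → ∃ z ∈ Γ.Q, ∃ β ∈ Γ.B, g = z * β := fun hg h => by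
    obtain ⟨z, hz, β, hβ, θ, hθ, e⟩ := ker0 Γ (hX hg) h
    exact ⟨z, hz, β, hβ, th hg hz hβ hθ.1 e⟩
  have gen : ∀ M ≤ W, Γ.Q ≤ M → Γ.B ≤ M → (∀ s r, Γ.be s r ∈ M) → (∀ a s r, bx Γ a s r ∈ M) → W ≤ M := by
    intro M hM m1 m2 m3 m4 g hg
    obtain ⟨b, c, d, e, h⟩ := exists_t4 Γ (hX hg)
    obtain ⟨g', hg', h'⟩ := span Γ (hM.trans hX) m3 m4 b c d e
    have h3 := h.mul (hX hg) h'
    rw [aa, aa, aa, aa] at h3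
    obtain ⟨z, hz, β, hβ, e⟩ := k0 (mul_mem hg (hM hg')) h3
    exact (mul_mem_cancel_right hg').1 (e ▸ mul_mem (m1 hz) (m2 hβ))
  have cQ : ∀ {g}, g ∈ W → Γ.Q ≤ Cm Γ hX g := fun hg z hz => ⟨QW hz, swap Γ ((hX hg).2.2.2 z hz)⟩
  have cB : ∀ {g}, g ∈ W → Γ.B ≤ Cm Γ hX g := fun hg β hβ => ⟨BW hβ, by rw [← (hX hg).1 β hβ]; simp⟩
  have c1 : ∀ s r, W ≤ Cm Γ hX (Γ.be s r) := fun s r =>
    gen _ (fun _ h => h.1) (cQ (eW s r)) (cB (eW s r))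
      (fun s' r' => ⟨eW .., by rw [Γ.be_mul, add_comm s', add_comm r', ← Γ.be_mul]; simp⟩) fun a s' r' => ⟨xW .., by
        have m2 := nD _ Γ.nD _ (eW s' r')
        have t2 : T4 Γ (Γ.n * Γ.be s' r' * Γ.n⁻¹) r' 0 0 0 := by
          simpa [bx, Γ.x_zero] using t4_bx Γ 0 s' r'
        have g2 : (Γ.n * Γ.be s' r' * Γ.n⁻¹)⁻¹ = Γ.n * Γ.be s' r' * Γ.n⁻¹ := by rw [conj_inv, Γ.be_inv]
        have t3 := (((t4_be Γ s r).mul (be_mem Γ s r) t2).mul (hX (mul_mem (eW s r) m2)) (t4_be Γ s r)).mul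
          (hX (mul_mem (mul_mem (eW s r) m2) (eW s r))) t2
        simp only [zero_add, add_zero, aa] at t3
        obtain ⟨z, hz, β, hβ, e⟩ := k0 (mul_mem (mul_mem (mul_mem (eW s r) m2) (eW s r)) m2) t3
        have e' : Γ.be s r * (Γ.n * Γ.be s' r' * Γ.n⁻¹) * (Γ.be s r)⁻¹ * (Γ.n * Γ.be s' r' * Γ.n⁻¹)⁻¹ = z * β := by
          rw [g2, Γ.be_inv, e]
        have h3 := conj_B Γ (Γ.xD a) (swap Γ (e' ▸ be_n Γ (hX m2) hz hβ e'))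
        have e3 : Γ.be s r = Γ.x a * Γ.be s r * (Γ.x a)⁻¹ := by rw [Γ.x_be, mul_inv_cancel_right]
        rw [bx, e3]
        convert h3 using 1
        group⟩
  have cm : ∀ g ∈ W, ∀ g' ∈ W, g * g' * g⁻¹ * g'⁻¹ ∈ Γ.B := fun g hg g' hg' =>
    (gen (Cm Γ hX g') (fun _ h => h.1) (cQ hg') (cB hg') (fun s r => ⟨eW .., swap Γ (c1 s r hg').2⟩)
      (fun a s r => ⟨xW .., by
        have h3 := conj_B Γ (xn_mem Γ a) (swap Γ (c1 s r (nD _ (inv_mem (xn_mem Γ a)) _ hg')).2)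
        rw [bx]
        convert h3 using 1
        group⟩) hg).2
  let S : Subgroup G :=
    { carrier := {g | g ∈ W ∧ g * g ∈ Γ.B}
      one_mem' := ⟨one_mem _, by simp⟩
      mul_mem' := by
        rintro g g' ⟨a1, a2⟩ ⟨b1, b2⟩
        refine ⟨mul_mem a1 b1, ?_⟩
        have := mul_mem (mul_mem a2 (cm _ (inv_mem a1) _ b1)) b2
        convert this using 1
        group
      inv_mem' := by
        rintro g ⟨a1, a2⟩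
        exact ⟨inv_mem a1, by simpa using inv_mem a2⟩ }
  have sq : W ≤ S := gen S (fun _ h => h.1)
    (fun z hz => ⟨QW hz, by obtain ⟨b, c, d, e, y, rfl⟩ := hz; rw [Γ.q_sq]; exact Γ.Y_le_B (Γ.yY _)⟩)
    (fun β hβ => ⟨BW hβ, mul_mem hβ hβ⟩) (fun s r => ⟨eW .., by rw [Γ.be_sq]; exact one_mem _⟩)
    fun a s r => ⟨xW .., by rw [bx, conj_mul, Γ.be_sq]; simp⟩
  refine ⟨W, pW, fun g hg => (hX hg).1, fun g hg => (hX hg).2.1, BW, QW, eW, nD,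
    fun g hg => cj hg (conj_X Γ (fun _ h => Γ.h_B h) (fun _ h => Γ.h_Q h) (fun _ h => (Γ.cK Γ.hA (Γ.ΘK h)).symm)
      (Γ.At Γ.hA) (hX hg)),
    fun g hg => cj hg (conj_X Γ (fun _ h => Γ.t_B h) (fun _ h => by rwa [Γ.t_conj (QA Γ h)]) Γ.Θt rfl (hX hg)),
    fun g hg => (hX hg).2.2.1, ?_, fun g hg β hβ e => k0 hg ⟨β, hβ, by rw [e, Γ.q_zero, mul_one]⟩, cm,
    fun g hg => (sq hg).2⟩
  rintro _ ⟨b, c, d, e, y, rfl⟩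
  obtain ⟨g, hg, β, hβ, h⟩ := span Γ hX eW xW b c d e
  exact ⟨g, hg, _, mul_mem (Γ.Y_le_B (Γ.yY y)) hβ, by
    rw [h, ← mul_assoc, mul_assoc Γ.t (Γ.q b c d e y), Γ.q_mul_y, aa]⟩

end Bs

end CL.G2C
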