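import Cfsg.Agent.SPOR.F4

/-! # G2C/RDef : the rings `F₄[x] / (x² + x + c)` (`F₁₆` or `F₄ × F₄`) -/

set_option autoImplicit false

namespace CL.G2C

open F4

/-- `⟨s, r⟩ = s + r x` in `F₄[x] / (x² + x + c)` -/
@[ext] structure Rg (c : F4) where
  s : F4
  r : F4
  deriving DecidableEq

namespace Rg

variable {c : F4}

instance instFintypeRg : Fintype (Rg c) :=
  Fintype.ofEquiv (F4 × F4) ⟨fun p => ⟨p.1, p.2⟩, fun a => (a.s, a.r), fun _ => rfl, fun _ => rfl⟩
instance instZeroRg : Zero (Rg c) := ⟨⟨0, 0⟩⟩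
instance instOneRg : One (Rg c) := ⟨⟨1, 0⟩⟩
instance instAddRg : Add (Rg c) := ⟨fun a b => ⟨a.s + b.s, a.r + b.r⟩⟩
instance instNegRg : Neg (Rg c) := ⟨fun a => ⟨-a.s, -a.r⟩⟩
instance instMulRg : Mul (Rg c) :=
  ⟨fun a b => ⟨a.s * b.s + c * (a.r * b.r), a.s * b.r + a.r * b.s + a.r * b.r⟩⟩
@[simp] theorem zero_s : (0 : Rg c).s = 0 := rfl
@[simp] theorem zero_r : (0 : Rg c).r = 0 := rfl
@[simp] theorem one_s : (1 : Rg c).s = 1 := rfl
@[simp] theorem one_r : (1 : Rg c).r = 0 := rfl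
@[simp] theorem add_s (a b : Rg c) : (a + b).s = a.s + b.s := rfl
@[simp] theorem add_r (a b : Rg c) : (a + b).r = a.r + b.r := rfl
@[simp] theorem neg_s (a : Rg c) : (-a).s = -a.s := rfl
@[simp] theorem neg_r (a : Rg c) : (-a).r = -a.r := rfl
@[simp] theorem mul_s (a b : Rg c) : (a * b).s = a.s * b.s + c * (a.r * b.r) := rfl
@[simp] theorem mul_r (a b : Rg c) : (a * b).r = a.s * b.r + a.r * b.s + a.r * b.r := rfl

instance instCommRingRg : CommRing (Rg c) :=
  CommRing.ofMinimalAxioms (fun _ _ _ => by ext <;> simp [add_assoc]) (fun _ => by ext <;> simp)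
    (fun _ => by ext <;> simp) (fun _ _ _ => by ext <;> simp <;> ring) (fun _ _ => by ext <;> simp <;> ring)
    (fun _ => by ext <;> simp) (fun _ _ _ => by ext <;> simp <;> ring)

theorem add_self (a : Rg c) : a + a = 0 := by
  have h : ∀ s : F4, s + s = 0 := by decide
  ext <;> simp [h]

/-- the automorphism `x ↦ x + 1` -/
def sg (c : F4) : RingAut (Rg c) where
  toFun a := ⟨a.s + a.r, a.r⟩
  invFun a := ⟨a.s + a.r, a.r⟩
  left_inv a := by
    have h : ∀ s r : F4, s + r + r = s := by decide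
    ext <;> simp [h]
  right_inv a := by
    have h : ∀ s r : F4, s + r + r = s := by decide
    ext <;> simp [h]
  map_mul' a b := by
    have h : ∀ s : F4, s + s = 0 := by decide
    ext <;> simp
    · ring
    · linear_combination -h (a.r * b.r)
  map_add' a b := by ext <;> simp; ring

theorem sg_apply (a : Rg c) : sg c a = ⟨a.s + a.r, a.r⟩ := rfl

theorem isUnit_mk {μ : F4} (h : μ ≠ 0) : IsUnit (⟨μ, 0⟩ : Rg c) :=
  IsUnit.of_mul_eq_one ⟨μ⁻¹, 0⟩ (by ext <;> simp [h])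

end Rg

end CL.G2C
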